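import Mathlib
import Cfsg.Agent.Lib.Helper24.Constituent
import Cfsg.Agent.Lib.Helper24.Central
import Cfsg.Agent.Lib.Helper13.Clifford3
import Cfsg.Agent.Lib.Helper2.CharMore

/-!
# A degree bound from a central section
-/

set_option autoImplicit false

namespace Cfsg.Agent.Lib.Lead.DegBound

open Cfsg Cfsg.Agent.Lib.Helper2 Cfsg.Agent.Lib.Helper24 Cfsg.Agent.Lib.Helper6
open scoped ComplexConjugate Classical

attribute [local instance] irrFintype

theorem eq_of_add_eq {z w : ℂ} {n m : ℝ} (hz : ‖z‖ ≤ n) (hw : ‖w‖ ≤ m)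
    (h : z + w = (n : ℂ) + m) : z = n := by
  have h1 : z.re + w.re = n + m := by
    have := congrArg Complex.re h
    simpa using this
  have h2 : z.re ≤ n := le_trans (Complex.re_le_norm z) hz
  have h3 : w.re ≤ m := le_trans (Complex.re_le_norm w) hw
  have h4 : z.re = n := by linarith
  have h5 : z.re ^ 2 + z.im ^ 2 ≤ n ^ 2 := by
    have h6 : ‖z‖ ^ 2 = z.re ^ 2 + z.im ^ 2 := by
      rw [← Complex.normSq_eq_norm_sq, Complex.normSq_apply]
      ring
    rw [← h6]
    exact pow_le_pow_left₀ (norm_nonneg z) hz 2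
  have h7 : z.im = 0 := by
    rw [h4] at h5
    have : z.im ^ 2 ≤ 0 := by linarith
    exact pow_eq_zero_iff two_ne_zero |>.mp (le_antisymm this (sq_nonneg _))
  apply Complex.ext
  · simpa using h4
  · simpa using h7

theorem ker_of_constituent {C : Type*} [Group C] [Fintype C] {r θ : C → ℂ}
    (hr : IsCharacter C r) (hθ : IsIrrCharacter C θ) (h : classInner r θ ≠ 0) {b : C}
    (hb : r b = r 1) : θ b = θ 1 := by
  have h1 := IsCharacter.sub_irr hr hθ h
  obtain ⟨n, hn, hn'⟩ := Cfsg.Agent.Lib.Helper13.IsCharacter.norm_apply_le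
    (IsIrrCharacter.isCharacter hθ) b
  obtain ⟨m, hm, hm'⟩ := Cfsg.Agent.Lib.Helper13.IsCharacter.norm_apply_le h1 b
  rw [hn]
  have h2 : θ b + (r - θ) b = ((n : ℝ) : ℂ) + ((m : ℝ) : ℂ) := by
    push_cast
    rw [← hn, ← hm, Pi.sub_apply, Pi.sub_apply, hb]
    ring
  have := eq_of_add_eq (n := n) (m := m) hn' hm' h2
  simpa using this

variable {G : Type*} [Group G] [Fintype G]

/-- an irreducible character with `B` in its kernel and `D/B` central has `θ(1)² |D| ≤ |G|` -/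
theorem central_section {θ : G → ℂ} (hθ : IsIrrCharacter G θ) (B D : Subgroup G)
    (hcent : ∀ d ∈ D, ∀ c : G, d * c * d⁻¹ * c⁻¹ ∈ B) (hker : ∀ b ∈ B, θ b = θ 1) :
    charDegree θ ^ 2 * Nat.card D ≤ Nat.card G := by
  have h0 := irr_one_ne_zero hθ
  have hG0 : (Nat.card G : ℂ) ≠ 0 := card_ne_zero_complex
  have hnorm : ∀ d ∈ D, θ d * conj (θ d) = θ 1 ^ 2 := by
    intro d hd
    have h1 := schur_average hθ d d⁻¹
    have h2 : ∀ a : G, θ (a * d * a⁻¹ * d⁻¹) = θ 1 := by
      intro a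
      apply hker
      have := B.inv_mem (hcent d hd a)
      simpa [mul_assoc] using this
    rw [Finset.sum_congr rfl (fun a _ => h2 a), Finset.sum_const, Finset.card_univ, nsmul_eq_mul,
      ← Nat.card_eq_fintype_card, IsCharacter.apply_inv (IsIrrCharacter.isCharacter hθ)] at h1
    field_simp at h1
    linear_combination -h1
  have hsum := sum_mul_conj_self hθ
  have h1 : ∑ g : G, ‖θ g‖ ^ 2 = (Nat.card G : ℝ) := by
    have h2 : ((∑ g : G, ‖θ g‖ ^ 2 : ℝ) : ℂ) = ((Nat.card G : ℝ) : ℂ) := by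
      push_cast
      rw [← hsum]
      refine Finset.sum_congr rfl fun g _ => ?_
      rw [Complex.mul_conj, Complex.normSq_eq_norm_sq]
      push_cast
      rfl
    exact_mod_cast h2
  have h3 : ∑ g ∈ Finset.univ.filter (fun g : G => g ∈ D), ‖θ g‖ ^ 2 ≤ ∑ g : G, ‖θ g‖ ^ 2 :=
    Finset.sum_le_sum_of_subset_of_nonneg (Finset.filter_subset _ _) (fun _ _ _ => by positivity)
  have h4 : ∑ g ∈ Finset.univ.filter (fun g : G => g ∈ D), ‖θ g‖ ^ 2 =
      (Nat.card D : ℝ) * (charDegree θ : ℝ) ^ 2 := by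
    have h5 : ∀ g ∈ Finset.univ.filter (fun g : G => g ∈ D),
        ‖θ g‖ ^ 2 = (charDegree θ : ℝ) ^ 2 := by
      intro g hg
      have h6 := hnorm g (Finset.mem_filter.mp hg).2
      rw [Complex.mul_conj, Complex.normSq_eq_norm_sq,
        ← charDegree_cast (IsIrrCharacter.isCharacter hθ)] at h6
      exact_mod_cast h6
    rw [Finset.sum_congr rfl h5, Finset.sum_const, nsmul_eq_mul]
    congr 2
    rw [Nat.card_eq_fintype_card, Fintype.card_subtype]
  rw [h4, h1] at h3
  have h7 : ((Nat.card D * charDegree θ ^ 2 : ℕ) : ℝ) ≤ (Nat.card G : ℝ) := by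
    push_cast
    exact h3
  have h8 : Nat.card D * charDegree θ ^ 2 ≤ Nat.card G := by exact_mod_cast h7
  linarith

theorem degree_bound {ψ : G → ℂ} (hψ : IsIrrCharacter G ψ) (B C D : Subgroup G)
    (hDC : D ≤ C) (hcent : ∀ d ∈ D, ∀ c ∈ C, d * c * d⁻¹ * c⁻¹ ∈ B)
    (hker : ∀ b ∈ B, ψ b = ψ 1) :
    charDegree ψ ^ 2 * Nat.card C * Nat.card D ≤ Nat.card G ^ 2 := by
  have hr : IsCharacter C (fun c : C => ψ c) :=
    IsCharacter.restrict C (IsIrrCharacter.isCharacter hψ)
  obtain ⟨θ, hθ⟩ := exists_constituent hr (irr_one_ne_zero hψ)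
  have h1 := degree_le_index_mul C ⟨ψ, hψ⟩ θ hθ
  have h2 := central_section θ.2 (B.subgroupOf C) (D.subgroupOf C)
    (fun d hd c => Subgroup.mem_subgroupOf.mpr (hcent d (Subgroup.mem_subgroupOf.mp hd) c c.2))
    (fun b hb => ker_of_constituent hr θ.2 hθ (hker b (Subgroup.mem_subgroupOf.mp hb)))
  have h3 : Nat.card (D.subgroupOf C) = Nat.card D :=
    Nat.card_congr (Subgroup.subgroupOfEquivOfLe hDC).toEquiv
  rw [h3] at h2
  have h4 := C.card_mul_index
  change charDegree ψ ≤ _ at h1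
  calc charDegree ψ ^ 2 * Nat.card C * Nat.card D
      ≤ (C.index * charDegree (θ : C → ℂ)) ^ 2 * Nat.card C * Nat.card D := by gcongr
    _ = C.index ^ 2 * Nat.card C * (charDegree (θ : C → ℂ) ^ 2 * Nat.card D) := by ring
    _ ≤ C.index ^ 2 * Nat.card C * Nat.card C := by gcongr
    _ = Nat.card G ^ 2 := by rw [← h4]; ring

end Cfsg.Agent.Lib.Lead.DegBound
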