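import Mathlib
import Cfsg.Agent.Lib.Lead.GlaubO

/-!
# Sums over a generating coset in terms of the centraliser
-/

set_option autoImplicit false

namespace Cfsg.Agent.Lib.Lead.Glaub

open Cfsg Cfsg.Agent.Lib.Helper2 Cfsg.Agent.Lib.Helper6 Cfsg.Agent.Lib.Helper24
open scoped ComplexConjugate Classical

section

variable {Γ : Type*} [Group Γ]

theorem mem_C_iff (G S C : Subgroup Γ) (hC : C = G ⊓ Subgroup.centralizer (S : Set Γ)) {s : Γ}
    (hs : Subgroup.zpowers s = S) (g : Γ) : g ∈ C ↔ g ∈ G ∧ g * s = s * g := by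
  rw [hC]
  constructor
  · rintro ⟨h1, h2⟩
    refine ⟨h1, ?_⟩
    exact (Subgroup.mem_centralizer_iff.mp h2 s (hs ▸ Subgroup.mem_zpowers s)).symm
  · rintro ⟨h1, h2⟩
    refine ⟨h1, ?_⟩
    change g ∈ Subgroup.centralizer (S : Set Γ)
    rw [Subgroup.mem_centralizer_iff]
    intro t ht
    rw [← hs] at ht
    obtain ⟨i, rfl⟩ := Subgroup.mem_zpowers_iff.mp ht
    have h3 : Commute g s := h2
    exact (h3.zpow_right i).symm

theorem mul_pow_crt [Finite Γ] (G S C : Subgroup Γ)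
    (hC : C = G ⊓ Subgroup.centralizer (S : Set Γ)) {c s : Γ} (hc : c ∈ C) (hs : s ∈ S)
    {N a b : ℕ} (ha : N ≡ a [MOD Nat.card G]) (hb : N ≡ b [MOD Nat.card S]) :
    (c * s) ^ N = c ^ a * s ^ b := by
  rw [hC] at hc
  have h1 : Commute c s := (Subgroup.mem_centralizer_iff.mp hc.2 s hs).symm
  rw [h1.mul_pow]
  congr 1
  · rw [pow_eq_pow_iff_modEq]
    exact ha.of_dvd (Subgroup.orderOf_dvd_natCard G hc.1)
  · rw [pow_eq_pow_iff_modEq]
    exact hb.of_dvd (Subgroup.orderOf_dvd_natCard S hs)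

theorem exists_crt (G S : Subgroup Γ) (hcop : (Nat.card G).Coprime (Nat.card S)) (a b : ℕ) :
    ∃ N : ℕ, N ≡ a [MOD Nat.card G] ∧ N ≡ b [MOD Nat.card S] :=
  ⟨(Nat.chineseRemainder hcop a b : ℕ), (Nat.chineseRemainder hcop a b).2.1,
    (Nat.chineseRemainder hcop a b).2.2⟩

/-- conjugacy in the coset forces the conjugating element into the centraliser -/
theorem conj_coset [Finite Γ] (G S C : Subgroup Γ) (hcop : (Nat.card G).Coprime (Nat.card S))
    (hC : C = G ⊓ Subgroup.centralizer (S : Set Γ)) {s : Γ} (hs : Subgroup.zpowers s = S)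
    {c c₀ d : Γ} (hc : c ∈ C) (hc₀ : c₀ ∈ C) (hd : d ∈ G) (h : d * (c * s) * d⁻¹ = c₀ * s) :
    d ∈ C ∧ d * c * d⁻¹ = c₀ := by
  obtain ⟨N, hN0, hN1⟩ := exists_crt G S hcop 0 1
  have hsS : s ∈ S := hs ▸ Subgroup.mem_zpowers s
  have h1 := mul_pow_crt G S C hC hc hsS hN0 hN1
  have h2 := mul_pow_crt G S C hC hc₀ hsS hN0 hN1
  rw [pow_zero, pow_one, one_mul] at h1 h2
  have h3 : d * s * d⁻¹ = s := by
    calc d * s * d⁻¹ = d * (c * s) ^ N * d⁻¹ := by rw [h1]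
      _ = s := by rw [← conj_pow, h, h2]
  have h4 : d * s = s * d := by
    calc d * s = d * s * d⁻¹ * d := by group
      _ = s * d := by rw [h3]
  refine ⟨(mem_C_iff G S C hC hs d).mpr ⟨hd, h4⟩, ?_⟩
  have h5 : d * (c * s) * d⁻¹ = d * c * d⁻¹ * (d * s * d⁻¹) := by group
  rw [h5, h3] at h
  exact mul_right_cancel h

variable [Fintype Γ] (G S C : Subgroup Γ) [Fintype G] [Fintype C]

theorem fiber_card (hnorm : ∀ s ∈ S, ∀ g ∈ G, s * g * s⁻¹ ∈ G)
    (hcop : (Nat.card G).Coprime (Nat.card S))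
    (hC : C = G ⊓ Subgroup.centralizer (S : Set Γ)) {s : Γ} (hs : Subgroup.zpowers s = S) (y : G) :
    (Finset.univ.filter (fun p : G × C => (p.1 : Γ) * (p.2 * s) * (p.1 : Γ)⁻¹ = y * s)).card =
      Nat.card C := by
  have hCG : C ≤ G := hC ▸ inf_le_left
  have hsS : s ∈ S := hs ▸ Subgroup.mem_zpowers s
  have hsn : s ∈ Subgroup.normalizer (G : Set Γ) := by
    rw [Subgroup.mem_normalizer_iff]
    intro g
    constructor
    · exact hnorm s hsS g
    · intro h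
      have := hnorm s⁻¹ (S.inv_mem hsS) _ h
      simpa [mul_assoc] using this
  obtain ⟨x, hx, c₀, hc₀, hcomm, hconj⟩ := Cfsg.Agent.S1496.result G s hsn
    (by rw [← Nat.card_zpowers, hs]; exact hcop.symm) y y.2
  have hc₀C : c₀ ∈ C := (mem_C_iff G S C hC hs c₀).mpr ⟨hc₀, hcomm⟩
  rw [Nat.card_eq_fintype_card, ← Finset.card_univ]
  symm
  apply Finset.card_bij (fun (d : C) _ => ((⟨x⁻¹ * d, G.mul_mem (G.inv_mem hx) (hCG d.2)⟩ : G),
    (⟨(d : Γ)⁻¹ * c₀ * d, C.mul_mem (C.mul_mem (C.inv_mem d.2) hc₀C) d.2⟩ : C)))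
  · intro d _
    rw [Finset.mem_filter]
    refine ⟨Finset.mem_univ _, ?_⟩
    have hd := ((mem_C_iff G S C hC hs d).mp d.2).2
    simp only []
    calc x⁻¹ * (d : Γ) * ((d : Γ)⁻¹ * c₀ * d * s) * (x⁻¹ * (d : Γ))⁻¹
        = x⁻¹ * (c₀ * ((d : Γ) * s) * (d : Γ)⁻¹) * x := by group
      _ = x⁻¹ * (c₀ * (s * (d : Γ)) * (d : Γ)⁻¹) * x := by rw [hd]
      _ = x⁻¹ * (c₀ * s) * x := by group
      _ = x⁻¹ * (x * (y * s) * x⁻¹) * x := by rw [hconj]
      _ = y * s := by group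
  · intro d _ d' _ h
    have h1 := congrArg (fun p : G × C => (p.1 : Γ)) h
    simp only [] at h1
    exact Subtype.ext (mul_left_cancel h1)
  · intro p hp
    rw [Finset.mem_filter] at hp
    have h1 : (x * p.1) * ((p.2 : Γ) * s) * (x * p.1)⁻¹ = c₀ * s := by
      rw [← hconj, ← hp.2]
      group
    obtain ⟨h2, h3⟩ := conj_coset G S C hcop hC hs p.2.2 hc₀C (G.mul_mem hx p.1.2) h1
    refine ⟨⟨x * p.1, h2⟩, Finset.mem_univ _, ?_⟩
    apply Prod.ext
    · apply Subtype.ext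
      simp
    · apply Subtype.ext
      simp only []
      rw [← h3]
      group

/-- sums of class functions over a generating coset -/
theorem sum_gen_coset (hnorm : ∀ s ∈ S, ∀ g ∈ G, s * g * s⁻¹ ∈ G)
    (hcop : (Nat.card G).Coprime (Nat.card S))
    (hC : C = G ⊓ Subgroup.centralizer (S : Set Γ)) {s : Γ} (hs : Subgroup.zpowers s = S)
    {F : Γ → ℂ} (hF : IsClassFunction Γ F) :
    (Nat.card C : ℂ) * ∑ y : G, F (y * s) = (Nat.card G : ℂ) * ∑ c : C, F (c * s) := by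
  have hCG : C ≤ G := hC ▸ inf_le_left
  have hsS : s ∈ S := hs ▸ Subgroup.mem_zpowers s
  let Φ : G × C → G := fun p => ⟨p.1 * p.2 * (s * (p.1 : Γ)⁻¹ * s⁻¹),
    G.mul_mem (G.mul_mem p.1.2 (hCG p.2.2)) (hnorm s hsS _ (G.inv_mem p.1.2))⟩
  have hΦ : ∀ p : G × C, ((Φ p : G) : Γ) * s = (p.1 : Γ) * (p.2 * s) * (p.1 : Γ)⁻¹ := by
    intro p
    simp only [Φ]
    group
  have h1 : ∑ p : G × C, F ((Φ p : G) * s) = (Nat.card G : ℂ) * ∑ c : C, F (c * s) := by
    rw [Fintype.sum_prod_type]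
    simp_rw [hΦ]
    have h0 : ∀ (x : G) (c : C), F ((x : Γ) * (c * s) * (x : Γ)⁻¹) = F (c * s) :=
      fun x c => hF _ _
    simp_rw [h0]
    rw [Finset.sum_const, Finset.card_univ, nsmul_eq_mul, Nat.card_eq_fintype_card]
  rw [← h1, ← Finset.sum_fiberwise Finset.univ Φ, Finset.mul_sum]
  refine Finset.sum_congr rfl fun y _ => ?_
  have h2 : ∀ p ∈ Finset.univ.filter (fun p : G × C => Φ p = y), F ((Φ p : G) * s) = F (y * s) := by
    intro p hp
    rw [(Finset.mem_filter.mp hp).2]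
  rw [Finset.sum_congr rfl h2, Finset.sum_const, nsmul_eq_mul]
  congr 2
  rw [← fiber_card G S C hnorm hcop hC hs y]
  congr 1
  apply Finset.filter_congr
  intro p _
  rw [← hΦ]
  constructor
  · intro h
    exact Subtype.ext (mul_right_cancel h)
  · intro h
    rw [h]

end

end Cfsg.Agent.Lib.Lead.Glaub
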