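import Mathlib
import Cfsg.Agent.Lib.Lead.GlaubP
import Cfsg.Agent.Lib.Helper13.CyclicExt2
import Cfsg.Agent.Lib.Helper23.IndTools

/-!
# Glauberman correspondence for cyclic operator groups: values on a generating coset
-/

set_option autoImplicit false

namespace Cfsg.Agent.Lib.Lead.Glaub

open Cfsg Cfsg.Agent.Lib.Helper2 Cfsg.Agent.Lib.Helper6 Cfsg.Agent.Lib.Helper24
open Cfsg.Agent.Lib.Helper25.Twist Cfsg.Agent.Lib.Helper13 Cfsg.Agent.Lib.Helper23.IndTools
open scoped ComplexConjugate Classical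

attribute [local instance] irrFintype

theorem int_of_rat_integral {q : ℚ} (h : IsIntegral ℤ (q : ℂ)) : ∃ n : ℤ, (q : ℂ) = n := by
  have h1 : IsIntegral ℤ q := by
    have h0 : (q : ℂ) = algebraMap ℚ ℂ q := rfl
    rw [h0] at h
    exact (isIntegral_algebraMap_iff (algebraMap ℚ ℂ).injective).mp h
  obtain ⟨n, hn⟩ := IsIntegrallyClosed.isIntegral_iff.mp h1
  exact ⟨n, by rw [← hn]; simp⟩

section

variable {Γ : Type*} [Group Γ]

theorem normal_of_sup (G S : Subgroup Γ) (hnorm : ∀ s ∈ S, ∀ g ∈ G, s * g * s⁻¹ ∈ G)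
    (htop : G ⊔ S = ⊤) : G.Normal := by
  rw [← Subgroup.normalizer_eq_top_iff, eq_top_iff, ← htop]
  apply sup_le Subgroup.le_normalizer
  intro s hs
  rw [Subgroup.mem_normalizer_iff]
  intro g
  constructor
  · exact hnorm s hs g
  · intro h
    have := hnorm s⁻¹ (S.inv_mem hs) _ h
    simpa [mul_assoc] using this

/-- multiplication `C × S → Γ` -/
def mulCS (G S C : Subgroup Γ) (hC : C = G ⊓ Subgroup.centralizer (S : Set Γ)) : C × S →* Γ where
  toFun p := p.1 * p.2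
  map_one' := by simp
  map_mul' := by
    intro p q
    have hq : (q.1 : Γ) ∈ G ⊓ Subgroup.centralizer (S : Set Γ) := hC ▸ q.1.2
    have h1 : (p.2 : Γ) * q.1 = q.1 * p.2 := Subgroup.mem_centralizer_iff.mp hq.2 p.2 p.2.2
    simp only [Prod.fst_mul, Prod.snd_mul, Subgroup.coe_mul]
    calc (p.1 : Γ) * q.1 * (p.2 * q.2) = p.1 * (q.1 * p.2) * q.2 := by group
      _ = p.1 * (p.2 * q.1) * q.2 := by rw [h1]
      _ = _ := by group

/-- the multiplicity function -/
noncomputable def alpha (S C : Subgroup Γ) [Fintype C] (χh : Γ → ℂ) (β : C → ℂ) : S → ℂ :=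
  fun x => classInner (fun c : C => χh (c * x)) β

theorem isCharacter_alpha [Finite Γ] (G S C : Subgroup Γ) [Fintype C]
    (hC : C = G ⊓ Subgroup.centralizer (S : Set Γ)) (hS : ∀ a b : S, a * b = b * a)
    {χh : Γ → ℂ} (hχh : IsCharacter Γ χh) {β : C → ℂ} (hβ : IsCharacter C β) :
    IsCharacter S (alpha S C χh β) := by
  haveI := Fintype.ofFinite S
  have hcl : IsClassFunction S (alpha S C χh β) := by
    intro g h
    rw [hS h g, mul_inv_cancel_right]
  have hΞ : IsCharacter (C × S) (fun p => χh (mulCS G S C hC p)) :=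
    IsCharacter.comp_hom (mulCS G S C hC) hχh
  have hB : ∀ lam : IrrCharacter S, IsCharacter (C × S)
      ((fun p : C × S => β (MonoidHom.fst C S p)) *
        (fun p : C × S => (lam : S → ℂ) (MonoidHom.snd C S p))) := fun lam =>
    IsCharacter.mul (IsCharacter.comp_hom _ hβ)
      (IsCharacter.comp_hom _ (IsIrrCharacter.isCharacter lam.2))
  have hn : ∀ lam : IrrCharacter S, ∃ n : ℕ, classInner (alpha S C χh β) lam = n := by
    intro lam
    obtain ⟨n, hn⟩ := IsCharacter.classInner_nat hΞ (hB lam)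
    refine ⟨n, ?_⟩
    rw [← hn]
    unfold classInner alpha classInner
    rw [Nat.card_prod, Fintype.sum_prod_type_right, Finset.mul_sum, Finset.mul_sum]
    refine Finset.sum_congr rfl fun x _ => ?_
    rw [Finset.mul_sum, Finset.mul_sum, Finset.sum_mul, Finset.mul_sum]
    refine Finset.sum_congr rfl fun c _ => ?_
    simp only [Pi.mul_apply, MonoidHom.coe_fst, MonoidHom.coe_snd, map_mul, Nat.cast_mul,
      mul_inv]
    change _ = _ * ((χh ((c : Γ) * (x : Γ))) * _)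
    ring
  choose n hn using hn
  have h1 := classFunction_eq_sum hcl
  simp_rw [hn] at h1
  rw [h1]
  exact isCharacter_sum_nat n

end

section main

variable {Γ : Type*} [Group Γ] [Fintype Γ] (G S C : Subgroup Γ) [Fintype G] [Fintype C]
  (hnorm : ∀ s ∈ S, ∀ g ∈ G, s * g * s⁻¹ ∈ G) (hcop : (Nat.card G).Coprime (Nat.card S))
  (htop : G ⊔ S = ⊤) (hS : ∀ a b : S, a * b = b * a)
  (hC : C = G ⊓ Subgroup.centralizer (S : Set Γ))

include hnorm hcop htop hS hC

theorem psi_norm {s : Γ} (hs : Subgroup.zpowers s = S) {χh : Γ → ℂ} (hχh : IsIrrCharacter Γ χh)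
    (hχ : IsIrrCharacter G (fun g : G => χh g)) :
    classInner (fun c : C => χh (c * s)) (fun c : C => χh (c * s)) = 1 := by
  haveI := normal_of_sup G S hnorm htop
  have hdisj : G ⊓ S = ⊥ := (Subgroup.disjoint_of_coprime_natCard hcop).eq_bot
  obtain ⟨π, hπH, hπker⟩ := exists_retract G S htop hdisj
  have hsS : s ∈ S := hs ▸ Subgroup.mem_zpowers s
  have h1 := coset_orth_self G S.subtype π hπH hπker hS hχh hχ ⟨s, hsS⟩
  have hF : IsClassFunction Γ (fun γ => χh γ * conj (χh γ)) := by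
    intro g h
    simp only []
    rw [irr_isClassFunction hχh]
  have h2 := sum_gen_coset G S C hnorm hcop hC hs hF
  have h1' : ∑ y : G, χh (y * s) * conj (χh (y * s)) = (Nat.card G : ℂ) := h1
  rw [h1'] at h2
  have hG0 : (Nat.card G : ℂ) ≠ 0 := Nat.cast_ne_zero.mpr Nat.card_pos.ne'
  have hC0 : (Nat.card C : ℂ) ≠ 0 := Nat.cast_ne_zero.mpr Nat.card_pos.ne'
  unfold classInner
  rw [mul_comm] at h2
  rw [← mul_left_cancel₀ hG0 h2, inv_mul_cancel₀ hC0]

theorem psi_orth {s : Γ} (hs : Subgroup.zpowers s = S) {χh χh' : Γ → ℂ}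
    (hχh : IsIrrCharacter Γ χh) (hχ : IsIrrCharacter G (fun g : G => χh g))
    (hχh' : IsIrrCharacter Γ χh') (hne : (fun g : G => χh g) ≠ (fun g : G => χh' g)) :
    classInner (fun c : C => χh (c * s)) (fun c : C => χh' (c * s)) = 0 := by
  haveI := normal_of_sup G S hnorm htop
  have hdisj : G ⊓ S = ⊥ := (Subgroup.disjoint_of_coprime_natCard hcop).eq_bot
  obtain ⟨π, hπH, hπker⟩ := exists_retract G S htop hdisj
  have hsS : s ∈ S := hs ▸ Subgroup.mem_zpowers s
  have h1 := coset_orth_ne G S.subtype π hπH hπker hS hχh hχ hχh' hne ⟨s, hsS⟩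
  have hF : IsClassFunction Γ (fun γ => χh γ * conj (χh' γ)) := by
    intro g h
    simp only []
    rw [irr_isClassFunction hχh, irr_isClassFunction hχh']
  have h2 := sum_gen_coset G S C hnorm hcop hC hs hF
  have h1' : ∑ y : G, χh (y * s) * conj (χh' (y * s)) = 0 := h1
  rw [h1', mul_zero] at h2
  have hG0 : (Nat.card G : ℂ) ≠ 0 := Nat.cast_ne_zero.mpr Nat.card_pos.ne'
  unfold classInner
  rcases mul_eq_zero.mp h2.symm with h3 | h3
  · exact absurd h3 hG0
  · rw [h3, mul_zero]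

theorem index_eq : G.index = Nat.card S := by
  haveI := normal_of_sup G S hnorm htop
  have hdisj : G ⊓ S = ⊥ := (Subgroup.disjoint_of_coprime_natCard hcop).eq_bot
  obtain ⟨π, hπH, hπker⟩ := exists_retract G S htop hdisj
  exact index_eq_card_of_retract G S.subtype π hπH hπker

/-- independence of the generator -/
theorem apply_gen_pow {s : Γ} (hsS : s ∈ S) {χh : Γ → ℂ} (hχh : IsIrrCharacter Γ χh)
    (hχ : IsIrrCharacter G (fun g : G => χh g)) (hdet : (detOrder χh).Coprime (Nat.card S))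
    {m : ℕ} (hm : m.Coprime (Nat.card S)) {c : Γ} (hc : c ∈ C) :
    χh (c * s ^ m) = χh (c * s) := by
  haveI := normal_of_sup G S hnorm htop
  have hidx := index_eq G S C hnorm hcop htop hS hC
  obtain ⟨N, hN1, hNm⟩ := exists_crt G S hcop 1 m
  have hNc : N.Coprime (Nat.card Γ) := by
    rw [← G.card_mul_index, hidx]
    apply Nat.Coprime.mul_right
    · rw [Nat.Coprime, hN1.gcd_eq]
      simp
    · rw [Nat.Coprime, hNm.gcd_eq]
      exact hm
  have h1 := tw_canonical G (hidx ▸ hcop) hχh hχ (hidx ▸ hdet) hNc hN1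
  have h2 := congrFun h1 (c * s)
  rw [tw_apply, mul_pow_crt G S C hC hc hsS hN1 hNm, pow_one] at h2
  exact h2

theorem alpha_int {s : Γ} (hsS : s ∈ S) {χh : Γ → ℂ} (hχh : IsIrrCharacter Γ χh)
    (hχ : IsIrrCharacter G (fun g : G => χh g)) (hdet : (detOrder χh).Coprime (Nat.card S))
    {β : C → ℂ} (hβ : IsCharacter C β) :
    ∃ n : ℤ, classInner (fun c : C => χh (c * s)) β = n := by
  have hα := isCharacter_alpha G S C hC hS (IsIrrCharacter.isCharacter hχh) hβ
  obtain ⟨q, hq⟩ := Cfsg.Agent.Lib.Helper25.GaloisVal.rat_of_apply_pow hα ⟨s, hsS⟩ (by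
    intro m hm
    unfold alpha
    congr 1
    funext c
    exact apply_gen_pow G S C hnorm hcop htop hS hC hsS hχh hχ hdet hm c.2)
  have hint := char_isIntegral hα ⟨s, hsS⟩
  rw [hq] at hint
  obtain ⟨n, hn⟩ := int_of_rat_integral hint
  refine ⟨n, ?_⟩
  rw [← hn, ← hq]
  rfl

theorem exists_sign {s : Γ} (hs : Subgroup.zpowers s = S) {χh : Γ → ℂ}
    (hχh : IsIrrCharacter Γ χh)
    (hχ : IsIrrCharacter G (fun g : G => χh g)) (hdet : (detOrder χh).Coprime (Nat.card S)) :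
    ∃ (β : IrrCharacter C) (ε : ℤ), (ε = 1 ∨ ε = -1) ∧
      ∀ c : C, χh (c * s) = (ε : ℂ) * (β : C → ℂ) c := by
  have hsS : s ∈ S := hs ▸ Subgroup.mem_zpowers s
  have hcl : IsClassFunction C (fun c : C => χh (c * s)) := by
    intro c d
    have hd := ((mem_C_iff G S C hC hs d).mp d.2).2
    change χh (((d * c * d⁻¹ : C) : Γ) * s) = χh (c * s)
    rw [← irr_isClassFunction hχh (c * s) d]
    congr 1
    simp only [Subgroup.coe_mul, Subgroup.coe_inv]
    calc (d : Γ) * c * (d : Γ)⁻¹ * s = (d : Γ) * c * (d : Γ)⁻¹ * (s * d) * (d : Γ)⁻¹ := by group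
      _ = (d : Γ) * c * (d : Γ)⁻¹ * (d * s) * (d : Γ)⁻¹ := by rw [hd]
      _ = _ := by group
  choose n hn using fun β : IrrCharacter C =>
    alpha_int G S C hnorm hcop htop hS hC hsS hχh hχ hdet (IsIrrCharacter.isCharacter β.2)
  have h1 := classFunction_eq_sum hcl
  simp_rw [hn] at h1
  have hgen : IsGeneralizedCharacter C (fun c : C => χh (c * s)) := by
    rw [h1]
    exact genChar_sum _ fun β _ =>
      genChar_zsmul _ (genChar_of_char (IsIrrCharacter.isCharacter β.2))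
  rcases Cfsg.Agent.Lib.Lead.genChar_norm_one hgen
    (psi_norm G S C hnorm hcop htop hS hC hs hχh hχ) with h | h
  · exact ⟨⟨_, h⟩, 1, Or.inl rfl, fun c => by simp⟩
  · refine ⟨⟨_, h⟩, -1, Or.inr rfl, fun c => ?_⟩
    simp

theorem constituent {s : Γ} (hsS : s ∈ S) {χh : Γ → ℂ} (hχh : IsIrrCharacter Γ χh)
    {β : C → ℂ} (hβ : IsIrrCharacter C β) {ε : ℂ} (hε : ε ≠ 0)
    (h : ∀ c : C, χh (c * s) = ε * β c) : classInner (fun c : C => χh c) β ≠ 0 := by
  intro h0
  have hα := isCharacter_alpha G S C hC hS (IsIrrCharacter.isCharacter hχh)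
    (IsIrrCharacter.isCharacter hβ)
  have h1 : alpha S C χh β 1 = 0 := by
    unfold alpha
    simp only [Subgroup.coe_one, mul_one]
    exact h0
  have h2 := congrFun (IsCharacter.eq_zero_of_apply_one hα h1) ⟨s, hsS⟩
  unfold alpha at h2
  have h3 : (fun c : C => χh (c * s)) = ε • β := by
    funext c
    rw [h c]
    rfl
  simp only [Pi.zero_apply] at h2
  rw [h3, classInner_smul_left, classInner_irr hβ hβ, if_pos rfl, mul_one] at h2
  exact hε h2

end main

section more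

variable {Γ : Type*} [Group Γ]

theorem exists_gen (S : Subgroup Γ) (hcyc : IsCyclic S) : ∃ s : Γ, Subgroup.zpowers s = S := by
  obtain ⟨g, hg⟩ := hcyc.exists_generator
  refine ⟨g, ?_⟩
  ext x
  constructor
  · intro hx
    obtain ⟨i, rfl⟩ := Subgroup.mem_zpowers_iff.mp hx
    exact S.zpow_mem g.2 i
  · intro hx
    obtain ⟨i, hi⟩ := Subgroup.mem_zpowers_iff.mp (hg ⟨x, hx⟩)
    rw [Subgroup.mem_zpowers_iff]
    exact ⟨i, congrArg (fun t : S => (t : Γ)) hi⟩

theorem comm_of_cyclic (S : Subgroup Γ) (hcyc : IsCyclic S) : ∀ a b : S, a * b = b * a :=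
  fun a b => by
    letI := IsCyclic.commGroup (α := S)
    exact mul_comm a b

theorem gen_eq_pow [Finite Γ] {S : Subgroup Γ} {s s₀ : Γ} (hs₀ : Subgroup.zpowers s₀ = S)
    (hs : Subgroup.zpowers s = S) : ∃ m : ℕ, m.Coprime (Nat.card S) ∧ s = s₀ ^ m := by
  have h1 : s ∈ Subgroup.zpowers s₀ := hs₀ ▸ hs ▸ Subgroup.mem_zpowers s
  obtain ⟨m, hm⟩ := mem_powers_iff_mem_zpowers.mpr h1
  have hm' : s₀ ^ m = s := hm
  refine ⟨m, ?_, hm'.symm⟩
  have h2 : orderOf s = orderOf s₀ := by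
    rw [← Nat.card_zpowers, ← Nat.card_zpowers, hs, hs₀]
  rw [← hm', orderOf_pow] at h2
  have h3 : 0 < orderOf s₀ := orderOf_pos s₀
  rw [← hs₀, Nat.card_zpowers]
  rcases Nat.div_eq_self.mp h2 with h4 | h4
  · omega
  · rw [Nat.Coprime, Nat.gcd_comm]
    exact h4

theorem ginv_of_inv (G S : Subgroup Γ) [hG : G.Normal]
    (hnorm : ∀ s ∈ S, ∀ g ∈ G, s * g * s⁻¹ ∈ G) (htop : G ⊔ S = ⊤) (hdisj : G ⊓ S = ⊥)
    {θ : G → ℂ} (hθ : IsClassFunction G θ) (h : Inv (conjOn G S hnorm) θ) : GInv G θ := by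
  obtain ⟨π, hπH, hπker⟩ := exists_retract G S htop hdisj
  intro g n
  have hk : g * ((π g : S) : Γ)⁻¹ ∈ G := by
    rw [← hπker, map_mul, map_inv, hπH, mul_inv_cancel]
  have h1 := hθ (conjOn G S hnorm (π g) n) ⟨_, hk⟩
  rw [h (π g) n] at h1
  rw [← h1]
  refine congrArg θ (Subtype.ext ?_)
  simp only [Subgroup.coe_mul, conjOn_apply, Subgroup.coe_inv]
  group

theorem sign_unique {C : Type*} [Group C] [Fintype C] {β β' : C → ℂ} (hβ : IsIrrCharacter C β)
    (hβ' : IsIrrCharacter C β') {ε ε' : ℤ} (hε : ε = 1 ∨ ε = -1)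
    (h : ∀ c, (ε : ℂ) * β c = (ε' : ℂ) * β' c) : β = β' ∧ ε = ε' := by
  have h1 : (ε : ℂ) • β = (ε' : ℂ) • β' := funext h
  have h2 : classInner ((ε : ℂ) • β) β = classInner ((ε' : ℂ) • β') β := by rw [h1]
  rw [classInner_smul_left, classInner_smul_left, classInner_irr hβ hβ, if_pos rfl,
    classInner_irr hβ' hβ, mul_one] at h2
  have hε0 : (ε : ℂ) ≠ 0 := by
    rcases hε with rfl | rfl <;> simp
  by_cases hb : β' = β
  · rw [if_pos hb, mul_one] at h2
    exact ⟨hb.symm, by exact_mod_cast h2⟩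
  · rw [if_neg hb, mul_zero] at h2
    exact absurd h2 hε0

end more

section main2

variable {Γ : Type*} [Group Γ] [Fintype Γ] (G S C : Subgroup Γ) [Fintype G] [Fintype C]
  (hnorm : ∀ s ∈ S, ∀ g ∈ G, s * g * s⁻¹ ∈ G) (hcop : (Nat.card G).Coprime (Nat.card S))
  (htop : G ⊔ S = ⊤) (hcyc : IsCyclic S)
  (hC : C = G ⊓ Subgroup.centralizer (S : Set Γ))

include hnorm hcop htop hcyc hC

theorem exists_sign_all {χh : Γ → ℂ} (hχh : IsIrrCharacter Γ χh)
    (hχ : IsIrrCharacter G (fun g : G => χh g)) (hdet : (detOrder χh).Coprime (Nat.card S)) :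
    ∃ (β : IrrCharacter C) (ε : ℤ), (ε = 1 ∨ ε = -1) ∧
      ∀ c : C, ∀ s : Γ, Subgroup.zpowers s = S → χh (c * s) = (ε : ℂ) * (β : C → ℂ) c := by
  obtain ⟨s₀, hs₀⟩ := exists_gen S hcyc
  have hS := comm_of_cyclic S hcyc
  obtain ⟨β, ε, hε, h⟩ := exists_sign G S C hnorm hcop htop hS hC hs₀ hχh hχ hdet
  refine ⟨β, ε, hε, fun c s hs => ?_⟩
  obtain ⟨m, hm, rfl⟩ := gen_eq_pow hs₀ hs
  rw [apply_gen_pow G S C hnorm hcop htop hS hC (hs₀ ▸ Subgroup.mem_zpowers s₀) hχh hχ hdet hm c.2]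
  exact h c

theorem exists_canonical (χ : IrrCharacter G) (hinv : Inv (conjOn G S hnorm) (χ : G → ℂ)) :
    ∃ χh : IrrCharacter Γ, (∀ g : G, (χh : Γ → ℂ) g = (χ : G → ℂ) g) ∧
      (detOrder (χh : Γ → ℂ)).Coprime (Nat.card S) := by
  haveI := normal_of_sup G S hnorm htop
  have hS := comm_of_cyclic S hcyc
  have hdisj : G ⊓ S = ⊥ := (Subgroup.disjoint_of_coprime_natCard hcop).eq_bot
  have hidx := index_eq G S C hnorm hcop htop hS hC
  have hcop' : (Nat.card G).Coprime G.index := hidx ▸ hcop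
  obtain ⟨χ₀, ⟨h1, h2, h3⟩, -⟩ := Cfsg.Agent.S0867.result G (χ : G → ℂ) χ.2
    (ginv_of_inv G S hnorm htop hdisj (irr_isClassFunction χ.2) hinv)
    (charDegree (χ : G → ℂ)) (charDegree_cast (IsIrrCharacter.isCharacter χ.2)).symm (by
      apply Nat.Coprime.symm
      apply Nat.Coprime.mul_left
      · exact Nat.Coprime.coprime_dvd_left
          (detOrder_dvd_card (IsIrrCharacter.isCharacter χ.2)) hcop'
      · exact Nat.Coprime.coprime_dvd_left (degree_dvd_card χ.2) hcop')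
  refine ⟨⟨χ₀, h1⟩, h2, ?_⟩
  change (detOrder χ₀).Coprime _
  rw [h3]
  exact Nat.Coprime.coprime_dvd_left (detOrder_dvd_card (IsIrrCharacter.isCharacter χ.2)) hcop

end main2

end Cfsg.Agent.Lib.Lead.Glaub
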