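import Mathlib
import Cfsg.Agent.Lib.Lead.GlaubQ
import Cfsg.Agent.Lib.Helper25.Gagola4

/-!
# Characters of abelian groups with values of modulus at most one off the identity
-/

set_option autoImplicit false

namespace Cfsg.Agent.Lib.Lead.Glaub

open Cfsg Cfsg.Agent.Lib.Helper2 Cfsg.Agent.Lib.Helper6 Cfsg.Agent.Lib.Helper24
open Cfsg.Agent.Lib.Helper25.Twist Cfsg.Agent.Lib.Helper13 Cfsg.Agent.Lib.Helper23.IndTools
open scoped ComplexConjugate Classical

attribute [local instance] irrFintype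

theorem comb_two_values {ι : Type*} [Fintype ι] [Nonempty ι] (f : ι → ℤ) (u : ℤ)
    (hu : 1 ≤ u) (hu' : u ≤ (Fintype.card ι : ℤ) - 1)
    (h : (Fintype.card ι : ℤ) * ∑ i, f i ^ 2 = (∑ i, f i) ^ 2 + u) :
    ∃ (μ : ι) (t ε : ℤ), (ε = 1 ∨ ε = -1) ∧ f μ = t + ε ∧ ∀ i, i ≠ μ → f i = t := by
  obtain ⟨i₀, -, hmin⟩ := Finset.exists_min_image Finset.univ f Finset.univ_nonempty
  set n : ℤ := (Fintype.card ι : ℤ) with hn
  set g : ι → ℤ := fun i => f i - f i₀ with hgdef
  have hg0 : ∀ i, 0 ≤ g i := fun i => sub_nonneg.mpr (hmin i (Finset.mem_univ i))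
  have hsum1 : ∑ i, g i = ∑ i, f i - n * f i₀ := by
    simp only [hgdef, Finset.sum_sub_distrib, Finset.sum_const, Finset.card_univ, nsmul_eq_mul, hn]
  have hsum2 : ∑ i, g i ^ 2 = ∑ i, f i ^ 2 - 2 * f i₀ * ∑ i, f i + n * f i₀ ^ 2 := by
    have : ∀ i, g i ^ 2 = f i ^ 2 - 2 * f i₀ * f i + f i₀ ^ 2 := by
      intro i
      simp only [hgdef]
      ring
    simp only [this, Finset.sum_add_distrib, Finset.sum_sub_distrib, Finset.sum_const,
      Finset.card_univ, nsmul_eq_mul, hn, ← Finset.mul_sum]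
  have hg : n * ∑ i, g i ^ 2 = (∑ i, g i) ^ 2 + u := by
    rw [hsum1, hsum2]
    linear_combination h
  set A := Finset.univ.filter (fun i => g i ≠ 0) with hA
  have hA1 : ∑ i, g i = ∑ i ∈ A, g i := (Finset.sum_filter_ne_zero _).symm
  have hA2 : ∑ i, g i ^ 2 = ∑ i ∈ A, g i ^ 2 := by
    symm
    apply Finset.sum_subset (Finset.subset_univ _)
    intro i _ hi
    have : g i = 0 := by
      by_contra h0
      exact hi (Finset.mem_filter.mpr ⟨Finset.mem_univ _, h0⟩)
    rw [this]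
    rfl
  have hcs : (∑ i ∈ A, g i) ^ 2 ≤ (A.card : ℤ) * ∑ i ∈ A, g i ^ 2 := sq_sum_le_card_mul_sum_sq
  have hge1 : ∀ i ∈ A, 1 ≤ g i := by
    intro i hi
    have h1 := (Finset.mem_filter.mp hi).2
    have h2 := hg0 i
    omega
  have hQ : (A.card : ℤ) ≤ ∑ i ∈ A, g i ^ 2 := by
    calc (A.card : ℤ) = ∑ i ∈ A, (1 : ℤ) := by simp
      _ ≤ _ := Finset.sum_le_sum (fun i hi => by nlinarith [hge1 i hi])
  have hsub : A ⊆ Finset.univ.erase i₀ := by
    intro i hi
    rw [Finset.mem_erase]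
    refine ⟨?_, Finset.mem_univ _⟩
    rintro rfl
    exact (Finset.mem_filter.mp hi).2 (sub_self _)
  have hcard_erase : ((Finset.univ.erase i₀).card : ℤ) = n - 1 := by
    rw [Finset.card_erase_of_mem (Finset.mem_univ _), Finset.card_univ, hn]
    have : 1 ≤ Fintype.card ι := Fintype.card_pos
    omega
  have hk : (A.card : ℤ) ≤ n - 1 := by
    rw [← hcard_erase]
    exact_mod_cast Finset.card_le_card hsub
  rw [hA1, hA2] at hg
  set k : ℤ := (A.card : ℤ) with hkdef
  set Q : ℤ := ∑ i ∈ A, g i ^ 2 with hQdef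
  have h1 : (n - k) * Q ≤ u := by nlinarith
  have hk1 : 1 ≤ k := by
    by_contra hcon
    have hk0 : A.card = 0 := by omega
    have hAe : A = ∅ := Finset.card_eq_zero.mp hk0
    rw [hQdef, hAe] at hg
    simp at hg
    omega
  have h2 : (k - 1) * (n - 1 - k) ≤ 0 := by nlinarith
  have h3 : (k - 1) * (n - 1 - k) = 0 :=
    le_antisymm h2 (mul_nonneg (by omega) (by omega))
  rcases mul_eq_zero.mp h3 with h4 | h4
  · have hc1 : A.card = 1 := by omega
    obtain ⟨μ, hμ⟩ := Finset.card_eq_one.mp hc1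
    have hμA : μ ∈ A := by rw [hμ]; exact Finset.mem_singleton_self μ
    have hQμ : Q = g μ ^ 2 := by rw [hQdef, hμ, Finset.sum_singleton]
    have hgμ : g μ = 1 := by
      have h5 := hge1 μ hμA
      by_contra h6
      have h7 : 2 ≤ g μ := by omega
      have h8 : 4 ≤ Q := by rw [hQμ]; nlinarith
      have h9 : k = 1 := by omega
      rw [h9] at h1
      nlinarith
    refine ⟨μ, f i₀, 1, Or.inl rfl, ?_, ?_⟩
    · have : f μ - f i₀ = 1 := hgμ
      omega
    · intro i hi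
      have : i ∉ A := by
        rw [hμ, Finset.mem_singleton]
        exact hi
      have h0 : g i = 0 := by
        by_contra h0
        exact this (Finset.mem_filter.mpr ⟨Finset.mem_univ _, h0⟩)
      have : f i - f i₀ = 0 := h0
      omega
  · have hkn : k = n - 1 := by omega
    have hQk : Q = k := by
      have : (n - k) = 1 := by omega
      rw [this, one_mul] at h1
      omega
    have hAeq : A = Finset.univ.erase i₀ := by
      apply Finset.eq_of_subset_of_card_le hsub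
      have : ((Finset.univ.erase i₀).card : ℤ) ≤ (A.card : ℤ) := by
        rw [hcard_erase]
        omega
      exact_mod_cast this
    have hz : ∑ i ∈ A, (g i ^ 2 - 1) = 0 := by
      rw [Finset.sum_sub_distrib]
      simp only [Finset.sum_const, nsmul_eq_mul, mul_one]
      omega
    have hz' := (Finset.sum_eq_zero_iff_of_nonneg (fun i hi => by nlinarith [hge1 i hi])).mp hz
    refine ⟨i₀, f i₀ + 1, -1, Or.inr rfl, by ring, ?_⟩
    intro i hi
    have hiA : i ∈ A := by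
      rw [hAeq]
      exact Finset.mem_erase.mpr ⟨hi, Finset.mem_univ _⟩
    have h5 := hz' i hiA
    have h6 := hge1 i hiA
    have h7 : g i = 1 := by nlinarith
    have : f i - f i₀ = 1 := h7
    omega

theorem card_conjClasses_of_comm {S : Type*} [Group S] (hS : ∀ a b : S, a * b = b * a) :
    Nat.card (ConjClasses S) = Nat.card S := by
  symm
  apply Nat.card_eq_of_bijective (ConjClasses.mk)
  refine ⟨?_, ConjClasses.mk_surjective⟩
  intro a b h
  obtain ⟨c, hc⟩ := isConj_iff.mp (ConjClasses.mk_eq_mk_iff_isConj.mp h)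
  rw [hS c a, mul_inv_cancel_right] at hc
  exact hc

theorem sum_irr_apply_of_comm {S : Type*} [Group S] [Fintype S] (hS : ∀ a b : S, a * b = b * a)
    {x : S} (hx : x ≠ 1) : ∑ ψ : IrrCharacter S, (ψ : S → ℂ) x = 0 := by
  have h := column_orthogonality x (1 : S)
  rw [if_neg (by rw [isConj_one_left]; exact hx)] at h
  rw [← h]
  refine Finset.sum_congr rfl fun ψ _ => ?_
  rw [Cfsg.Agent.Lib.Helper25.Gagola.degree_one_of_comm hS ψ.2, map_one, mul_one]

theorem abelian_structure {S : Type*} [Group S] [Fintype S] (hS : ∀ a b : S, a * b = b * a)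
    {α : S → ℂ} (hα : IsCharacter S α)
    (hval : ∀ x : S, x ≠ 1 → α x * conj (α x) = 0 ∨ α x * conj (α x) = 1)
    (x₀ : S) (hx₀ : x₀ ≠ 1) (hx₀' : α x₀ * conj (α x₀) = 1) :
    ∃ (μ : IrrCharacter S) (ε : ℤ) (t : ℕ), (ε = 1 ∨ ε = -1) ∧
      (∀ x, x ≠ 1 → α x = (ε : ℂ) * (μ : S → ℂ) x) ∧ α 1 = (t : ℂ) * (Nat.card S : ℂ) + ε := by
  obtain ⟨nn, hnn⟩ := IsCharacter.exists_eq_sum hα
  have hlin : ∀ ψ : IrrCharacter S, (ψ : S → ℂ) 1 = 1 := fun ψ =>
    Cfsg.Agent.Lib.Helper25.Gagola.degree_one_of_comm hS ψ.2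
  have hcardIrr : Fintype.card (IrrCharacter S) = Fintype.card S := by
    rw [← Nat.card_eq_fintype_card, ← Nat.card_eq_fintype_card, card_irr_eq_card_conjClasses,
      card_conjClasses_of_comm hS]
  have hα1 : α 1 = ∑ ψ : IrrCharacter S, (nn ψ : ℂ) := by
    rw [hnn, Finset.sum_apply]
    refine Finset.sum_congr rfl fun ψ _ => ?_
    rw [Pi.smul_apply, hlin, smul_eq_mul, mul_one]
  have hnorm : classInner α α = ∑ ψ : IrrCharacter S, (nn ψ : ℂ) ^ 2 := by
    conv_lhs => rw [hnn]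
    rw [classInner_sum_irr]
    refine Finset.sum_congr rfl fun ψ _ => ?_
    rw [Complex.conj_natCast, sq]
  have hw : ∀ x : S, ∃ w : ℤ, (w = 0 ∨ w = 1) ∧ (x ≠ 1 → α x * conj (α x) = w) := by
    intro x
    by_cases hx : x = 1
    · exact ⟨0, Or.inl rfl, fun h => absurd hx h⟩
    · rcases hval x hx with h | h
      · exact ⟨0, Or.inl rfl, fun _ => by rw [h]; simp⟩
      · exact ⟨1, Or.inr rfl, fun _ => by rw [h]; simp⟩
  choose w hw01 hw using hw
  set u : ℤ := ∑ x ∈ Finset.univ.erase (1 : S), w x with hu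
  have hS0 : (Nat.card S : ℂ) ≠ 0 := Nat.cast_ne_zero.mpr Nat.card_pos.ne'
  have hsum : ∑ x : S, α x * conj (α x) = (∑ ψ : IrrCharacter S, (nn ψ : ℂ)) ^ 2 + (u : ℂ) := by
    rw [← Finset.add_sum_erase _ _ (Finset.mem_univ (1 : S)), hα1, hu]
    congr 1
    · rw [map_sum]
      simp only [Complex.conj_natCast]
      rw [sq]
    · push_cast
      refine Finset.sum_congr rfl fun x hx => ?_
      exact hw x (Finset.mem_erase.mp hx).1
  have heq : (Fintype.card (IrrCharacter S) : ℤ) * ∑ ψ : IrrCharacter S, (nn ψ : ℤ) ^ 2 =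
      (∑ ψ : IrrCharacter S, (nn ψ : ℤ)) ^ 2 + u := by
    have h1 : (Nat.card S : ℂ) * ∑ ψ : IrrCharacter S, (nn ψ : ℂ) ^ 2 =
        (∑ ψ : IrrCharacter S, (nn ψ : ℂ)) ^ 2 + (u : ℂ) := by
      rw [← hnorm, ← hsum]
      unfold classInner
      rw [mul_inv_cancel_left₀ hS0]
    rw [hcardIrr, ← Nat.card_eq_fintype_card]
    exact_mod_cast h1
  have hu1 : 1 ≤ u := by
    have h1 : w x₀ = 1 := by
      have := hw x₀ hx₀
      rw [hx₀'] at this
      exact_mod_cast this.symm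
    rw [hu, ← h1]
    apply Finset.single_le_sum (f := w) (fun x _ => by rcases hw01 x with h | h <;> omega)
    exact Finset.mem_erase.mpr ⟨hx₀, Finset.mem_univ _⟩
  have hu2 : u ≤ (Fintype.card (IrrCharacter S) : ℤ) - 1 := by
    have h1 : u ≤ ∑ x ∈ Finset.univ.erase (1 : S), (1 : ℤ) :=
      Finset.sum_le_sum (fun x _ => by rcases hw01 x with h | h <;> omega)
    rw [Finset.sum_const, Finset.card_erase_of_mem (Finset.mem_univ _), Finset.card_univ] at h1
    rw [hcardIrr]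
    have : 1 ≤ Fintype.card S := Fintype.card_pos
    simp only [nsmul_eq_mul, mul_one] at h1
    omega
  haveI : Nonempty (IrrCharacter S) := ⟨⟨_, one_irr S⟩⟩
  obtain ⟨μ, t', ε, hε, hμ, hoth⟩ := comb_two_values (fun ψ : IrrCharacter S => (nn ψ : ℤ)) u hu1 hu2 heq
  have hcard2 : 1 < Fintype.card (IrrCharacter S) := by
    rw [hcardIrr]
    exact Fintype.one_lt_card_iff.mpr ⟨x₀, 1, hx₀⟩
  obtain ⟨ψ₀, hψ₀⟩ := Fintype.exists_ne_of_one_lt_card hcard2 μ
  have ht : t' = (nn ψ₀ : ℤ) := (hoth ψ₀ hψ₀).symm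
  have hcoef : ∀ ψ : IrrCharacter S, (nn ψ : ℂ) = (nn ψ₀ : ℂ) + (if ψ = μ then (ε : ℂ) else 0) := by
    intro ψ
    split_ifs with h
    · subst h
      have : (nn ψ : ℤ) = (nn ψ₀ : ℤ) + ε := by rw [← ht]; exact hμ
      exact_mod_cast this
    · have : (nn ψ : ℤ) = (nn ψ₀ : ℤ) := by rw [← ht]; exact hoth ψ h
      rw [add_zero]
      exact_mod_cast this
  refine ⟨μ, ε, nn ψ₀, hε, ?_, ?_⟩
  · intro x hx
    rw [hnn, Finset.sum_apply]
    simp only [Pi.smul_apply, smul_eq_mul]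
    have h1 : ∀ ψ ∈ (Finset.univ : Finset (IrrCharacter S)), (nn ψ : ℂ) * (ψ : S → ℂ) x =
        (nn ψ₀ : ℂ) * (ψ : S → ℂ) x + (if ψ = μ then (ε : ℂ) else 0) * (ψ : S → ℂ) x := by
      intro ψ _
      rw [hcoef ψ, add_mul]
    rw [Finset.sum_congr rfl h1,
      Finset.sum_add_distrib, ← Finset.mul_sum, sum_irr_apply_of_comm hS hx, mul_zero, zero_add]
    simp
  · rw [hα1, Finset.sum_congr rfl (fun ψ _ => hcoef ψ)]
    rw [Finset.sum_add_distrib, Finset.sum_const, Finset.card_univ, hcardIrr,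
      ← Nat.card_eq_fintype_card]
    simp
    ring

theorem centralizer_zpowers_eq {Γ : Type*} [Group Γ] (x : Γ) :
    Subgroup.centralizer ((Subgroup.zpowers x : Subgroup Γ) : Set Γ) =
      Subgroup.centralizer ({x} : Set Γ) := by
  apply le_antisymm
  · apply Subgroup.centralizer_le
    intro y hy
    rw [Set.mem_singleton_iff.mp hy]
    exact Subgroup.mem_zpowers x
  · intro g hg
    rw [Subgroup.mem_centralizer_iff]
    intro t ht
    obtain ⟨i, rfl⟩ := Subgroup.mem_zpowers_iff.mp ht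
    have h3 : Commute x g := Subgroup.mem_centralizer_iff.mp hg x rfl
    exact h3.zpow_left i

section fpf

variable {Γ : Type*} [Group Γ] [Fintype Γ] (G S C : Subgroup Γ) [Fintype G] [Fintype C]
  (hnorm : ∀ s ∈ S, ∀ g ∈ G, s * g * s⁻¹ ∈ G) (hcop : (Nat.card G).Coprime (Nat.card S))
  (htop : G ⊔ S = ⊤) (hS : ∀ a b : S, a * b = b * a)
  (hC : C = G ⊓ Subgroup.centralizer (S : Set Γ))

include hnorm hcop htop hS hC

theorem psi_norm' {x : Γ} (hx : x ∈ S)
    (hCx : C = G ⊓ Subgroup.centralizer ((Subgroup.zpowers x : Subgroup Γ) : Set Γ))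
    {χh : Γ → ℂ} (hχh : IsIrrCharacter Γ χh) (hχ : IsIrrCharacter G (fun g : G => χh g)) :
    classInner (fun c : C => χh (c * x)) (fun c : C => χh (c * x)) = 1 := by
  haveI := normal_of_sup G S hnorm htop
  have hdisj : G ⊓ S = ⊥ := (Subgroup.disjoint_of_coprime_natCard hcop).eq_bot
  obtain ⟨π, hπH, hπker⟩ := exists_retract G S htop hdisj
  have hle : Subgroup.zpowers x ≤ S := by
    rw [Subgroup.zpowers_le]
    exact hx
  have h1 := coset_orth_self G S.subtype π hπH hπker hS hχh hχ ⟨x, hx⟩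
  have hF : IsClassFunction Γ (fun γ => χh γ * conj (χh γ)) := by
    intro g h
    simp only []
    rw [irr_isClassFunction hχh]
  have h2 := sum_gen_coset G (Subgroup.zpowers x) C (fun s hs => hnorm s (hle hs))
    (Nat.Coprime.coprime_dvd_right (Subgroup.card_dvd_of_le hle) hcop) hCx rfl hF
  have h1' : ∑ y : G, χh (y * x) * conj (χh (y * x)) = (Nat.card G : ℂ) := h1
  rw [h1'] at h2
  have hG0 : (Nat.card G : ℂ) ≠ 0 := Nat.cast_ne_zero.mpr Nat.card_pos.ne'
  have hC0 : (Nat.card C : ℂ) ≠ 0 := Nat.cast_ne_zero.mpr Nat.card_pos.ne'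
  unfold classInner
  rw [mul_comm] at h2
  rw [← mul_left_cancel₀ hG0 h2, inv_mul_cancel₀ hC0]

theorem exists_sign' {x : Γ} (hx : x ∈ S)
    (hCx : C = G ⊓ Subgroup.centralizer ((Subgroup.zpowers x : Subgroup Γ) : Set Γ))
    {χh : Γ → ℂ} (hχh : IsIrrCharacter Γ χh)
    (hχ : IsIrrCharacter G (fun g : G => χh g)) (hdet : (detOrder χh).Coprime (Nat.card S)) :
    ∃ (β : IrrCharacter C) (ε : ℤ), (ε = 1 ∨ ε = -1) ∧
      ∀ c : C, χh (c * x) = (ε : ℂ) * (β : C → ℂ) c := by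
  have hcl : IsClassFunction C (fun c : C => χh (c * x)) := by
    intro c d
    have hd := ((mem_C_iff G (Subgroup.zpowers x) C hCx rfl d).mp d.2).2
    change χh (((d * c * d⁻¹ : C) : Γ) * x) = χh (c * x)
    rw [← irr_isClassFunction hχh (c * x) d]
    congr 1
    simp only [Subgroup.coe_mul, Subgroup.coe_inv]
    calc (d : Γ) * c * (d : Γ)⁻¹ * x = (d : Γ) * c * (d : Γ)⁻¹ * (x * d) * (d : Γ)⁻¹ := by group
      _ = (d : Γ) * c * (d : Γ)⁻¹ * (d * x) * (d : Γ)⁻¹ := by rw [hd]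
      _ = _ := by group
  choose n hn using fun β : IrrCharacter C =>
    alpha_int G S C hnorm hcop htop hS hC hx hχh hχ hdet (IsIrrCharacter.isCharacter β.2)
  have h1 := classFunction_eq_sum hcl
  simp_rw [hn] at h1
  have hgen : IsGeneralizedCharacter C (fun c : C => χh (c * x)) := by
    rw [h1]
    exact genChar_sum _ fun β _ =>
      genChar_zsmul _ (genChar_of_char (IsIrrCharacter.isCharacter β.2))
  rcases Cfsg.Agent.Lib.Lead.genChar_norm_one hgen
    (psi_norm' G S C hnorm hcop htop hS hC hx hCx hχh hχ) with h | h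
  · exact ⟨⟨_, h⟩, 1, Or.inl rfl, fun c => by simp⟩
  · refine ⟨⟨_, h⟩, -1, Or.inr rfl, fun c => ?_⟩
    simp

end fpf

end Cfsg.Agent.Lib.Lead.Glaub
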