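import Mathlib
import Cfsg.Agent.Lib.Lead.GlaubR
import Cfsg.Agent.S4446
import Cfsg.Agent.S4451

/-!
# Characters of `K ⋊ W₁` with `C_K(x) = W₂` for all `x ∈ W₁ \ 1`
-/

set_option autoImplicit false

namespace Cfsg.Agent.Lib.Lead.Glaub

open Cfsg Cfsg.Agent.Lib.Helper2 Cfsg.Agent.Lib.Helper6 Cfsg.Agent.Lib.Helper24
open scoped ComplexConjugate Classical

attribute [local instance] irrFintype

/-- Gallagher: an irreducible character over an extendible character is a twist of the extension -/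
theorem exists_hom_of_over {Γ A : Type*} [Group Γ] [Group A] (K : Subgroup Γ)
    (j : A →* Γ) (π : Γ →* A) (hπj : ∀ a, π (j a) = a) (hker : ∀ x, π x = 1 ↔ x ∈ K)
    [hK : K.Normal] [Fintype Γ] [Finite A] (hA : ∀ a b : A, a * b = b * a)
    {χ θ : Γ → ℂ} (hχ : IsIrrCharacter Γ χ) (hχK : IsIrrCharacter K (fun k : K => χ k))
    (hθ : IsIrrCharacter Γ θ)
    (hne : classInner (fun k : K => θ k) (fun k : K => χ k) ≠ 0) :
    ∃ f : A →* ℂˣ, θ = fun γ => ((f (π γ) : ℂˣ) : ℂ) * χ γ := by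
  haveI := finite_hom hA
  haveI := Fintype.ofFinite (A →* ℂˣ)
  have h1 : classInner (indFun K (fun k : K => χ k)) θ ≠ 0 := by
    rw [frobenius_reciprocity K _ _ (irr_isClassFunction hθ), ← classInner_conj_symm]
    exact (map_ne_zero _).mpr hne
  rw [ind_eq_sum K j π hπj hker hA hχ, classInner_sum_left] at h1
  obtain ⟨f, -, hf⟩ := Finset.exists_ne_zero_of_sum_ne_zero h1
  rw [classInner_irr (gal_irr K π hker hχ hχK f) hθ] at hf
  refine ⟨f, ?_⟩
  by_contra hcon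
  rw [if_neg (fun h => hcon h.symm)] at hf
  exact hf rfl

section

variable {L : Type*} [Group L] [Fintype L] (K W₁ W₂ : Subgroup L) [hK : K.Normal]

theorem typeP_cop (hKW₁ : K ⊓ W₁ = ⊥) (hKW₁' : K ⊔ W₁ = ⊤)
    (hHall : Nat.Coprime (Nat.card W₁) W₁.index) : (Nat.card K).Coprime (Nat.card W₁) := by
  obtain ⟨π, hπH, hπker⟩ := exists_retract K W₁ hKW₁' hKW₁
  have hidx : K.index = Nat.card W₁ := index_eq_card_of_retract K W₁.subtype π hπH hπker
  have hidx' : W₁.index = Nat.card K := by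
    have h1 := K.card_mul_index
    have h2 := W₁.card_mul_index
    rw [hidx] at h1
    rw [← h1, mul_comm] at h2
    exact Nat.eq_of_mul_eq_mul_right Nat.card_pos h2
  rw [← hidx']
  exact hHall.symm

omit [Fintype L] hK in
theorem typeP_cent (hW₂K : W₂ ≤ K)
    (hC : ∀ x ∈ W₁, x ≠ 1 → K ⊓ Subgroup.centralizer ({x} : Set L) = W₂)
    (S : Subgroup L) (hS : S ≤ W₁) (hS1 : S ≠ ⊥) :
    W₂ = K ⊓ Subgroup.centralizer (S : Set L) := by
  apply le_antisymm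
  · intro w hw
    refine ⟨hW₂K hw, ?_⟩
    change w ∈ Subgroup.centralizer (S : Set L)
    rw [Subgroup.mem_centralizer_iff]
    intro s hs
    by_cases hs1 : s = 1
    · rw [hs1, one_mul, mul_one]
    · have h1 : w ∈ K ⊓ Subgroup.centralizer ({s} : Set L) := by
        rw [hC s (hS hs) hs1]
        exact hw
      exact Subgroup.mem_centralizer_iff.mp h1.2 s rfl
  · obtain ⟨x, hx, hx1⟩ : ∃ x : L, x ∈ S ∧ x ≠ 1 := by
      by_contra hcon
      push Not at hcon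
      exact hS1 ((Subgroup.eq_bot_iff_forall S).mpr hcon)
    rw [← hC x (hS hx) hx1]
    apply inf_le_inf_left
    apply Subgroup.centralizer_le
    intro y hy
    rw [Set.mem_singleton_iff.mp hy]
    exact hx

theorem typeP_data (hKW₁ : K ⊓ W₁ = ⊥) (hKW₁' : K ⊔ W₁ = ⊤) (hW₁ : W₁ ≠ ⊥)
    (hW₁c : IsCyclic W₁) (hHall : Nat.Coprime (Nat.card W₁) W₁.index)
    (hW₂c : IsCyclic W₂) (hW₂K : W₂ ≤ K)
    (hC : ∀ x ∈ W₁, x ≠ 1 → K ⊓ Subgroup.centralizer ({x} : Set L) = W₂)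
    (hodd : Odd (Nat.card W₁)) :
    ∃ (X : IrrCharacter W₂ → (L → ℂ)) (e : IrrCharacter W₂ → ℤ),
      (∀ β, IsIrrCharacter L (X β)) ∧ (∀ β, IsIrrCharacter K (fun k : K => X β k)) ∧
      (∀ β, e β = 1 ∨ e β = -1) ∧
      (∀ β (c : W₂) (x : W₁), x ≠ 1 → X β ((c : L) * x) = (e β : ℂ) * (β : W₂ → ℂ) c) ∧
      (∀ β, ∃ n : ℤ, X β 1 - (e β : ℂ) = (n : ℂ) * (Nat.card W₁ : ℂ)) ∧
      (∀ χ : IrrCharacter K, Inv (conjOn K W₁ (fun s _ g hg => hK.conj_mem g hg s)) (χ : K → ℂ) →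
        ∃ β, (fun k : K => X β k) = (χ : K → ℂ)) := by
  have hnorm : ∀ s ∈ W₁, ∀ g ∈ K, s * g * s⁻¹ ∈ K := fun s _ g hg => hK.conj_mem g hg s
  have hcop := typeP_cop K W₁ hKW₁ hKW₁' hHall
  have hCC := typeP_cent K W₁ W₂ hW₂K hC W₁ le_rfl hW₁
  have hS₁ := comm_of_cyclic W₁ hW₁c
  have hS₂ := comm_of_cyclic W₂ hW₂c
  have hmain := (Cfsg.Agent.S4446.result K W₁ hnorm hcop hKW₁' hW₁c W₂ hCC hW₂K)
  have hex : ∀ β : IrrCharacter W₂, ∃ (χh : IrrCharacter L) (ε : ℤ),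
      IsIrrCharacter K (fun k : K => (χh : L → ℂ) k) ∧ (ε = 1 ∨ ε = -1) ∧
      (∀ (c : W₂) (x : W₁), x ≠ 1 → (χh : L → ℂ) ((c : L) * x) = (ε : ℂ) * (β : W₂ → ℂ) c) ∧
      (∃ n : ℤ, (χh : L → ℂ) 1 - (ε : ℂ) = (n : ℂ) * (Nat.card W₁ : ℂ)) ∧
      Inv (conjOn K W₁ hnorm) (fun k : K => (χh : L → ℂ) k) := by
    intro β
    obtain ⟨χ, χh, ε₀, hinv, hext, hdet, hε₀, hval⟩ := hmain.2.2 β
    obtain ⟨ε, hε, ⟨μ, hμc, hμ1, hμsq, hμval⟩, -, hdvd⟩ :=
      Cfsg.Agent.S4451.result K W₁ hnorm hcop hKW₁' hW₁c W₂ hCC hW₂K hC χ hinv χh hext hdet β ε₀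
        hε₀ hval
    have hres : (fun k : K => (χh : L → ℂ) k) = (χ : K → ℂ) := funext hext
    obtain ⟨lam, hlam⟩ := exists_hom_of_degree_one hμc hμ1
    have hμone : ∀ x : W₁, μ x = 1 := by
      intro x
      have h1 : lam x * lam x = 1 := by
        apply Units.ext
        have := hμsq x
        rw [hlam] at this
        exact this
      have h2 : lam x ^ Nat.card W₁ = 1 := by
        rw [← map_pow, pow_card_eq_one', map_one]
      obtain ⟨k, hk⟩ := hodd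
      rw [hk, pow_succ, pow_mul, sq, h1, one_pow, one_mul] at h2
      rw [hlam]
      simp only [h2, Units.val_one]
    refine ⟨χh, ε, hres ▸ χ.2, hε, ?_, ?_, ?_⟩
    · intro c x hx
      rw [hμval c x hx, hμone, mul_one]
    · obtain ⟨n, hn⟩ := hdvd
      refine ⟨n, ?_⟩
      have hβ1 : (β : W₂ → ℂ) 1 = 1 := Cfsg.Agent.Lib.Helper25.Gagola.degree_one_of_comm hS₂ β.2
      have h1 : (charDegree (β : W₂ → ℂ) : ℂ) = 1 := by
        rw [charDegree_cast (IsIrrCharacter.isCharacter β.2), hβ1]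
      have h2 : (charDegree (χ : K → ℂ) : ℂ) = (χh : L → ℂ) 1 := by
        rw [charDegree_cast (IsIrrCharacter.isCharacter χ.2)]
        exact (hext 1).symm
      have h3 : (((charDegree (χ : K → ℂ) : ℤ) - ε * (charDegree (β : W₂ → ℂ) : ℤ) : ℤ) : ℂ) =
          (((Nat.card W₁ : ℤ) * n : ℤ) : ℂ) := by rw [hn]
      push_cast at h3
      rw [h1, h2, mul_one] at h3
      rw [h3]
      ring
    · rw [hres]
      exact (inv_conjOn_iff K W₁ hnorm _).mpr hinv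
  choose X e h1 h2 h3 h4 h5 using hex
  refine ⟨fun β => X β, e, fun β => (X β).2, h1, h2, h3, h4, ?_⟩
  -- surjectivity by counting
  obtain ⟨x₀, hx₀⟩ : ∃ x : W₁, x ≠ 1 := by
    by_contra hcon
    push Not at hcon
    apply hW₁
    rw [Subgroup.eq_bot_iff_forall]
    intro x hx
    exact congrArg Subtype.val (hcon ⟨x, hx⟩)
  let F : IrrCharacter W₂ → {χ : IrrCharacter K // Inv (conjOn K W₁ hnorm) (χ : K → ℂ)} :=
    fun β => ⟨⟨_, h1 β⟩, h5 β⟩
  have hFinj : Function.Injective F := by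
    intro β β' hh
    have hh' : ∀ k : K, (X β : L → ℂ) k = (X β' : L → ℂ) k := by
      intro k
      exact congrFun (congrArg (fun t => (t.1 : K → ℂ)) hh) k
    obtain ⟨π, hπH, hπker⟩ := exists_retract K W₁ hKW₁' hKW₁
    have hne : classInner (fun k : K => (X β' : L → ℂ) k) (fun k : K => (X β : L → ℂ) k) ≠ 0 := by
      rw [show (fun k : K => (X β' : L → ℂ) k) = (fun k : K => (X β : L → ℂ) k) from
        funext (fun k => (hh' k).symm), classInner_irr (h1 β) (h1 β), if_pos rfl]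
      exact one_ne_zero
    obtain ⟨f, hf⟩ := exists_hom_of_over K W₁.subtype π hπH hπker hS₁ (X β).2 (h1 β) (X β').2 hne
    have hval : ∀ c : W₂, (e β' : ℂ) * (β' : W₂ → ℂ) c =
        ((f x₀ : ℂˣ) : ℂ) * (e β : ℂ) * (β : W₂ → ℂ) c := by
      intro c
      rw [← h3 β' c x₀ hx₀, hf]
      simp only []
      rw [h3 β c x₀ hx₀, map_mul, (hπker c).mpr (hW₂K c.2), one_mul, hπH]
      ring
    have hε0 : ∀ ε : ℤ, (ε = 1 ∨ ε = -1) → (ε : ℂ) ≠ 0 := by
      rintro ε (rfl | rfl) <;> simp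
    by_contra hne'
    have e1 : (e β' : ℂ) • (β' : W₂ → ℂ) = (((f x₀ : ℂˣ) : ℂ) * (e β : ℂ)) • (β : W₂ → ℂ) :=
      funext hval
    have e2 : classInner ((e β' : ℂ) • (β' : W₂ → ℂ)) (β' : W₂ → ℂ) =
        classInner ((((f x₀ : ℂˣ) : ℂ) * (e β : ℂ)) • (β : W₂ → ℂ)) (β' : W₂ → ℂ) := by rw [e1]
    rw [classInner_smul_left, classInner_smul_left, classInner_irr β'.2 β'.2, if_pos rfl,
      classInner_irr β.2 β'.2, if_neg (fun h => hne' (Subtype.ext h)), mul_one, mul_zero] at e2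
    exact hε0 _ (h2 β') e2
  have hcard : Nat.card {χ : IrrCharacter K // Inv (conjOn K W₁ hnorm) (χ : K → ℂ)} =
      Nat.card (IrrCharacter W₂) := by
    rw [card_irr_eq_card_conjClasses]
    exact card_inv_sub K W₁ W₂ hnorm hcop (Group.isSolvable_of_comm hS₁) hCC
  haveI : Finite {χ : IrrCharacter K // Inv (conjOn K W₁ hnorm) (χ : K → ℂ)} := by
    apply Nat.finite_of_card_ne_zero
    rw [hcard]
    haveI : Finite (IrrCharacter W₂) := finite_irr
    haveI : Nonempty (IrrCharacter W₂) := ⟨⟨_, one_irr W₂⟩⟩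
    exact Nat.card_pos.ne'
  have hb := hFinj.bijective_of_nat_card_le hcard.le
  intro χ hχ
  obtain ⟨β, hβ⟩ := hb.2 ⟨χ, hχ⟩
  exact ⟨β, congrArg (fun t => (t.1 : K → ℂ)) hβ⟩

end

end Cfsg.Agent.Lib.Lead.Glaub
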