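import Mathlib
import Cfsg.Prelude.Def_OddOrderChar
import Cfsg.Agent.Lib.Lead.GlaubS

/-!
# Self-normalising cyclic subgroups `W = W₁ × W₂`: basic tools
-/

set_option autoImplicit false

namespace Cfsg.Agent.Lib.Lead.CycTI

open Cfsg Cfsg.Agent.Lib.Helper2
open scoped ComplexConjugate Classical

variable {G : Type*} [Group G] {W₁ W₂ : Subgroup G}

theorem dec (hcomm : ∀ a ∈ W₁, ∀ b ∈ W₂, a * b = b * a) :
    ∀ w ∈ W₁ ⊔ W₂, ∃ a ∈ W₁, ∃ b ∈ W₂, w = a * b := by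
  intro w hw
  refine (Cfsg.Agent.Lib.Helper1.mem_sup_of_le_normalizer ?_).mp hw
  intro x hx
  rw [Subgroup.mem_normalizer_iff]
  intro h
  constructor
  · intro hh
    rw [← hcomm h hh x hx, mul_inv_cancel_right]
    exact hh
  · intro hh
    have h1 := hcomm _ hh x⁻¹ (W₂.inv_mem hx)
    have h2 : h = x⁻¹ * (x * h * x⁻¹) * x := by group
    rw [h2, ← h1, inv_mul_cancel_right]
    exact hh

theorem dec_unique (hdisj : W₁ ⊓ W₂ = ⊥) {a a' b b' : G} (ha : a ∈ W₁) (ha' : a' ∈ W₁)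
    (hb : b ∈ W₂) (hb' : b' ∈ W₂) (h : a * b = a' * b') : a = a' ∧ b = b' := by
  have h1 : a'⁻¹ * a = b' * b⁻¹ := by
    rw [eq_mul_inv_iff_mul_eq, mul_assoc, h, inv_mul_cancel_left]
  have h2 : a'⁻¹ * a ∈ W₁ ⊓ W₂ :=
    ⟨W₁.mul_mem (W₁.inv_mem ha') ha, h1 ▸ W₂.mul_mem hb' (W₂.inv_mem hb)⟩
  rw [hdisj, Subgroup.mem_bot] at h2
  have h3 : a = a' := (inv_mul_eq_one.mp h2).symm
  refine ⟨h3, ?_⟩
  subst h3
  exact mul_left_cancel h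

/-- the two projections of `W₁ × W₂` -/
theorem exists_proj (hdisj : W₁ ⊓ W₂ = ⊥) (hcomm : ∀ a ∈ W₁, ∀ b ∈ W₂, a * b = b * a) :
    ∃ ρ₁ ρ₂ : ↥(W₁ ⊔ W₂) →* ↥(W₁ ⊔ W₂), (∀ w, (ρ₁ w : G) ∈ W₁) ∧ (∀ w, (ρ₂ w : G) ∈ W₂) ∧
      (∀ w, w = ρ₁ w * ρ₂ w) ∧ (∀ w : ↥(W₁ ⊔ W₂), (w : G) ∈ W₁ → ρ₁ w = w ∧ ρ₂ w = 1) ∧
      (∀ w : ↥(W₁ ⊔ W₂), (w : G) ∈ W₂ → ρ₁ w = 1 ∧ ρ₂ w = w) := by
  have hd := dec hcomm
  choose f hf g hg hfg using hd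
  have hmul : ∀ (w w' : ↥(W₁ ⊔ W₂)), f (w * w' : ↥(W₁ ⊔ W₂)) (w * w').2 = f w w.2 * f w' w'.2 ∧
      g (w * w' : ↥(W₁ ⊔ W₂)) (w * w').2 = g w w.2 * g w' w'.2 := by
    intro w w'
    apply dec_unique hdisj (hf _ _) (W₁.mul_mem (hf _ _) (hf _ _)) (hg _ _)
      (W₂.mul_mem (hg _ _) (hg _ _))
    rw [← hfg]
    have h1 : f w w.2 * f w' w'.2 * (g w w.2 * g w' w'.2) =
        f w w.2 * (f w' w'.2 * g w w.2) * g w' w'.2 := by group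
    rw [h1, hcomm _ (hf _ _) _ (hg _ _)]
    have h2 : f w w.2 * (g w w.2 * f w' w'.2) * g w' w'.2 =
        (f w w.2 * g w w.2) * (f w' w'.2 * g w' w'.2) := by group
    rw [h2, ← hfg, ← hfg]
    rfl
  refine ⟨MonoidHom.mk' (fun w => ⟨f w w.2, Subgroup.mem_sup_left (hf _ _)⟩) ?_,
    MonoidHom.mk' (fun w => ⟨g w w.2, Subgroup.mem_sup_right (hg _ _)⟩) ?_, ?_, ?_, ?_, ?_, ?_⟩
  · intro w w'
    exact Subtype.ext (hmul w w').1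
  · intro w w'
    exact Subtype.ext (hmul w w').2
  · intro w
    exact hf _ _
  · intro w
    exact hg _ _
  · intro w
    exact Subtype.ext (hfg w w.2)
  · intro w hw
    have := dec_unique hdisj (hf w w.2) hw (hg w w.2) W₂.one_mem
      (by rw [← hfg, mul_one])
    exact ⟨Subtype.ext this.1, Subtype.ext this.2⟩
  · intro w hw
    have := dec_unique hdisj (hf w w.2) W₁.one_mem (hg w w.2) hw
      (by rw [← hfg, one_mul])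
    exact ⟨Subtype.ext this.1, Subtype.ext this.2⟩

/-- trivial on `W₂` -/
def T1 (W₁ W₂ : Subgroup G) (φ : ↥(W₁ ⊔ W₂) →* ℂˣ) : Prop :=
  ∀ w : ↥(W₁ ⊔ W₂), (w : G) ∈ W₂ → φ w = 1

/-- trivial on `W₁` -/
def T2 (W₁ W₂ : Subgroup G) (ψ : ↥(W₁ ⊔ W₂) →* ℂˣ) : Prop :=
  ∀ w : ↥(W₁ ⊔ W₂), (w : G) ∈ W₁ → ψ w = 1

theorem T1.one : T1 W₁ W₂ 1 := fun _ _ => rfl
theorem T2.one : T2 W₁ W₂ 1 := fun _ _ => rfl

theorem T1.mul {φ φ' : ↥(W₁ ⊔ W₂) →* ℂˣ} (h : T1 W₁ W₂ φ) (h' : T1 W₁ W₂ φ') :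
    T1 W₁ W₂ (φ * φ') := fun w hw => by
  rw [MonoidHom.mul_apply, h w hw, h' w hw, one_mul]

theorem T2.mul {φ φ' : ↥(W₁ ⊔ W₂) →* ℂˣ} (h : T2 W₁ W₂ φ) (h' : T2 W₁ W₂ φ') :
    T2 W₁ W₂ (φ * φ') := fun w hw => by
  rw [MonoidHom.mul_apply, h w hw, h' w hw, one_mul]

theorem T1.inv {φ : ↥(W₁ ⊔ W₂) →* ℂˣ} (h : T1 W₁ W₂ φ) : T1 W₁ W₂ φ⁻¹ := fun w hw => by
  rw [MonoidHom.inv_apply, h w hw, inv_one]

theorem T2.inv {φ : ↥(W₁ ⊔ W₂) →* ℂˣ} (h : T2 W₁ W₂ φ) : T2 W₁ W₂ φ⁻¹ := fun w hw => by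
  rw [MonoidHom.inv_apply, h w hw, inv_one]

theorem T1.pow {φ : ↥(W₁ ⊔ W₂) →* ℂˣ} (h : T1 W₁ W₂ φ) (k : ℕ) : T1 W₁ W₂ (φ ^ k) :=
  fun w hw => by
  rw [MonoidHom.pow_apply, h w hw, one_pow]

theorem T2.pow {φ : ↥(W₁ ⊔ W₂) →* ℂˣ} (h : T2 W₁ W₂ φ) (k : ℕ) : T2 W₁ W₂ (φ ^ k) :=
  fun w hw => by
  rw [MonoidHom.pow_apply, h w hw, one_pow]

theorem eq_one_of_T1_T2 (hcomm : ∀ a ∈ W₁, ∀ b ∈ W₂, a * b = b * a)
    {φ : ↥(W₁ ⊔ W₂) →* ℂˣ} (h1 : T1 W₁ W₂ φ) (h2 : T2 W₁ W₂ φ) : φ = 1 := by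
  ext w
  obtain ⟨a, ha, b, hb, hw⟩ := dec hcomm w w.2
  have : w = (⟨a, Subgroup.mem_sup_left ha⟩ : ↥(W₁ ⊔ W₂)) * ⟨b, Subgroup.mem_sup_right hb⟩ :=
    Subtype.ext hw
  rw [this, map_mul, h2 _ ha, h1 _ hb]
  simp

theorem hom_one_mul {A : Type*} [Group A] (ψ : A →* ℂˣ) : 1 * ψ = ψ := by
  ext w
  simp

theorem hom_mul_one {A : Type*} [Group A] (ψ : A →* ℂˣ) : ψ * 1 = ψ := by
  ext w
  simp

theorem T1.ext (hcomm : ∀ a ∈ W₁, ∀ b ∈ W₂, a * b = b * a)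
    {φ φ' : ↥(W₁ ⊔ W₂) →* ℂˣ} (h1 : T1 W₁ W₂ φ) (h1' : T1 W₁ W₂ φ')
    (h : ∀ w : ↥(W₁ ⊔ W₂), (w : G) ∈ W₁ → φ w = φ' w) : φ = φ' := by
  apply MonoidHom.ext
  intro w
  obtain ⟨a, ha, b, hb, hw⟩ := dec hcomm w w.2
  have : w = (⟨a, Subgroup.mem_sup_left ha⟩ : ↥(W₁ ⊔ W₂)) * ⟨b, Subgroup.mem_sup_right hb⟩ :=
    Subtype.ext hw
  rw [this, map_mul, map_mul, h1 ⟨b, _⟩ hb, h1' ⟨b, _⟩ hb, h ⟨a, _⟩ ha]

theorem T2.ext (hcomm : ∀ a ∈ W₁, ∀ b ∈ W₂, a * b = b * a)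
    {φ φ' : ↥(W₁ ⊔ W₂) →* ℂˣ} (h1 : T2 W₁ W₂ φ) (h1' : T2 W₁ W₂ φ')
    (h : ∀ w : ↥(W₁ ⊔ W₂), (w : G) ∈ W₂ → φ w = φ' w) : φ = φ' := by
  apply MonoidHom.ext
  intro w
  obtain ⟨a, ha, b, hb, hw⟩ := dec hcomm w w.2
  have : w = (⟨a, Subgroup.mem_sup_left ha⟩ : ↥(W₁ ⊔ W₂)) * ⟨b, Subgroup.mem_sup_right hb⟩ :=
    Subtype.ext hw
  rw [this, map_mul, map_mul, h1 ⟨a, _⟩ ha, h1' ⟨a, _⟩ ha, h ⟨b, _⟩ hb]

theorem mul_eq_mul_iff (hcomm : ∀ a ∈ W₁, ∀ b ∈ W₂, a * b = b * a)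
    {φ φ' ψ ψ' : ↥(W₁ ⊔ W₂) →* ℂˣ} (h1 : T1 W₁ W₂ φ) (h1' : T1 W₁ W₂ φ')
    (h2 : T2 W₁ W₂ ψ) (h2' : T2 W₁ W₂ ψ') : φ * ψ = φ' * ψ' ↔ φ = φ' ∧ ψ = ψ' := by
  constructor
  · intro h
    constructor
    · apply T1.ext hcomm h1 h1'
      intro w hw
      have := DFunLike.congr_fun h w
      rw [MonoidHom.mul_apply, MonoidHom.mul_apply, h2 w hw, h2' w hw, mul_one, mul_one] at this
      exact this
    · apply T2.ext hcomm h2 h2'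
      intro w hw
      have := DFunLike.congr_fun h w
      rw [MonoidHom.mul_apply, MonoidHom.mul_apply, h1 w hw, h1' w hw, one_mul, one_mul] at this
      exact this
  · rintro ⟨rfl, rfl⟩
    rfl

/-- `(1 - φ)(1 - ψ)` -/
noncomputable def al (φ ψ : ↥(W₁ ⊔ W₂) →* ℂˣ) : ↥(W₁ ⊔ W₂) → ℂ :=
  fun w => 1 - (φ w : ℂ) - (ψ w : ℂ) + (φ w : ℂ) * (ψ w : ℂ)

theorem al_eq (φ ψ : ↥(W₁ ⊔ W₂) →* ℂˣ) (w : ↥(W₁ ⊔ W₂)) :
    al φ ψ w = (1 - (φ w : ℂ)) * (1 - (ψ w : ℂ)) := by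
  simp only [al]
  ring

theorem al_vanish {φ ψ : ↥(W₁ ⊔ W₂) →* ℂˣ} (h1 : T1 W₁ W₂ φ) (h2 : T2 W₁ W₂ ψ)
    (w : ↥(W₁ ⊔ W₂)) (hw : (w : G) ∈ W₁ ∨ (w : G) ∈ W₂) : al φ ψ w = 0 := by
  rw [al_eq]
  rcases hw with hw | hw
  · rw [h2 w hw]
    simp
  · rw [h1 w hw]
    simp

theorem al_one_left (ψ : ↥(W₁ ⊔ W₂) →* ℂˣ) : al 1 ψ = 0 := by
  ext w
  rw [al_eq]
  simp

theorem al_one_right (φ : ↥(W₁ ⊔ W₂) →* ℂˣ) : al φ 1 = 0 := by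
  ext w
  rw [al_eq]
  simp

/-- a linear character as a complex function -/
noncomputable def fn {A : Type*} [Group A] (ω : A →* ℂˣ) : A → ℂ := fun w => (ω w : ℂ)

theorem fn_injective {A : Type*} [Group A] : Function.Injective (fn : (A →* ℂˣ) → A → ℂ) := by
  intro ω ω' h
  ext w
  exact congrFun h w

theorem inner_fn {A : Type*} [Group A] [Fintype A] (ω ω' : A →* ℂˣ) :
    classInner (fn ω) (fn ω') = if ω = ω' then 1 else 0 := by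
  have := classInner_irr (isIrrCharacter_of_hom ω) (isIrrCharacter_of_hom ω')
  change classInner (fn ω) (fn ω') = if fn ω = fn ω' then 1 else 0 at this
  rw [this]
  by_cases h : ω = ω'
  · rw [if_pos h, if_pos (by rw [h])]
  · rw [if_neg h, if_neg (fun h' => h (fn_injective h'))]

theorem al_eq_fn (φ ψ : ↥(W₁ ⊔ W₂) →* ℂˣ) : al φ ψ = fn 1 - fn φ - fn ψ + fn (φ * ψ) := by
  ext w
  simp [al, fn]

theorem inner_al_fn [Fintype ↥(W₁ ⊔ W₂)] (φ ψ ω : ↥(W₁ ⊔ W₂) →* ℂˣ) :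
    classInner (al φ ψ) (fn ω) = (if 1 = ω then 1 else 0) - (if φ = ω then 1 else 0)
      - (if ψ = ω then 1 else 0) + (if φ * ψ = ω then 1 else 0) := by
  rw [al_eq_fn, classInner_add_left, classInner_sub_left, classInner_sub_left, inner_fn, inner_fn,
    inner_fn, inner_fn]

theorem inner_al_mul [Fintype ↥(W₁ ⊔ W₂)] (hcomm : ∀ a ∈ W₁, ∀ b ∈ W₂, a * b = b * a)
    {φ φ' ψ ψ' : ↥(W₁ ⊔ W₂) →* ℂˣ} (h1 : T1 W₁ W₂ φ) (h1' : T1 W₁ W₂ φ')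
    (h2 : T2 W₁ W₂ ψ) (h2' : T2 W₁ W₂ ψ') (hφ' : φ' ≠ 1) (hψ' : ψ' ≠ 1) :
    classInner (al φ ψ) (fn (φ' * ψ')) = if φ = φ' ∧ ψ = ψ' then 1 else 0 := by
  rw [inner_al_fn]
  have e1 : ¬ (1 = φ' * ψ') := by
    intro h
    have := (mul_eq_mul_iff hcomm T1.one h1' T2.one h2').mp (by rw [hom_one_mul]; exact h)
    exact hφ' this.1.symm
  have e2 : ¬ (φ = φ' * ψ') := by
    intro h
    have := (mul_eq_mul_iff hcomm h1 h1' T2.one h2').mp (by rw [hom_mul_one]; exact h)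
    exact hψ' this.2.symm
  have e3 : ¬ (ψ = φ' * ψ') := by
    intro h
    have := (mul_eq_mul_iff hcomm T1.one h1' h2 h2').mp (by rw [hom_one_mul]; exact h)
    exact hφ' this.1.symm
  rw [if_neg e1, if_neg e2, if_neg e3]
  simp only [mul_eq_mul_iff hcomm h1 h1' h2 h2']
  ring

theorem inner_al_al [Fintype ↥(W₁ ⊔ W₂)] (hcomm : ∀ a ∈ W₁, ∀ b ∈ W₂, a * b = b * a)
    {φ φ' ψ ψ' : ↥(W₁ ⊔ W₂) →* ℂˣ} (h1 : T1 W₁ W₂ φ) (h1' : T1 W₁ W₂ φ')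
    (h2 : T2 W₁ W₂ ψ) (h2' : T2 W₁ W₂ ψ') (hφ : φ ≠ 1) (hψ : ψ ≠ 1) (hφ' : φ' ≠ 1) (hψ' : ψ' ≠ 1) :
    classInner (al φ ψ) (al φ' ψ') = 1 + (if φ = φ' then 1 else 0) + (if ψ = ψ' then 1 else 0) +
      (if φ = φ' then 1 else 0) * (if ψ = ψ' then 1 else 0) := by
  rw [al_eq_fn φ' ψ', classInner_add_right, classInner_sub_right, classInner_sub_right,
    inner_al_mul hcomm h1 h1' h2 h2' hφ' hψ', inner_al_fn, inner_al_fn, inner_al_fn]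
  have e1 : ¬ (φ = 1) := hφ
  have e2 : ¬ (ψ = 1) := hψ
  have e3 : ¬ (φ * ψ = 1) := by
    intro h
    have := (mul_eq_mul_iff hcomm h1 T1.one h2 T2.one).mp (by rw [hom_one_mul]; exact h)
    exact hφ this.1
  have e4 : ¬ (1 = φ') := fun h => hφ' h.symm
  have e5 : ¬ (ψ = φ') := by
    intro h
    have := (mul_eq_mul_iff hcomm T1.one h1' h2 T2.one).mp (by rw [hom_one_mul, hom_mul_one]; exact h)
    exact hψ this.2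
  have e6 : ¬ (φ * ψ = φ') := by
    intro h
    have := (mul_eq_mul_iff hcomm h1 h1' h2 T2.one).mp (by rw [hom_mul_one]; exact h)
    exact hψ this.2
  have e7 : ¬ (1 = ψ') := fun h => hψ' h.symm
  have e8 : ¬ (φ = ψ') := by
    intro h
    have := (mul_eq_mul_iff hcomm h1 T1.one T2.one h2').mp (by rw [hom_one_mul, hom_mul_one]; exact h)
    exact hφ this.1
  have e9 : ¬ (φ * ψ = ψ') := by
    intro h
    have := (mul_eq_mul_iff hcomm h1 T1.one h2 h2').mp (by rw [hom_one_mul]; exact h)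
    exact hφ this.1
  rw [if_pos rfl, if_neg e1, if_neg e2, if_neg e3, if_neg e4, if_neg e5, if_neg e6, if_neg e7,
    if_neg e8, if_neg e9]
  by_cases ha : φ = φ' <;> by_cases hb : ψ = ψ' <;> simp [ha, hb]

end Cfsg.Agent.Lib.Lead.CycTI
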