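import Mathlib
import Cfsg.Prelude.Def_OddOrderLocal
import Cfsg.Agent.Lib.Lead.CycTIa

/-!
# Self-normalising cyclic subgroups: the TI property, induction, vanishing
-/

set_option autoImplicit false

namespace Cfsg.Agent.Lib.Lead.CycTI

open Cfsg Cfsg.Agent.Lib.Helper2
open scoped ComplexConjugate Classical

variable {G : Type*} [Group G] {W₁ W₂ : Subgroup G}

theorem mem_normalizer_singleton {g w : G} :
    g ∈ Subgroup.normalizer ({w} : Set G) ↔ g * w * g⁻¹ = w := by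
  rw [Subgroup.mem_set_normalizer_iff]
  constructor
  · intro h
    exact (h w).mp rfl
  · intro h y
    simp only [Set.mem_singleton_iff]
    constructor
    · rintro rfl
      exact h
    · intro hy
      have : g * y * g⁻¹ = g * w * g⁻¹ := by rw [hy, h]
      exact mul_left_cancel (mul_right_cancel this)

theorem mem_of_conj (hW : IsSelfNormalizingCyclic W₁ W₂) {w x : G} (hw : w ∈ W₁ ⊔ W₂)
    (h1 : w ∉ W₁) (h2 : w ∉ W₂) (hw' : x⁻¹ * w * x ∈ W₁ ⊔ W₂) (h1' : x⁻¹ * w * x ∉ W₁)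
    (h2' : x⁻¹ * w * x ∉ W₂) : x ∈ W₁ ⊔ W₂ := by
  obtain ⟨_, _, hdisj, hcomm, hcyc, hN⟩ := hW
  have hNw : Subgroup.normalizer ({w} : Set G) = W₁ ⊔ W₂ := hN {w} (by
    intro y hy
    rw [Set.mem_singleton_iff] at hy
    subst hy
    exact ⟨hw, fun h => h.elim h1 h2⟩) ⟨w, rfl⟩
  have hNw' : Subgroup.normalizer ({x⁻¹ * w * x} : Set G) = W₁ ⊔ W₂ := hN {x⁻¹ * w * x} (by
    intro y hy
    rw [Set.mem_singleton_iff] at hy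
    subst hy
    exact ⟨hw', fun h => h.elim h1' h2'⟩) ⟨_, rfl⟩
  have hc1 : ∀ y ∈ W₁ ⊔ W₂, x⁻¹ * y * x ∈ W₁ ⊔ W₂ := by
    intro y hy
    rw [← hNw']
    rw [← hNw] at hy
    rw [mem_normalizer_singleton] at hy ⊢
    calc x⁻¹ * y * x * (x⁻¹ * w * x) * (x⁻¹ * y * x)⁻¹ = x⁻¹ * (y * w * y⁻¹) * x := by group
      _ = _ := by rw [hy]
  have hc2 : ∀ y ∈ W₁ ⊔ W₂, x * y * x⁻¹ ∈ W₁ ⊔ W₂ := by
    intro y hy
    rw [← hNw]
    rw [← hNw'] at hy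
    rw [mem_normalizer_singleton] at hy ⊢
    calc x * y * x⁻¹ * w * (x * y * x⁻¹)⁻¹ = x * (y * (x⁻¹ * w * x) * y⁻¹) * x⁻¹ := by group
      _ = x * (x⁻¹ * w * x) * x⁻¹ := by rw [hy]
      _ = w := by group
  let f : ↥(W₁ ⊔ W₂) →* ↥(W₁ ⊔ W₂) := MonoidHom.mk' (fun y => ⟨x⁻¹ * y * x, hc1 y y.2⟩) (by
    intro a b
    apply Subtype.ext
    simp only [Subgroup.coe_mul]
    group)
  let f' : ↥(W₁ ⊔ W₂) →* ↥(W₁ ⊔ W₂) := MonoidHom.mk' (fun y => ⟨x * y * x⁻¹, hc2 y y.2⟩) (by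
    intro a b
    apply Subtype.ext
    simp only [Subgroup.coe_mul]
    group)
  haveI := hcyc
  obtain ⟨m, hm⟩ := MonoidHom.map_cyclic f
  obtain ⟨m', hm'⟩ := MonoidHom.map_cyclic f'
  have k1 : ∀ (S : Subgroup G), S ≤ W₁ ⊔ W₂ → ∀ y ∈ S, x⁻¹ * y * x ∈ S := by
    intro S hS y hy
    have h3 := congrArg Subtype.val (hm ⟨y, hS hy⟩)
    have h4 : x⁻¹ * y * x = y ^ m := by
      simpa [f] using h3
    rw [h4]
    exact S.zpow_mem hy m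
  have k2 : ∀ (S : Subgroup G), S ≤ W₁ ⊔ W₂ → ∀ y ∈ S, x * y * x⁻¹ ∈ S := by
    intro S hS y hy
    have h3 := congrArg Subtype.val (hm' ⟨y, hS hy⟩)
    have h4 : x * y * x⁻¹ = y ^ m' := by
      simpa [f'] using h3
    rw [h4]
    exact S.zpow_mem hy m'
  rw [← hN ((↑(W₁ ⊔ W₂) : Set G) \ (↑W₁ ∪ ↑W₂)) subset_rfl ⟨w, hw, fun h => h.elim h1 h2⟩]
  rw [Subgroup.mem_set_normalizer_iff]
  intro h
  have e1 : x⁻¹ * (x * h * x⁻¹) * x = h := by group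
  constructor
  · rintro ⟨hh, hh'⟩
    refine ⟨hc2 h hh, ?_⟩
    rintro (h3 | h3)
    · apply hh'
      left
      have := k1 W₁ le_sup_left _ h3
      rwa [e1] at this
    · apply hh'
      right
      have := k1 W₂ le_sup_right _ h3
      rwa [e1] at this
  · rintro ⟨hh, hh'⟩
    have h5 : h ∈ W₁ ⊔ W₂ := by
      have := hc1 _ hh
      rwa [e1] at this
    refine ⟨h5, ?_⟩
    rintro (h3 | h3)
    · exact hh' (Or.inl (k2 W₁ le_sup_left _ h3))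
    · exact hh' (Or.inr (k2 W₂ le_sup_right _ h3))

theorem indFun_apply [Fintype G] (hW : IsSelfNormalizingCyclic W₁ W₂) (α : ↥(W₁ ⊔ W₂) → ℂ)
    (hα : ∀ w : ↥(W₁ ⊔ W₂), ((w : G) ∈ W₁ ∨ (w : G) ∈ W₂) → α w = 0)
    (w : ↥(W₁ ⊔ W₂)) (h1 : (w : G) ∉ W₁) (h2 : (w : G) ∉ W₂) :
    indFun (W₁ ⊔ W₂) α w = α w := by
  have hWcomm := Cfsg.Agent.Lib.Lead.Glaub.comm_of_cyclic (W₁ ⊔ W₂) hW.2.2.2.2.1
  simp only [indFun]
  have key : ∀ x : G, extendByZero (W₁ ⊔ W₂) α (x⁻¹ * w * x) =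
      extendByZero (W₁ ⊔ W₂) (fun _ => α w) x := by
    intro x
    by_cases hx : x ∈ W₁ ⊔ W₂
    · have h3 : x⁻¹ * w * x = w := by
        have h4 := congrArg Subtype.val (hWcomm w ⟨x, hx⟩)
        simp only [Subgroup.coe_mul] at h4
        rw [mul_assoc, h4, inv_mul_cancel_left]
      rw [h3, extendByZero_coe, extendByZero_mem _ _ hx]
    · rw [extendByZero_not_mem _ _ hx]
      by_cases hm : x⁻¹ * w * x ∈ W₁ ⊔ W₂
      · rw [extendByZero_mem _ _ hm]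
        apply hα
        by_contra hcon
        push Not at hcon
        exact hx (mem_of_conj hW w.2 h1 h2 hm hcon.1 hcon.2)
      · exact extendByZero_not_mem _ _ hm
  simp_rw [key]
  haveI := Fintype.ofFinite ↥(W₁ ⊔ W₂)
  rw [sum_extendByZero]
  simp only [Finset.sum_const, Finset.card_univ, nsmul_eq_mul]
  rw [Nat.card_eq_fintype_card, ← mul_assoc, inv_mul_cancel₀, one_mul]
  exact_mod_cast Fintype.card_ne_zero

/-- induction is an isometry on functions supported off `W₁ ∪ W₂` -/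
theorem inner_indFun [Fintype G] [Fintype ↥(W₁ ⊔ W₂)] (hW : IsSelfNormalizingCyclic W₁ W₂)
    (α β : ↥(W₁ ⊔ W₂) → ℂ)
    (hα : ∀ w : ↥(W₁ ⊔ W₂), ((w : G) ∈ W₁ ∨ (w : G) ∈ W₂) → α w = 0)
    (hβ : ∀ w : ↥(W₁ ⊔ W₂), ((w : G) ∈ W₁ ∨ (w : G) ∈ W₂) → β w = 0) :
    classInner (indFun (W₁ ⊔ W₂) α) (indFun (W₁ ⊔ W₂) β) = classInner α β := by
  rw [frobenius_reciprocity _ _ _ (indFun_isClassFunction _ _)]
  simp only [classInner]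
  congr 1
  refine Finset.sum_congr rfl fun w _ => ?_
  by_cases h : (w : G) ∈ W₁ ∨ (w : G) ∈ W₂
  · rw [hα w h, zero_mul, zero_mul]
  · push Not at h
    rw [indFun_apply hW β hβ w h.1 h.2]

theorem conj_hom {A : Type*} [Group A] [Finite A] (ω : A →* ℂˣ) (a : A) :
    conj ((ω a : ℂˣ) : ℂ) = ((ω a⁻¹ : ℂˣ) : ℂ) := by
  have h1 : ((ω a : ℂˣ) : ℂ) ^ (Nat.card A) = 1 := by
    rw [← Units.val_pow_eq_pow_val, ← map_pow, pow_card_eq_one', map_one, Units.val_one]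
  have h2 : ‖((ω a : ℂˣ) : ℂ)‖ = 1 :=
    Complex.norm_eq_one_of_pow_eq_one h1 Nat.card_pos.ne'
  rw [map_inv, Units.val_inv_eq_inv_val, Complex.inv_eq_conj h2]

theorem sum_hom_aux {A : Type*} [Group A] [Finite A] (hA : ∀ a b : A, a * b = b * a)
    [Fintype (A →* ℂˣ)] {c : A} (hc : c ≠ 1) (x : A) :
    ∑ ω : A →* ℂˣ, ((ω c : ℂˣ) : ℂ) * (1 - ((ω x⁻¹ : ℂˣ) : ℂ)) =
      -(if x = c then (Nat.card A : ℂ) else 0) := by
  have h1 : ∀ ω : A →* ℂˣ, ((ω c : ℂˣ) : ℂ) * (1 - ((ω x⁻¹ : ℂˣ) : ℂ)) =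
      ((ω c : ℂˣ) : ℂ) - ((ω (c * x⁻¹) : ℂˣ) : ℂ) := by
    intro ω
    rw [map_mul, Units.val_mul]
    ring
  simp_rw [h1]
  rw [Finset.sum_sub_distrib, Cfsg.Agent.Lib.Lead.Glaub.sum_hom_apply hA,
    Cfsg.Agent.Lib.Lead.Glaub.sum_hom_apply hA, if_neg hc, zero_sub]
  congr 1
  by_cases h : x = c
  · rw [if_pos h, if_pos (by rw [h, mul_inv_cancel])]
  · rw [if_neg h, if_neg]
    intro h'
    exact h (mul_inv_eq_one.mp h').symm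

theorem vanish_of_orth [Finite G] [Fintype ↥(W₁ ⊔ W₂)] (hdisj : W₁ ⊓ W₂ = ⊥)
    (hcomm : ∀ a ∈ W₁, ∀ b ∈ W₂, a * b = b * a)
    (hWc : ∀ a b : ↥(W₁ ⊔ W₂), a * b = b * a) (r : ↥(W₁ ⊔ W₂) → ℂ)
    (h : ∀ φ ψ, T1 W₁ W₂ φ → T2 W₁ W₂ ψ → φ ≠ 1 → ψ ≠ 1 → classInner r (al φ ψ) = 0)
    (w₀ : ↥(W₁ ⊔ W₂)) (h1 : (w₀ : G) ∉ W₁) (h2 : (w₀ : G) ∉ W₂) : r w₀ = 0 := by
  obtain ⟨ρ₁, ρ₂, hρ₁, hρ₂, hρ, hρW₁, hρW₂⟩ := exists_proj hdisj hcomm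
  haveI := Cfsg.Agent.Lib.Lead.Glaub.finite_hom hWc
  haveI := Fintype.ofFinite (↥(W₁ ⊔ W₂) →* ℂˣ)
  have ha₀ : ρ₁ w₀ ≠ 1 := by
    intro h3
    apply h2
    have := hρ w₀
    rw [h3, one_mul] at this
    rw [this]
    exact hρ₂ _
  have hb₀ : ρ₂ w₀ ≠ 1 := by
    intro h3
    apply h1
    have := hρ w₀
    rw [h3, mul_one] at this
    rw [this]
    exact hρ₁ _
  have h' : ∀ φ ψ, T1 W₁ W₂ φ → T2 W₁ W₂ ψ → classInner r (al φ ψ) = 0 := by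
    intro φ ψ hφ hψ
    by_cases e1 : φ = 1
    · rw [e1, al_one_left, classInner_zero_right]
    by_cases e2 : ψ = 1
    · rw [e2, al_one_right, classInner_zero_right]
    exact h φ ψ hφ hψ e1 e2
  have hT1 : ∀ ω : ↥(W₁ ⊔ W₂) →* ℂˣ, T1 W₁ W₂ (ω.comp ρ₁) := by
    intro ω w hw
    rw [MonoidHom.comp_apply, (hρW₂ w hw).1, map_one]
  have hT2 : ∀ ω : ↥(W₁ ⊔ W₂) →* ℂˣ, T2 W₁ W₂ (ω.comp ρ₂) := by
    intro ω w hw
    rw [MonoidHom.comp_apply, (hρW₁ w hw).2, map_one]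
  set N : ℂ := (Nat.card ↥(W₁ ⊔ W₂) : ℂ) with hN
  have hN0 : N ≠ 0 := by
    rw [hN]
    exact_mod_cast Nat.card_pos.ne'
  have hS : ∀ w : ↥(W₁ ⊔ W₂), ∑ ω : ↥(W₁ ⊔ W₂) →* ℂˣ, ∑ ω' : ↥(W₁ ⊔ W₂) →* ℂˣ,
      ((ω (ρ₁ w₀) : ℂˣ) : ℂ) * ((ω' (ρ₂ w₀) : ℂˣ) : ℂ) * conj (al (ω.comp ρ₁) (ω'.comp ρ₂) w) =
      if w = w₀ then N ^ 2 else 0 := by
    intro w
    have e1 : ∀ ω ω' : ↥(W₁ ⊔ W₂) →* ℂˣ,
        ((ω (ρ₁ w₀) : ℂˣ) : ℂ) * ((ω' (ρ₂ w₀) : ℂˣ) : ℂ) * conj (al (ω.comp ρ₁) (ω'.comp ρ₂) w) =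
        (((ω (ρ₁ w₀) : ℂˣ) : ℂ) * (1 - ((ω (ρ₁ w)⁻¹ : ℂˣ) : ℂ))) *
          (((ω' (ρ₂ w₀) : ℂˣ) : ℂ) * (1 - ((ω' (ρ₂ w)⁻¹ : ℂˣ) : ℂ))) := by
      intro ω ω'
      rw [al_eq, map_mul, map_sub, map_sub, map_one, MonoidHom.comp_apply, MonoidHom.comp_apply,
        conj_hom, conj_hom]
      ring
    simp_rw [e1]
    rw [← Finset.sum_mul_sum, sum_hom_aux hWc ha₀, sum_hom_aux hWc hb₀]
    by_cases e2 : w = w₀
    · rw [if_pos e2, if_pos (by rw [e2]), if_pos (by rw [e2])]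
      ring
    · rw [if_neg e2]
      by_cases e3 : ρ₁ w = ρ₁ w₀
      · rw [if_neg (c := ρ₂ w = ρ₂ w₀)]
        · ring
        · intro e4
          apply e2
          rw [hρ w, hρ w₀, e3, e4]
      · rw [if_neg e3]
        ring
  have h3 : N ^ 2 * r w₀ = ∑ w : ↥(W₁ ⊔ W₂), r w * (if w = w₀ then N ^ 2 else 0) := by
    rw [Finset.sum_eq_single w₀]
    · rw [if_pos rfl, mul_comm]
    · intro b _ hb
      rw [if_neg hb, mul_zero]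
    · intro hh
      exact absurd (Finset.mem_univ _) hh
  have h4 : ∑ w : ↥(W₁ ⊔ W₂), r w * (if w = w₀ then N ^ 2 else 0) = 0 := by
    simp_rw [← hS, Finset.mul_sum]
    rw [Finset.sum_comm]
    apply Finset.sum_eq_zero
    intro ω _
    rw [Finset.sum_comm]
    apply Finset.sum_eq_zero
    intro ω' _
    have h5 := h' _ _ (hT1 ω) (hT2 ω')
    simp only [classInner] at h5
    have h6 : ∑ g : ↥(W₁ ⊔ W₂), r g * conj (al (ω.comp ρ₁) (ω'.comp ρ₂) g) = 0 := by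
      rcases mul_eq_zero.mp h5 with h7 | h7
      · exact absurd (inv_eq_zero.mp h7) hN0
      · exact h7
    calc ∑ w : ↥(W₁ ⊔ W₂), r w * (((ω (ρ₁ w₀) : ℂˣ) : ℂ) * ((ω' (ρ₂ w₀) : ℂˣ) : ℂ) *
          conj (al (ω.comp ρ₁) (ω'.comp ρ₂) w))
        = ((ω (ρ₁ w₀) : ℂˣ) : ℂ) * ((ω' (ρ₂ w₀) : ℂˣ) : ℂ) *
          ∑ g : ↥(W₁ ⊔ W₂), r g * conj (al (ω.comp ρ₁) (ω'.comp ρ₂) g) := by
          rw [Finset.mul_sum]
          refine Finset.sum_congr rfl fun w _ => ?_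
          ring
      _ = 0 := by rw [h6, mul_zero]
  rw [h4] at h3
  rcases mul_eq_zero.mp h3 with h5 | h5
  · exact absurd (pow_eq_zero_iff (two_ne_zero)|>.mp h5) hN0
  · exact h5

end Cfsg.Agent.Lib.Lead.CycTI
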