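import Mathlib
import Cfsg.Agent.Lib.Lead.CycTIb
import Cfsg.Agent.Lib.Helper6.CharCentral

/-!
# Signed irreducible characters
-/

set_option autoImplicit false

namespace Cfsg.Agent.Lib.Lead.CycTI

open Cfsg Cfsg.Agent.Lib.Helper2
open scoped ComplexConjugate Classical

variable {X : Type*} [Group X] [Fintype X]

/-- an irreducible character up to sign -/
def Sgn (X : Type*) [Group X] (α : X → ℂ) : Prop := IsIrrCharacter X α ∨ IsIrrCharacter X (-α)

theorem inner_neg_left (α β : X → ℂ) : classInner (-α) β = -classInner α β := by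
  simp [classInner, Finset.sum_neg_distrib]

theorem inner_neg_right (α β : X → ℂ) : classInner α (-β) = -classInner α β := by
  simp [classInner, Finset.sum_neg_distrib]

theorem Sgn.neg {α : X → ℂ} (h : Sgn X α) : Sgn X (-α) := by
  rcases h with h | h
  · right
    rwa [neg_neg]
  · left
    exact h

theorem Sgn.exists {α : X → ℂ} (h : Sgn X α) : ∃ A, IsIrrCharacter X A ∧ (α = A ∨ α = -A) := by
  rcases h with h | h
  · exact ⟨α, h, Or.inl rfl⟩
  · exact ⟨-α, h, Or.inr (neg_neg α).symm⟩

theorem Sgn.norm {α : X → ℂ} (h : Sgn X α) : classInner α α = 1 := by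
  obtain ⟨A, hA, rfl | rfl⟩ := h.exists
  · rw [classInner_irr hA hA, if_pos rfl]
  · rw [inner_neg_left, inner_neg_right, neg_neg, classInner_irr hA hA, if_pos rfl]

theorem Sgn.deg_ne {α : X → ℂ} (h : Sgn X α) : α 1 ≠ 0 := by
  obtain ⟨A, hA, rfl | rfl⟩ := h.exists
  · exact Cfsg.Agent.Lib.Helper6.irr_one_ne_zero hA
  · rw [Pi.neg_apply, neg_ne_zero]
    exact Cfsg.Agent.Lib.Helper6.irr_one_ne_zero hA

theorem Sgn.cases {α γ : X → ℂ} (hα : Sgn X α) (hγ : Sgn X γ) :
    classInner α γ = 0 ∨ γ = α ∨ γ = -α := by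
  obtain ⟨A, hA, hα'⟩ := hα.exists
  obtain ⟨C, hC, hγ'⟩ := hγ.exists
  by_cases hAC : A = C
  · subst hAC
    right
    rcases hα' with rfl | rfl <;> rcases hγ' with rfl | rfl <;> simp
  · left
    have h0 : classInner A C = 0 := by rw [classInner_irr hA hC, if_neg hAC]
    rcases hα' with rfl | rfl <;> rcases hγ' with rfl | rfl <;>
      simp [inner_neg_left, inner_neg_right, h0]

theorem Sgn.isClassFunction {α : X → ℂ} (h : Sgn X α) : IsClassFunction X α := by
  obtain ⟨A, hA, rfl | rfl⟩ := h.exists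
  · exact IsCharacter.isClassFunction (IsIrrCharacter.isCharacter hA)
  · intro g x
    have := IsCharacter.isClassFunction (IsIrrCharacter.isCharacter hA) g x
    simp only [Pi.neg_apply, this]

/-- Peterfalvi (1.4)-type orthogonality lemma, one of the four conclusions -/
theorem orth_aux (α β γ δ : X → ℂ) (hα : Sgn X α) (hβ : Sgn X β) (hγ : Sgn X γ) (hδ : Sgn X δ)
    (u v : ℝ) (hu : u ≠ 0) (hab : classInner α β = 0) (hcd : classInner γ δ = 0)
    (hmix : classInner (α - β) ((u : ℂ) • γ - (v : ℂ) • δ) = 0) (h1 : α 1 = β 1)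
    (h2 : (u : ℂ) * γ 1 = (v : ℂ) * δ 1) : classInner α γ = 0 := by
  have huC : (u : ℂ) ≠ 0 := by exact_mod_cast hu
  have hba : classInner β α = 0 := by rw [← classInner_conj_symm, hab, map_zero]
  rw [classInner_sub_left, classInner_sub_right, classInner_sub_right, classInner_smul_right,
    classInner_smul_right, classInner_smul_right, classInner_smul_right, Complex.conj_ofReal,
    Complex.conj_ofReal] at hmix
  have hα1 := hα.deg_ne
  rcases Sgn.cases hα hγ with h | hg | hg
  · exact h
  · exfalso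
    rw [hg] at hmix hcd h2
    rw [hα.norm, hcd, hba] at hmix
    rcases Sgn.cases hβ hδ with h | hd | hd
    · rw [h] at hmix
      apply huC
      linear_combination hmix
    · rw [hd] at hmix h2
      rw [hβ.norm] at hmix
      rw [← h1] at h2
      have h3 : (u : ℂ) * α 1 = 0 := by linear_combination (1 / 2 : ℂ) * h2 + (1 / 2 : ℂ) * α 1 * hmix
      rcases mul_eq_zero.mp h3 with h4 | h4
      · exact huC h4
      · exact hα1 h4
    · rw [hd] at hmix h2
      rw [inner_neg_right, hβ.norm] at hmix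
      rw [Pi.neg_apply, ← h1] at h2
      have h3 : (u : ℂ) * α 1 = 0 := by linear_combination (1 / 2 : ℂ) * h2 + (1 / 2 : ℂ) * α 1 * hmix
      rcases mul_eq_zero.mp h3 with h4 | h4
      · exact huC h4
      · exact hα1 h4
  · exfalso
    rw [hg] at hmix hcd h2
    rw [inner_neg_left] at hcd
    rw [inner_neg_right, inner_neg_right, hα.norm, neg_eq_zero.mp hcd, hba] at hmix
    rcases Sgn.cases hβ hδ with h | hd | hd
    · rw [h] at hmix
      apply huC
      linear_combination -hmix
    · rw [hd] at hmix h2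
      rw [hβ.norm] at hmix
      rw [Pi.neg_apply, ← h1] at h2
      have h3 : (u : ℂ) * α 1 = 0 := by linear_combination (-1 / 2 : ℂ) * h2 - (1 / 2 : ℂ) * α 1 * hmix
      rcases mul_eq_zero.mp h3 with h4 | h4
      · exact huC h4
      · exact hα1 h4
    · rw [hd] at hmix h2
      rw [inner_neg_right, hβ.norm] at hmix
      rw [Pi.neg_apply, Pi.neg_apply, ← h1] at h2
      have h3 : (u : ℂ) * α 1 = 0 := by linear_combination (-1 / 2 : ℂ) * h2 - (1 / 2 : ℂ) * α 1 * hmix
      rcases mul_eq_zero.mp h3 with h4 | h4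
      · exact huC h4
      · exact hα1 h4

end Cfsg.Agent.Lib.Lead.CycTI
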