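import Mathlib
import Cfsg.Prelude.Def_OddOrderChar
import Cfsg.Agent.Lib.Lead.CycTIc
import Cfsg.Agent.Lib.Lead.GenChar
import Cfsg.Agent.Lib.Helper23.IndTools
import Cfsg.Agent.Lib.Helper24.CharInt

/-!
# Coherence: basic tools on generalized characters
-/

set_option autoImplicit false

namespace Cfsg.Agent.Lib.Lead.Coh

open Cfsg Cfsg.Agent.Lib.Helper2 Cfsg.Agent.Lib.Lead Cfsg.Agent.Lib.Lead.CycTI
open Cfsg.Agent.Lib.Helper23.IndTools
open scoped ComplexConjugate Classical

variable {G : Type*} [Group G] [Fintype G]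

theorem genChar_inner_int {θ η : G → ℂ} (hθ : IsGeneralizedCharacter G θ)
    (hη : IsGeneralizedCharacter G η) : ∃ m : ℤ, classInner θ η = m := by
  obtain ⟨a, b, ha, hb, rfl⟩ := hθ
  obtain ⟨c, d, hc, hd, rfl⟩ := hη
  obtain ⟨n1, h1⟩ := IsCharacter.classInner_nat ha hc
  obtain ⟨n2, h2⟩ := IsCharacter.classInner_nat ha hd
  obtain ⟨n3, h3⟩ := IsCharacter.classInner_nat hb hc
  obtain ⟨n4, h4⟩ := IsCharacter.classInner_nat hb hd
  refine ⟨(n1 : ℤ) - n2 - (n3 - n4), ?_⟩
  rw [classInner_sub_left, classInner_sub_right, classInner_sub_right, h1, h2, h3, h4]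
  push_cast
  ring

theorem genChar_isClassFunction {θ : G → ℂ} (hθ : IsGeneralizedCharacter G θ) :
    IsClassFunction G θ := by
  obtain ⟨a, b, ha, hb, rfl⟩ := hθ
  exact isClassFunction_sub (IsCharacter.isClassFunction ha) (IsCharacter.isClassFunction hb)

theorem Sgn.genChar {α : G → ℂ} (h : Sgn G α) : IsGeneralizedCharacter G α := by
  rcases h with h | h
  · exact genChar_of_char (IsIrrCharacter.isCharacter h)
  · have := genChar_neg (genChar_of_char (IsIrrCharacter.isCharacter h))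
    rwa [neg_neg] at this

theorem irr_deg {χ : G → ℂ} (h : IsIrrCharacter G χ) : ∃ n : ℕ, 0 < n ∧ χ 1 = n :=
  ⟨_, Cfsg.Agent.Lib.Helper24.charDegree_pos h,
    (Cfsg.Agent.Lib.Helper24.charDegree_cast (IsIrrCharacter.isCharacter h)).symm⟩

theorem inner_self_re_nonneg (f : G → ℂ) : 0 ≤ (classInner f f).re := by
  simp only [classInner]
  have h1 : ∀ g : G, f g * conj (f g) = ((Complex.normSq (f g) : ℝ) : ℂ) := fun g =>
    Complex.mul_conj (f g)
  simp_rw [h1]
  rw [← Complex.ofReal_sum, ← Complex.ofReal_natCast, ← Complex.ofReal_inv, ← Complex.ofReal_mul,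
    Complex.ofReal_re]
  apply mul_nonneg
  · exact inv_nonneg.mpr (Nat.cast_nonneg _)
  · exact Finset.sum_nonneg fun g _ => Complex.normSq_nonneg _

/-- a generalized character of norm two is a sum of two orthogonal signed irreducibles -/
theorem genChar_norm_two {θ : G → ℂ} (hθ : IsGeneralizedCharacter G θ)
    (h : classInner θ θ = 2) :
    ∃ α β, Sgn G α ∧ Sgn G β ∧ classInner α β = 0 ∧ θ = α + β := by
  have hne : θ ≠ 0 := by
    rintro rfl
    rw [classInner_zero_left] at h
    norm_num at h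
  obtain ⟨ψ, hψ, hc⟩ : ∃ ψ, IsIrrCharacter G ψ ∧ classInner θ ψ ≠ 0 := by
    by_contra hcon
    push Not at hcon
    exact hne (eq_zero_of_classInner_irr_eq_zero (genChar_isClassFunction hθ) hcon)
  obtain ⟨c, hcc⟩ := genChar_inner_int hθ (genChar_of_char (IsIrrCharacter.isCharacter hψ))
  have hc0 : c ≠ 0 := by
    rintro rfl
    apply hc
    rw [hcc, Int.cast_zero]
  have hψθ : classInner ψ θ = c := by
    rw [← classInner_conj_symm, hcc, map_intCast (starRingEnd ℂ) c]
  have hψψ : classInner ψ ψ = 1 := by rw [classInner_irr hψ hψ, if_pos rfl]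
  have hnorm : classInner (θ - (c : ℂ) • ψ) (θ - (c : ℂ) • ψ) = 2 - (c : ℂ) ^ 2 := by
    rw [classInner_sub_left, classInner_sub_right, classInner_sub_right, classInner_smul_left,
      classInner_smul_left, classInner_smul_right, classInner_smul_right, h, hcc, hψθ, hψψ,
      map_intCast (starRingEnd ℂ) c]
    ring
  have hc2 : c ^ 2 ≤ 2 := by
    have h1 := inner_self_re_nonneg (θ - (c : ℂ) • ψ)
    rw [hnorm] at h1
    have h2 : ((2 : ℂ) - (c : ℂ) ^ 2).re = 2 - (c : ℝ) ^ 2 := by
      have : ((2 : ℂ) - (c : ℂ) ^ 2) = ((2 - (c : ℝ) ^ 2 : ℝ) : ℂ) := by push_cast; ring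
      rw [this, Complex.ofReal_re]
    rw [h2] at h1
    have h3 : (c : ℝ) ^ 2 ≤ 2 := by linarith
    exact_mod_cast h3
  have hc1 : c = 1 ∨ c = -1 := by
    have h1 : c < 2 := by nlinarith
    have h2 : -2 < c := by nlinarith
    omega
  have hcsq : (c : ℂ) ^ 2 = 1 := by
    rcases hc1 with rfl | rfl <;> norm_num
  rw [hcsq] at hnorm
  have hnorm' : classInner (θ - (c : ℂ) • ψ) (θ - (c : ℂ) • ψ) = 1 := by
    rw [hnorm]
    norm_num
  have hg : IsGeneralizedCharacter G (θ - (c : ℂ) • ψ) :=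
    genChar_sub hθ (genChar_zsmul c (genChar_of_char (IsIrrCharacter.isCharacter hψ)))
  refine ⟨(c : ℂ) • ψ, θ - (c : ℂ) • ψ, ?_, genChar_norm_one hg hnorm', ?_, by abel⟩
  · rcases hc1 with rfl | rfl
    · left
      simpa using hψ
    · right
      simpa using hψ
  · rw [classInner_smul_left, classInner_sub_right, classInner_smul_right, hψθ, hψψ,
      map_intCast (starRingEnd ℂ) c]
    ring

end Cfsg.Agent.Lib.Lead.Coh
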