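import Mathlib
import Cfsg.Agent.Lib.Lead.GlaubG
import Cfsg.Agent.Lib.Helper2.Clifford
import Cfsg.Agent.Lib.Helper2.Induction

/-!
# Glauberman correspondence: compatibility with normal subgroups
-/

set_option autoImplicit false

namespace Cfsg.Agent.Lib.Lead.Glaub

open Cfsg Cfsg.Agent.Lib.Helper2 Cfsg.Agent.Lib.Helper6 Cfsg.Agent.Lib.Helper24
open scoped ComplexConjugate Classical

attribute [local instance] irrFintype

/-- Clifford: two constituents of the restriction to a normal subgroup are conjugate. -/
theorem clifford_conj {G : Type*} [Group G] [Fintype G] (N : Subgroup G) [N.Normal] [Fintype N]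
    {θ : G → ℂ} (hθ : IsIrrCharacter G θ) {χ φ : N → ℂ} (hχ : IsIrrCharacter N χ)
    (hφ : IsIrrCharacter N φ) (h1 : classInner (fun n : N => θ n) χ ≠ 0)
    (h2 : classInner (fun n : N => θ n) φ ≠ 0) : ∃ x : G, φ = conjFun N x χ := by
  by_contra hcon
  push Not at hcon
  have hθcl := IsCharacter.isClassFunction (IsIrrCharacter.isCharacter hθ)
  have h0 : classInner (indFun N χ) (indFun N φ) = 0 := by
    rw [classInner_indFun_indFun]
    apply mul_eq_zero_of_right
    apply Finset.sum_eq_zero
    intro x _
    rw [classInner_irr hχ (IsIrrCharacter.conjFun N hφ x), if_neg]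
    intro hx
    apply hcon x⁻¹
    rw [hx, ← conjFun_mul, inv_mul_cancel, conjFun_one]
  rcases IsCharacter.constituent_eq_zero_of_orthogonal
    (IsCharacter.indFun N (IsIrrCharacter.isCharacter hχ))
    (IsCharacter.indFun N (IsIrrCharacter.isCharacter hφ)) h0 hθ with h3 | h3
  · rw [frobenius_reciprocity N χ θ hθcl, ← classInner_conj_symm] at h3
    exact h1 ((map_eq_zero _).mp h3)
  · rw [frobenius_reciprocity N _ θ hθcl, ← classInner_conj_symm] at h3
    exact h2 ((map_eq_zero _).mp h3)

section res

variable {G C Q : Type*} [Group G] [Group C] [Group Q]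

/-- restriction of an action to an invariant subgroup -/
def resAct (φ : Q →* MulAut G) (N : Subgroup G) (hN : ∀ s, ∀ n ∈ N, φ s n ∈ N) :
    Q →* MulAut N where
  toFun s :=
    { toFun := fun n => ⟨φ s n, hN s n n.2⟩
      invFun := fun n => ⟨φ s⁻¹ n, hN s⁻¹ n n.2⟩
      left_inv := by
        intro g
        apply Subtype.ext
        simp
      right_inv := by
        intro g
        apply Subtype.ext
        simp
      map_mul' := by
        intro g g'
        apply Subtype.ext
        simp }
  map_one' := by
    ext g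
    simp
  map_mul' := by
    intro s t
    ext g
    simp

theorem resAct_apply (φ : Q →* MulAut G) (N : Subgroup G) (hN : ∀ s, ∀ n ∈ N, φ s n ∈ N) (s : Q)
    (n : N) : ((resAct φ N hN s n : N) : G) = φ s n := rfl

/-- the embedding of the fixed points of `N` -/
def iotaN (ι : C →* G) (N : Subgroup G) : N.comap ι →* N :=
  (ι.comp (N.comap ι).subtype).codRestrict N (fun d => d.2)

theorem iotaN_apply (ι : C →* G) (N : Subgroup G) (d : N.comap ι) :
    ((iotaN ι N d : N) : G) = ι d := rfl

theorem setup_res [Finite G] {p : ℕ} {φ : Q →* MulAut G} {ι : C →* G} (h : Setup p φ ι)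
    (N : Subgroup G) (hN : ∀ s, ∀ n ∈ N, φ s n ∈ N) : Setup p (resAct φ N hN) (iotaN ι N) where
  inj := by
    intro d d' hd
    apply Subtype.ext
    apply h.inj
    exact congrArg (fun n : N => (n : G)) hd
  fix := by
    intro n
    constructor
    · intro hn
      obtain ⟨c, hc⟩ := (h.fix n).mp (fun s => congrArg (fun n : N => (n : G)) (hn s))
      refine ⟨⟨c, ?_⟩, Subtype.ext hc⟩
      rw [Subgroup.mem_comap, hc]
      exact n.2
    · rintro ⟨d, rfl⟩ s
      apply Subtype.ext
      exact h.fixed s d
  pgrp := h.pgrp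
  cop := fun hd => h.cop (hd.trans (Subgroup.card_subgroup_dvd_card N))

theorem classInner_comp_equiv {H : Type*} [Group H] [Fintype H] (F F' : H → ℂ) (b : MulAut H) :
    classInner (F ∘ b) (F' ∘ b) = classInner F F' := by
  rw [classInner, classInner]
  congr 1
  exact Fintype.sum_equiv b.toEquiv _ _ fun c => rfl

end res

end Cfsg.Agent.Lib.Lead.Glaub
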