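import Mathlib
import Cfsg.Agent.Lib.Lead.GlaubH

/-!
# Glauberman correspondence: compatibility with normal subgroups, II
-/

set_option autoImplicit false

namespace Cfsg.Agent.Lib.Lead.Glaub

open Cfsg Cfsg.Agent.Lib.Helper2 Cfsg.Agent.Lib.Helper6 Cfsg.Agent.Lib.Helper24
open scoped ComplexConjugate Classical

attribute [local instance] irrFintype

variable {G C Q : Type*} [Group G] [Group C] [Group Q] [Fintype G] [Fintype C] {p : ℕ}
  {φ : Q →* MulAut G} {ι : C →* G}

theorem comp_eq_sum {H K : Type*} [Group H] [Fintype H] [Group K] (f : K →* H) {F : H → ℂ}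
    (hF : IsClassFunction H F) (n : IrrCharacter H → ℕ)
    (hn : ∀ ψ : IrrCharacter H, classInner F (ψ : H → ℂ) = n ψ) :
    F ∘ f = ∑ ψ : IrrCharacter H, (n ψ : ℂ) • ((ψ : H → ℂ) ∘ f) := by
  have e1 : F = ∑ ψ : IrrCharacter H, (n ψ : ℂ) • (ψ : H → ℂ) := by
    conv_lhs => rw [classFunction_eq_sum hF]
    simp_rw [hn]
  conv_lhs => rw [e1]
  funext d
  simp [Finset.sum_apply]

theorem forward (hp : p.Prime) (h : Setup p φ ι) (N : Subgroup G)
    (hN : ∀ s, ∀ n ∈ N, φ s n ∈ N) {χ : IrrCharacter G} (hχ : Inv φ (χ : G → ℂ))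
    {β : IrrCharacter C} (hχβ : Rel p ι (χ : G → ℂ) (β : C → ℂ)) :
    ∃ θ₁ : IrrCharacter N, Inv (resAct φ N hN) (θ₁ : N → ℂ) ∧
      classInner ((χ : G → ℂ) ∘ N.subtype) (θ₁ : N → ℂ) ≠ 0 ∧
      ∀ η₁ : IrrCharacter (N.comap ι), Rel p (iotaN ι N) (θ₁ : N → ℂ) (η₁ : N.comap ι → ℂ) →
        classInner ((β : C → ℂ) ∘ (N.comap ι).subtype) (η₁ : N.comap ι → ℂ) ≠ 0 := by
  obtain ⟨M, hM⟩ := exists_isPModular hp
  have := IsPModular.isPrime hM
  have hsN := setup_res h N hN
  obtain ⟨-, -, n3, -⟩ := main hp hsN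
  obtain ⟨g1, -, -, -⟩ := main hp h
  have hcl : IsClassFunction N ((χ : G → ℂ) ∘ N.subtype) :=
    isClassFunction_comp (irr_isClassFunction χ.2) _
  obtain ⟨n, hn, hdeg⟩ := exists_mult χ N.subtype
  have hninv : ∀ s θ', n (permIrr (resAct φ N hN) s θ') = n θ' := by
    intro s θ'
    have e : ((χ : G → ℂ) ∘ N.subtype) = ((χ : G → ℂ) ∘ N.subtype) ∘ (resAct φ N hN s⁻¹) :=
      funext fun x => (hχ s⁻¹ x).symm
    have h1 : classInner ((χ : G → ℂ) ∘ N.subtype) (permIrr (resAct φ N hN) s θ' : N → ℂ) =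
        classInner ((χ : G → ℂ) ∘ N.subtype) (θ' : N → ℂ) := by
      calc classInner ((χ : G → ℂ) ∘ N.subtype) (permIrr (resAct φ N hN) s θ' : N → ℂ)
          = classInner (((χ : G → ℂ) ∘ N.subtype) ∘ (resAct φ N hN s⁻¹))
            ((θ' : N → ℂ) ∘ (resAct φ N hN s⁻¹)) := by rw [← e]; rfl
        _ = _ := classInner_comp_equiv _ _ _
    rw [hn, hn] at h1
    exact_mod_cast h1
  have hdinv : ∀ s (θ' : IrrCharacter N),
      charDegree (permIrr (resAct φ N hN) s θ' : N → ℂ) = charDegree (θ' : N → ℂ) := by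
    intro s θ'
    simp only [charDegree, permIrr_apply, map_one]
  -- (a)
  have hex : ∃ θ₁ : IrrCharacter N, Inv (resAct φ N hN) (θ₁ : N → ℂ) ∧ ¬ p ∣ n θ₁ := by
    by_contra hcon
    push Not at hcon
    have h1 := sum_irr_congr hM hsN (fun θ' => ((n θ' * charDegree (θ' : N → ℂ) : ℕ) : ℂ))
      (fun s θ' => by rw [hninv, hdinv]) (fun _ => memLocalRing_natCast _)
    have h2 : MemLocalIdeal M (∑ θ' : IrrCharacter N, (if Inv (resAct φ N hN) (θ' : N → ℂ) then
        ((n θ' * charDegree (θ' : N → ℂ) : ℕ) : ℂ) else 0)) := by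
      refine MemLocalIdeal.sum _ fun θ' _ => ?_
      split_ifs with hi
      · exact (memLocalIdeal_natCast_iff hM _).mpr (Dvd.dvd.mul_right (hcon θ' hi) _)
      · exact memLocalIdeal_zero
    have h3 := (memLocalIdeal_congr h1).mpr h2
    rw [← Nat.cast_sum, ← hdeg, memLocalIdeal_natCast_iff hM] at h3
    exact not_dvd_degree h.cop χ h3
  obtain ⟨θ₁, hθ₁, hpn⟩ := hex
  refine ⟨θ₁, hθ₁, ?_, ?_⟩
  · rw [hn]
    intro h0
    apply hpn
    have : n θ₁ = 0 := by exact_mod_cast h0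
    rw [this]
    exact dvd_zero _
  intro η₁ hη₁
  choose k hk using fun θ' : IrrCharacter N => IsCharacter.classInner_nat
    (IsCharacter.comp_hom (iotaN ι N) (IsIrrCharacter.isCharacter θ'.2))
    (IsIrrCharacter.isCharacter η₁.2)
  obtain ⟨m, hm, -⟩ := exists_mult χ ι
  choose l hl using fun β' : IrrCharacter C => IsCharacter.classInner_nat
    (IsCharacter.comp_hom (N.comap ι).subtype (IsIrrCharacter.isCharacter β'.2))
    (IsIrrCharacter.isCharacter η₁.2)
  have X1 : classInner (((χ : G → ℂ) ∘ N.subtype) ∘ iotaN ι N) (η₁ : N.comap ι → ℂ) =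
      ∑ θ' : IrrCharacter N, (n θ' : ℂ) * k θ' := by
    rw [comp_eq_sum (iotaN ι N) hcl n hn, classInner_sum_left]
    refine Finset.sum_congr rfl fun θ' _ => ?_
    rw [classInner_smul_left]
    congr 1
    exact hk θ'
  have X2 : classInner (((χ : G → ℂ) ∘ ι) ∘ (N.comap ι).subtype) (η₁ : N.comap ι → ℂ) =
      ∑ β' : IrrCharacter C, (m β' : ℂ) * l β' := by
    rw [comp_eq_sum (N.comap ι).subtype (isClassFunction_comp (irr_isClassFunction χ.2) ι) m hm,
      classInner_sum_left]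
    refine Finset.sum_congr rfl fun β' _ => ?_
    rw [classInner_smul_left]
    congr 1
    exact hl β'
  have X3 : ∑ θ' : IrrCharacter N, (n θ' : ℂ) * k θ' = ∑ β' : IrrCharacter C, (m β' : ℂ) * l β' := by
    rw [← X1, ← X2]
    rfl
  have hkinv : ∀ s θ', k (permIrr (resAct φ N hN) s θ') = k θ' := by
    intro s θ'
    have e : (permIrr (resAct φ N hN) s θ' : N → ℂ) ∘ iotaN ι N = (θ' : N → ℂ) ∘ iotaN ι N := by
      funext d
      simp only [Function.comp_apply, permIrr_apply, hsN.fixed]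
    have h1 := hk (permIrr (resAct φ N hN) s θ')
    have h2 := hk θ'
    have h3 : ((k (permIrr (resAct φ N hN) s θ') : ℕ) : ℂ) = k θ' := by
      rw [← h1, ← h2]
      exact congrArg (fun F => classInner F (η₁ : N.comap ι → ℂ)) e
    exact_mod_cast h3
  have hk1 : ¬ p ∣ k θ₁ := by
    obtain ⟨m0, hm0, hpm0⟩ := hη₁
    have h2 := hk θ₁
    have h3 : ((k θ₁ : ℕ) : ℂ) = m0 := by
      rw [← h2, ← hm0]
      rfl
    have h4 : k θ₁ = m0 := by exact_mod_cast h3
    rwa [h4]
  -- the left side is a unit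
  have L1 : ¬ MemLocalIdeal M (∑ θ' : IrrCharacter N, (n θ' : ℂ) * k θ') := by
    have h1 := sum_irr_congr hM hsN (fun θ' => (n θ' : ℂ) * k θ')
      (fun s θ' => by rw [hninv, hkinv])
      (fun _ => MemLocalRing.mul (memLocalRing_natCast _) (memLocalRing_natCast _))
    rw [memLocalIdeal_congr h1]
    have h2 : MemLocalIdeal M (∑ θ' : IrrCharacter N, (if Inv (resAct φ N hN) (θ' : N → ℂ) then
        (n θ' : ℂ) * k θ' else 0) - (n θ₁ : ℂ) * k θ₁) := by
      have h4 : (n θ₁ : ℂ) * k θ₁ =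
          ∑ θ' : IrrCharacter N, (if θ' = θ₁ then (n θ₁ : ℂ) * k θ₁ else 0) := by
        rw [Finset.sum_ite_eq' Finset.univ θ₁, if_pos (Finset.mem_univ _)]
      rw [h4, ← Finset.sum_sub_distrib]
      refine MemLocalIdeal.sum _ fun θ' _ => ?_
      by_cases he : θ' = θ₁
      · subst he
        rw [if_pos hθ₁, if_pos rfl, sub_self]
        exact memLocalIdeal_zero
      · rw [if_neg he, sub_zero]
        split_ifs with hi
        · refine MemLocalIdeal.mul_left (memLocalRing_natCast _) ?_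
          rw [memLocalIdeal_natCast_iff hM]
          by_contra hnd
          obtain ⟨m0, hm0, hpm0⟩ := hη₁
          exact he (n3 θ' θ₁ hi hθ₁ η₁ (k θ') m0 (hk θ') hnd hm0 hpm0)
        · exact memLocalIdeal_zero
    rw [memLocalIdeal_congr h2, ← Nat.cast_mul, memLocalIdeal_natCast_iff hM]
    intro hd
    rcases (Nat.Prime.dvd_mul hp).mp hd with h5 | h5
    · exact hpn h5
    · exact hk1 h5
  intro h0
  apply L1
  rw [X3]
  refine MemLocalIdeal.sum _ fun β' _ => ?_
  by_cases he : β' = β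
  · subst he
    have h1 := hl β'
    have h2 : ((l β' : ℕ) : ℂ) = 0 := by
      rw [← h1]
      exact h0
    rw [h2, mul_zero]
    exact memLocalIdeal_zero
  · refine MemLocalIdeal.mul_right ?_ (memLocalRing_natCast _)
    rw [memLocalIdeal_natCast_iff hM]
    by_contra hnd
    exact he ((g1 χ hχ).unique ⟨m β', hm β', hnd⟩ hχβ)

end Cfsg.Agent.Lib.Lead.Glaub
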