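import Mathlib
import Cfsg.Agent.Lib.Lead.GlaubI
import Cfsg.Agent.Lib.Helper24.Covering

/-!
# Glauberman correspondence: invariant characters over invariant characters
-/

set_option autoImplicit false

namespace Cfsg.Agent.Lib.Lead.Glaub

open Cfsg Cfsg.Agent.Lib.Helper2 Cfsg.Agent.Lib.Helper6 Cfsg.Agent.Lib.Helper24
open scoped ComplexConjugate Classical

attribute [local instance] irrFintype

section compat

variable {G C Q : Type*} [Group G] [Group C] [Group Q] [Fintype G] [Fintype C] {p : ℕ}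
  {φ : Q →* MulAut G} {ι : C →* G}

theorem compat (hp : p.Prime) (h : Setup p φ ι) (N : Subgroup G) [hNn : N.Normal]
    (hN : ∀ s, ∀ n ∈ N, φ s n ∈ N) {χ : IrrCharacter G} (hχ : Inv φ (χ : G → ℂ))
    {β : IrrCharacter C} (hχβ : Rel p ι (χ : G → ℂ) (β : C → ℂ))
    {θ : IrrCharacter N} (hθ : Inv (resAct φ N hN) (θ : N → ℂ)) {η : IrrCharacter (N.comap ι)}
    (hθη : Rel p (iotaN ι N) (θ : N → ℂ) (η : N.comap ι → ℂ))
    (hβη : classInner ((β : C → ℂ) ∘ (N.comap ι).subtype) (η : N.comap ι → ℂ) ≠ 0) :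
    classInner ((χ : G → ℂ) ∘ N.subtype) (θ : N → ℂ) ≠ 0 := by
  have hsN := setup_res h N hN
  obtain ⟨n1, -, n3, -⟩ := main hp hsN
  obtain ⟨θ₁, hθ₁, hc₁, hfw⟩ := forward hp h N hN hχ hχβ
  obtain ⟨η₁, hη₁, -⟩ := n1 θ₁ hθ₁
  have hβη₁ := hfw η₁ hη₁
  obtain ⟨c, hc⟩ := clifford_conj (N.comap ι) β.2 η₁.2 η.2 hβη₁ hβη
  rw [conjFun_eq_comp] at hc
  set a : MulAut N := MulAut.conjNormal (ι c)⁻¹ with ha
  set b : MulAut (N.comap ι) := MulAut.conjNormal c⁻¹ with hb
  have hab : ∀ d, a (iotaN ι N d) = iotaN ι N (b d) := by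
    intro d
    apply Subtype.ext
    simp [ha, hb, iotaN_apply]
  have hr : Rel p (iotaN ι N) ((θ₁ : N → ℂ) ∘ a) ((η₁ : N.comap ι → ℂ) ∘ b) :=
    rel_equivariant a b hab hη₁
  rw [← hc] at hr
  have hinv : Inv (resAct φ N hN) ((θ₁ : N → ℂ) ∘ a) := by
    intro s n
    simp only [Function.comp_apply]
    rw [← hθ₁ s (a n)]
    refine congrArg _ (Subtype.ext ?_)
    simp [ha, resAct_apply, h.fixed]
  obtain ⟨m, hm, hpm⟩ := hr
  obtain ⟨m', hm', hpm'⟩ := hθη
  have he := n3 ⟨_, IsIrrCharacter.comp_mulEquiv θ₁.2 a⟩ θ hinv hθ η m m' hm hpm hm' hpm'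
  rw [← he]
  have e : ((χ : G → ℂ) ∘ N.subtype) = ((χ : G → ℂ) ∘ N.subtype) ∘ a := by
    funext n
    simp only [Function.comp_apply, ha, Subgroup.coe_subtype, MulAut.conjNormal_apply]
    exact (irr_isClassFunction χ.2 _ _).symm
  have e2 : classInner ((χ : G → ℂ) ∘ N.subtype) ((θ₁ : N → ℂ) ∘ a) =
      classInner ((χ : G → ℂ) ∘ N.subtype) (θ₁ : N → ℂ) := by
    calc classInner ((χ : G → ℂ) ∘ N.subtype) ((θ₁ : N → ℂ) ∘ a)
        = classInner (((χ : G → ℂ) ∘ N.subtype) ∘ a) ((θ₁ : N → ℂ) ∘ a) := by rw [← e]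
      _ = _ := classInner_comp_equiv _ _ _
  change classInner ((χ : G → ℂ) ∘ N.subtype) ((θ₁ : N → ℂ) ∘ a) ≠ 0
  rw [e2]
  exact hc₁

end compat

universe u v

/-- an invariant character of an invariant normal subgroup lies under an invariant character -/
theorem exists_inv_over : ∀ (n : ℕ) (G : Type u) [Group G] [Fintype G] (P : Type v) [Group P]
    [Finite P] (φ : P →* MulAut G), Nat.card P = n → Group.IsSolvable P →
    (Nat.card G).Coprime (Nat.card P) → ∀ (N : Subgroup G) [N.Normal]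
    (hN : ∀ s, ∀ n ∈ N, φ s n ∈ N) (θ : IrrCharacter N), Inv (resAct φ N hN) (θ : N → ℂ) →
    ∃ χ : IrrCharacter G, classInner ((χ : G → ℂ) ∘ N.subtype) (θ : N → ℂ) ≠ 0 ∧
      Inv φ (χ : G → ℂ) := by
  intro n
  induction n using Nat.strong_induction_on with
  | _ n ih =>
    intro G _ _ P _ _ φ hn hsol hcop N _ hN θ hθ
    rcases subsingleton_or_nontrivial P with hsub | hnt
    · have hφ : ∀ s, φ s = 1 := fun s => by rw [Subsingleton.elim s 1, map_one]
      obtain ⟨χ, hχ⟩ := exists_irr_over N.subtype Subtype.val_injective θ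
      refine ⟨χ, hχ, ?_⟩
      intro s g
      rw [hφ]
      rfl
    · obtain ⟨p, T, hp, hTn, hTne, -, hTp⟩ :=
        Cfsg.Agent.Lib.Helper1.exists_normal_elementary_abelian (G := P)
      have hT : IsPGroup p T := Cfsg.Agent.Lib.Helper1.isPGroup_of_pow_eq_one hTp
      have : Fact p.Prime := ⟨hp⟩
      have hpT : p ∣ Nat.card T := by
        obtain ⟨k, hk⟩ := IsPGroup.iff_card.mp hT
        rw [hk]
        apply dvd_pow_self
        rintro rfl
        rw [pow_zero] at hk
        exact hTne ((Subgroup.card_eq_one (H := T)).mp hk)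
      have hpG : ¬ p ∣ Nat.card G := by
        intro hd
        have h1 : p ∣ Nat.card P := hpT.trans (Subgroup.card_subgroup_dvd_card T)
        exact hp.one_lt.ne' (Nat.dvd_one.mp (hcop ▸ Nat.dvd_gcd hd h1))
      have hcard : Nat.card P = Nat.card (P ⧸ T) * Nat.card T :=
        Subgroup.card_eq_card_quotient_mul_card_subgroup T
      have hs := setup_fixSub φ T hT hpG
      have hN' : ∀ s : T, ∀ n ∈ N, (φ.comp T.subtype) s n ∈ N := fun s n hn => hN s n hn
      have hsN := setup_res hs N hN'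
      have hθT : Inv (resAct (φ.comp T.subtype) N hN') (θ : N → ℂ) := fun s n => hθ s n
      obtain ⟨n1, -, -, -⟩ := main hp hsN
      obtain ⟨η, hη, huniq⟩ := n1 θ hθT
      have hD : ∀ s : P ⧸ T, ∀ d ∈ N.comap (fixSub φ T).subtype,
          actQ φ T s d ∈ N.comap (fixSub φ T).subtype := by
        intro s d hd
        obtain ⟨s, rfl⟩ := QuotientGroup.mk_surjective s
        exact hN s d hd
      have hηinv : Inv (resAct (actQ φ T) (N.comap (fixSub φ T).subtype) hD)
          (η : N.comap (fixSub φ T).subtype → ℂ) := by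
        intro s d
        obtain ⟨s, rfl⟩ := QuotientGroup.mk_surjective s
        have hr := rel_equivariant (resAct φ N hN s)
          (resAct (actQ φ T) (N.comap (fixSub φ T).subtype) hD (s : P ⧸ T)) (fun d => rfl) hη
        have e : (θ : N → ℂ) ∘ resAct φ N hN s = (θ : N → ℂ) := funext fun g => hθ s g
        rw [e] at hr
        have := huniq ⟨_, IsIrrCharacter.comp_mulEquiv η.2 _⟩ hr
        exact congrFun (congrArg Subtype.val this) d
      obtain ⟨β, hβη, hβ⟩ := ih (Nat.card (P ⧸ T)) (by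
          rw [← hn, hcard]
          have h1 : 1 < Nat.card T := lt_of_lt_of_le hp.one_lt (Nat.le_of_dvd Nat.card_pos hpT)
          exact lt_mul_of_one_lt_right Nat.card_pos h1) (fixSub φ T) (P ⧸ T) (actQ φ T) rfl
        (Group.isSolvable_of_surjective (QuotientGroup.mk'_surjective T))
        (Nat.Coprime.coprime_dvd_left (Subgroup.card_subgroup_dvd_card _)
          (Nat.Coprime.coprime_dvd_right ⟨Nat.card T, hcard⟩ hcop))
        (N.comap (fixSub φ T).subtype) hD η hηinv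
      obtain ⟨χ, hχ, hrel⟩ := (exists_corr φ T hp hT hpG).2 β ((inv_actQ_iff φ T _).mp hβ)
      exact ⟨χ, compat hp hs N hN' (hχ.comp_subtype T) hrel hθT hη hβη, hχ⟩

end Cfsg.Agent.Lib.Lead.Glaub
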