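import Mathlib
import Cfsg.Agent.Lib.Lead.Coh1

/-!
# Coherence: extending a linear isometry by one orthogonal vector
-/

set_option autoImplicit false

namespace Cfsg.Agent.Lib.Lead.Coh

open Cfsg Cfsg.Agent.Lib.Helper2 Cfsg.Agent.Lib.Lead Cfsg.Agent.Lib.Lead.CycTI
open Cfsg.Agent.Lib.Helper23.IndTools
open scoped ComplexConjugate Classical

section basic

variable {X : Type*}

theorem zspan_mono {S T : Set (X → ℂ)} (h : S ⊆ T) : zspan S ⊆ zspan T :=
  Submodule.span_mono h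

theorem zspanOn_mono {S T : Set (X → ℂ)} (h : S ⊆ T) (A : Set X) : zspanOn S A ⊆ zspanOn T A :=
  fun _ hα => ⟨zspan_mono h hα.1, hα.2⟩

theorem mem_zspan {S : Set (X → ℂ)} {ξ : X → ℂ} (h : ξ ∈ S) : ξ ∈ zspan S :=
  Submodule.subset_span h

theorem zspan_add {S : Set (X → ℂ)} {a b : X → ℂ} (ha : a ∈ zspan S) (hb : b ∈ zspan S) :
    a + b ∈ zspan S := Submodule.add_mem _ ha hb

theorem zspan_sub {S : Set (X → ℂ)} {a b : X → ℂ} (ha : a ∈ zspan S) (hb : b ∈ zspan S) :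
    a - b ∈ zspan S := Submodule.sub_mem _ ha hb

theorem zspan_smul {S : Set (X → ℂ)} {a : X → ℂ} (n : ℤ) (ha : a ∈ zspan S) :
    n • a ∈ zspan S := Submodule.smul_mem _ n ha

theorem zspan_zero {S : Set (X → ℂ)} : (0 : X → ℂ) ∈ zspan S := Submodule.zero_mem _

theorem zsmul_eq (n : ℤ) (f : X → ℂ) : n • f = (n : ℂ) • f := by
  funext x
  simp

theorem mem_zspan_insert {S : Set (X → ℂ)} {χ α : X → ℂ} (h : α ∈ zspan (insert χ S)) :
    ∃ k : ℤ, ∃ z ∈ zspan S, α = k • χ + z :=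
  Submodule.mem_span_insert.mp h

end basic

section inner

variable {L : Type*} [Group L] [Fintype L]

theorem inner_zspan_zero {S : Set (L → ℂ)} {χ : L → ℂ} (h : ∀ ξ ∈ S, classInner ξ χ = 0) :
    ∀ z ∈ zspan S, classInner z χ = 0 := by
  intro z hz
  unfold zspan at hz
  induction hz using Submodule.span_induction with
  | mem f hf => exact h f hf
  | zero => exact classInner_zero_left _
  | add a b _ _ ha hb => rw [classInner_add_left, ha, hb, add_zero]
  | smul n a _ ha => rw [zsmul_eq, classInner_smul_left, ha, mul_zero]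

theorem inner_symm_zero {a b : L → ℂ} (h : classInner a b = 0) : classInner b a = 0 := by
  rw [← classInner_conj_symm, h, map_zero]

variable {G : Type*} [Group G] [Fintype G]

theorem inner_tau_zspan_zero {S : Set (L → ℂ)} {τ₁ : (L → ℂ) → (G → ℂ)}
    (hτ₁ : IsLinearIsometryOn (zspan S) τ₁) {Δ : G → ℂ}
    (h : ∀ ξ ∈ S, classInner (τ₁ ξ) Δ = 0) : ∀ z ∈ zspan S, classInner (τ₁ z) Δ = 0 := by
  obtain ⟨hadd, hsmul, -, -⟩ := hτ₁
  intro z hz
  unfold zspan at hz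
  induction hz using Submodule.span_induction with
  | mem f hf => exact h f hf
  | zero =>
    have h0 := hsmul 0 zspan_zero 0
    rw [zero_smul, zero_smul] at h0
    rw [h0]
    exact classInner_zero_left _
  | add a b ha' hb' ha hb => rw [hadd a ha' b hb', classInner_add_left, ha, hb, add_zero]
  | smul n a ha' ha => rw [hsmul a ha' n, zsmul_eq, classInner_smul_left, ha, mul_zero]

theorem tau_zero {E : Set (L → ℂ)} {τ₁ : (L → ℂ) → (G → ℂ)} (hτ₁ : IsLinearIsometryOn E τ₁)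
    (h0 : (0 : L → ℂ) ∈ E) : τ₁ 0 = 0 := by
  have := hτ₁.2.1 0 h0 0
  rwa [zero_smul, zero_smul] at this

theorem tau_sub {S : Set (L → ℂ)} {τ₁ : (L → ℂ) → (G → ℂ)}
    (hτ₁ : IsLinearIsometryOn (zspan S) τ₁) {a b : L → ℂ} (ha : a ∈ zspan S) (hb : b ∈ zspan S) :
    τ₁ (a - b) = τ₁ a - τ₁ b := by
  have h1 : a - b = a + (-1 : ℤ) • b := by
    rw [neg_smul, one_smul, sub_eq_add_neg]
  rw [h1, hτ₁.1 a ha _ (zspan_smul _ hb), hτ₁.2.1 b hb, neg_smul, one_smul, sub_eq_add_neg]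

/-- the extension of `τ₁` by `χ ↦ Δ` -/
noncomputable def ext (τ₁ : (L → ℂ) → (G → ℂ)) (χ : L → ℂ) (Δ : G → ℂ) : (L → ℂ) → (G → ℂ) :=
  fun α => (classInner α χ / classInner χ χ) • Δ +
    τ₁ (α - (classInner α χ / classInner χ χ) • χ)

theorem ext_apply {S : Set (L → ℂ)} (τ₁ : (L → ℂ) → (G → ℂ)) {χ : L → ℂ} (Δ : G → ℂ)
    (hχ : classInner χ χ ≠ 0) (hS : ∀ ξ ∈ S, classInner ξ χ = 0) (k : ℤ) {z : L → ℂ}
    (hz : z ∈ zspan S) : ext τ₁ χ Δ (k • χ + z) = k • Δ + τ₁ z := by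
  have h1 : classInner (k • χ + z) χ / classInner χ χ = k := by
    rw [classInner_add_left, inner_zspan_zero hS z hz, add_zero, zsmul_eq, classInner_smul_left,
      mul_div_assoc, div_self hχ, mul_one]
  unfold ext
  rw [h1, zsmul_eq, zsmul_eq, add_sub_cancel_left]

theorem ext_isometry {S : Set (L → ℂ)} {τ₁ : (L → ℂ) → (G → ℂ)}
    (hτ₁ : IsLinearIsometryOn (zspan S) τ₁) {χ : L → ℂ} {Δ : G → ℂ}
    (hχ : classInner χ χ ≠ 0) (hS : ∀ ξ ∈ S, classInner ξ χ = 0)
    (hΔ : IsGeneralizedCharacter G Δ) (hΔΔ : classInner Δ Δ = classInner χ χ)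
    (hΔS : ∀ ξ ∈ S, classInner (τ₁ ξ) Δ = 0) :
    IsLinearIsometryOn (zspan (insert χ S)) (ext τ₁ χ Δ) := by
  have hτ₁' := hτ₁
  obtain ⟨hadd, hsmul, hiso, hvirt⟩ := hτ₁
  have hzΔ := inner_tau_zspan_zero hτ₁' hΔS
  have hzχ := inner_zspan_zero hS
  refine ⟨?_, ?_, ?_, ?_⟩
  · intro α hα β hβ
    obtain ⟨k, z, hz, rfl⟩ := mem_zspan_insert hα
    obtain ⟨k', z', hz', rfl⟩ := mem_zspan_insert hβ
    have e1 : k • χ + z + (k' • χ + z') = (k + k') • χ + (z + z') := by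
      rw [add_smul]
      abel
    rw [e1, ext_apply τ₁ Δ hχ hS _ (zspan_add hz hz'), ext_apply τ₁ Δ hχ hS _ hz,
      ext_apply τ₁ Δ hχ hS _ hz', hadd z hz z' hz', add_smul]
    abel
  · intro α hα n
    obtain ⟨k, z, hz, rfl⟩ := mem_zspan_insert hα
    have e1 : n • (k • χ + z) = (n * k) • χ + n • z := by
      rw [smul_add, mul_smul]
    rw [e1, ext_apply τ₁ Δ hχ hS _ (zspan_smul n hz), ext_apply τ₁ Δ hχ hS _ hz, hsmul z hz,
      smul_add, mul_smul]
  · intro α hα β hβ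
    obtain ⟨k, z, hz, rfl⟩ := mem_zspan_insert hα
    obtain ⟨k', z', hz', rfl⟩ := mem_zspan_insert hβ
    rw [ext_apply τ₁ Δ hχ hS _ hz, ext_apply τ₁ Δ hχ hS _ hz']
    simp only [zsmul_eq]
    rw [classInner_add_left, classInner_add_right, classInner_add_right, classInner_add_left,
      classInner_add_right, classInner_add_right, classInner_smul_left, classInner_smul_left,
      classInner_smul_left, classInner_smul_left, classInner_smul_right, classInner_smul_right,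
      classInner_smul_right, classInner_smul_right, hΔΔ, hzΔ z hz,
      inner_symm_zero (hzΔ z' hz'), hzχ z hz, inner_symm_zero (hzχ z' hz'), hiso z hz z' hz']
  · intro α hα
    obtain ⟨k, z, hz, rfl⟩ := mem_zspan_insert hα
    rw [ext_apply τ₁ Δ hχ hS _ hz, zsmul_eq]
    exact genChar_add (genChar_zsmul k hΔ) (hvirt z hz)

end inner

end Cfsg.Agent.Lib.Lead.Coh
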