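import Mathlib
import Cfsg.Agent.Lib.Lead.Coh2

/-!
# Feit's coherence criterion (irreducible case)
-/

set_option autoImplicit false

namespace Cfsg.Agent.Lib.Lead.Coh

open Cfsg Cfsg.Agent.Lib.Helper2 Cfsg.Agent.Lib.Lead Cfsg.Agent.Lib.Lead.CycTI
open Cfsg.Agent.Lib.Helper23.IndTools
open scoped ComplexConjugate Classical

theorem inner_self_eq_zero {G : Type*} [Group G] [Fintype G] {f : G → ℂ}
    (h : classInner f f = 0) : f = 0 := by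
  simp only [classInner] at h
  have h1 : ∀ g : G, f g * conj (f g) = ((Complex.normSq (f g) : ℝ) : ℂ) := fun g =>
    Complex.mul_conj (f g)
  simp_rw [h1] at h
  rw [← Complex.ofReal_sum] at h
  have h2 : (Nat.card G : ℂ)⁻¹ ≠ 0 := by
    apply inv_ne_zero
    exact_mod_cast Nat.card_pos.ne'
  have h3 := (mul_eq_zero.mp h).resolve_left h2
  have h4 : ∑ g : G, Complex.normSq (f g) = 0 := by exact_mod_cast h3
  funext g
  have h5 := (Finset.sum_eq_zero_iff_of_nonneg (fun g _ => Complex.normSq_nonneg (f g))).mp h4 g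
    (Finset.mem_univ g)
  exact Complex.normSq_eq_zero.mp h5

/-- the arithmetic heart of Feit's criterion -/
theorem feit_arith {a dψ D m n : ℤ} (ha : 0 ≤ a) (hdψ : 0 < dψ) (hD : 2 * a * dψ ^ 2 < D)
    (hn : 0 ≤ n) (h : dψ ^ 2 * n = dψ ^ 2 - m ^ 2 * D + 2 * a * m * dψ ^ 2)
    (h0 : n = 0 → m * D = a * dψ ^ 2) : m = 0 := by
  by_contra hm
  have hpos : 0 < m * (m * D - 2 * a * dψ ^ 2) := by
    rcases lt_or_gt_of_ne hm with h1 | h1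
    · apply mul_pos_of_neg_of_neg h1
      have : 0 ≤ a * dψ ^ 2 := by positivity
      nlinarith
    · apply mul_pos h1
      have : 0 ≤ a * dψ ^ 2 := by positivity
      nlinarith
  have h2 : dψ ^ 2 * n < dψ ^ 2 * 1 := by nlinarith
  have h3 : n < 1 := lt_of_mul_lt_mul_left h2 (by positivity)
  have h4 : n = 0 := by omega
  have h5 := h0 h4
  rw [h4] at h
  have h6 : dψ ^ 2 * (1 + a * m) = 0 := by
    have : m ^ 2 * D = m * (a * dψ ^ 2) := by rw [← h5]; ring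
    nlinarith
  have h7 : 1 + a * m = 0 := by
    rcases mul_eq_zero.mp h6 with h8 | h8
    · exact absurd h8 (by positivity)
    · exact h8
  have h8 : m < 0 := by
    by_contra hcon
    push Not at hcon
    nlinarith
  have h9 : 0 ≤ a * dψ ^ 2 := by positivity
  have h10 : 0 < D := by nlinarith
  nlinarith

variable {N : Type*} [Group N] [Fintype N] {G : Type*} [Group G] [Fintype G]

theorem feit_criterion (S₀ : Finset (N → ℂ)) (χ : N → ℂ)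
    (hirr : ∀ ξ ∈ S₀, IsIrrCharacter N ξ) (hχ : IsIrrCharacter N χ) (hχS : χ ∉ S₀)
    (d : (N → ℂ) → ℕ) (hdχ : χ 1 = (d χ : ℂ)) (hdξ : ∀ ξ ∈ S₀, ξ 1 = (d ξ : ℂ))
    (τ : (N → ℂ) → (G → ℂ))
    (hτ : IsLinearIsometryOn (zspanOn (insert χ (↑S₀ : Set (N → ℂ))) {1}ᶜ) τ)
    (hτ1 : ∀ α ∈ zspanOn (insert χ (↑S₀ : Set (N → ℂ))) {1}ᶜ, τ α 1 = 0)
    (hcoh : IsCoherent (↑S₀ : Set (N → ℂ)) {1}ᶜ τ) (ψ : N → ℂ) (hψ : ψ ∈ S₀)
    (hdvd : d ψ ∣ d χ) (hlt : 2 * d ψ * d χ < ∑ ξ ∈ S₀, d ξ ^ 2) :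
    IsCoherent (insert χ (↑S₀ : Set (N → ℂ))) {1}ᶜ τ := by
  obtain ⟨⟨α₀, hα₀, hα₀ne⟩, τ₁, hτ₁, hagree⟩ := hcoh
  have hτ₁' := hτ₁
  obtain ⟨hadd₁, hsmul₁, hiso₁, hvirt₁⟩ := hτ₁
  obtain ⟨hadd, hsmul, hiso, hvirt⟩ := hτ
  have hsub : (↑S₀ : Set (N → ℂ)) ⊆ insert χ (↑S₀ : Set (N → ℂ)) := Set.subset_insert _ _
  obtain ⟨a, ha⟩ := hdvd
  have hmem₀ : ∀ ξ ∈ S₀, ξ ∈ zspan (↑S₀ : Set (N → ℂ)) := fun ξ h => mem_zspan (Finset.mem_coe.mpr h)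
  have hdψpos : 0 < d ψ := by
    obtain ⟨n, hn, hn'⟩ := irr_deg (hirr ψ hψ)
    rw [hdξ ψ hψ] at hn'
    have : d ψ = n := by exact_mod_cast hn'
    omega
  have hχχ : classInner χ χ = 1 := by rw [classInner_irr hχ hχ, if_pos rfl]
  have hξχ : ∀ ξ ∈ S₀, classInner ξ χ = 0 := by
    intro ξ hξ
    rw [classInner_irr (hirr ξ hξ) hχ, if_neg]
    rintro rfl
    exact hχS hξ
  have hχξ : ∀ ξ ∈ S₀, classInner χ ξ = 0 := fun ξ hξ => inner_symm_zero (hξχ ξ hξ)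
  have hξξ : ∀ ξ ∈ S₀, ∀ ξ' ∈ S₀, classInner ξ ξ' = if ξ = ξ' then 1 else 0 :=
    fun ξ hξ ξ' hξ' => classInner_irr (hirr ξ hξ) (hirr ξ' hξ')
  have hvan : ∀ (f : N → ℂ), f 1 = 0 → ∀ x, x ∉ ({1}ᶜ : Set N) → f x = 0 := by
    intro f hf x hx
    have hx1 : x = 1 := by
      by_contra h
      exact hx h
    rw [hx1, hf]
  -- β
  have hβ1 : (χ - (a : ℤ) • ψ) 1 = 0 := by
    rw [Pi.sub_apply, Pi.smul_apply, hdχ, hdξ ψ hψ, ha, zsmul_eq_mul]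
    push_cast
    ring
  have hβ : χ - (a : ℤ) • ψ ∈ zspanOn (insert χ (↑S₀ : Set (N → ℂ))) {1}ᶜ :=
    ⟨zspan_sub (mem_zspan (Set.mem_insert _ _)) (zspan_smul _ (zspan_mono hsub (hmem₀ ψ hψ))),
      hvan _ hβ1⟩
  set T := τ (χ - (a : ℤ) • ψ) with hT
  have hTg : IsGeneralizedCharacter G T := hvirt _ hβ
  have hTT : classInner T T = 1 + (a : ℂ) ^ 2 := by
    rw [hT, hiso _ hβ _ hβ, zsmul_eq, classInner_sub_left, classInner_sub_right,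
      classInner_sub_right, classInner_smul_left, classInner_smul_right, classInner_smul_right,
      classInner_smul_left, hχχ, hχξ ψ hψ, hξχ ψ hψ, hξξ ψ hψ ψ hψ, if_pos rfl]
    simp
    ring
  have he : ∀ ξ ∈ S₀, ∀ ξ' ∈ S₀, classInner (τ₁ ξ) (τ₁ ξ') = if ξ = ξ' then 1 else 0 :=
    fun ξ hξ ξ' hξ' => by rw [hiso₁ _ (hmem₀ ξ hξ) _ (hmem₀ ξ' hξ'), hξξ ξ hξ ξ' hξ']
  have hcex : ∀ ξ ∈ S₀, ∃ c : ℤ, classInner T (τ₁ ξ) = c := fun ξ hξ =>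
    genChar_inner_int hTg (hvirt₁ _ (hmem₀ ξ hξ))
  choose! c hc using hcex
  have hc' : ∀ ξ ∈ S₀, classInner (τ₁ ξ) T = c ξ := fun ξ hξ => by
    rw [← classInner_conj_symm, hc ξ hξ, map_intCast]
  -- γ
  have hγ : ∀ ξ ∈ S₀, (d ψ : ℤ) • ξ - (d ξ : ℤ) • ψ ∈ zspanOn (↑S₀ : Set (N → ℂ)) {1}ᶜ := by
    intro ξ hξ
    refine ⟨zspan_sub (zspan_smul _ (hmem₀ ξ hξ)) (zspan_smul _ (hmem₀ ψ hψ)), hvan _ ?_⟩
    rw [Pi.sub_apply, Pi.smul_apply, Pi.smul_apply, hdξ ξ hξ, hdξ ψ hψ, zsmul_eq_mul, zsmul_eq_mul]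
    push_cast
    ring
  have hτγ : ∀ ξ ∈ S₀, τ ((d ψ : ℤ) • ξ - (d ξ : ℤ) • ψ) =
      (d ψ : ℤ) • τ₁ ξ - (d ξ : ℤ) • τ₁ ψ := by
    intro ξ hξ
    rw [← hagree _ (hγ ξ hξ), tau_sub hτ₁' (zspan_smul _ (hmem₀ ξ hξ)) (zspan_smul _ (hmem₀ ψ hψ)),
      hsmul₁ _ (hmem₀ ξ hξ), hsmul₁ _ (hmem₀ ψ hψ)]
  have hrel : ∀ ξ ∈ S₀, (d ψ : ℤ) * c ξ = d ξ * (c ψ + a) - a * d ψ * (if ξ = ψ then 1 else 0) := by
    intro ξ hξ
    have h1 := hiso _ hβ _ (zspanOn_mono hsub _ (hγ ξ hξ))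
    rw [← hT, hτγ ξ hξ] at h1
    simp only [zsmul_eq] at h1
    rw [classInner_sub_right, classInner_smul_right, classInner_smul_right, hc ξ hξ, hc ψ hψ,
      classInner_sub_left, classInner_sub_right, classInner_sub_right, classInner_smul_right,
      classInner_smul_right, classInner_smul_left, classInner_smul_left, classInner_smul_right,
      classInner_smul_right, hχξ ξ hξ, hχξ ψ hψ, hξξ ψ hψ ξ hξ, hξξ ψ hψ ψ hψ, if_pos rfl] at h1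
    simp only [map_intCast] at h1
    have h2 : ((d ψ : ℤ) : ℂ) * c ξ = ((d ξ : ℤ) : ℂ) * (c ψ + (a : ℤ)) -
        ((a : ℤ) : ℂ) * ((d ψ : ℤ) : ℂ) * (if ξ = ψ then 1 else 0) := by
      by_cases e : ξ = ψ
      · rw [if_pos e]
        rw [if_pos e.symm] at h1
        linear_combination h1
      · rw [if_neg e]
        rw [if_neg (fun e' => e e'.symm)] at h1
        linear_combination h1
    by_cases e : ξ = ψ
    · rw [if_pos e] at h2 ⊢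
      exact_mod_cast h2
    · rw [if_neg e] at h2 ⊢
      exact_mod_cast h2
  set m : ℤ := c ψ + a with hm
  -- Δ
  set P : G → ℂ := ∑ ξ ∈ S₀, (c ξ : ℂ) • τ₁ ξ with hP
  have hPe : ∀ ξ ∈ S₀, classInner (τ₁ ξ) P = c ξ := by
    intro ξ hξ
    rw [hP, classInner_sum_right, Finset.sum_eq_single ξ]
    · rw [classInner_smul_right, he ξ hξ ξ hξ, if_pos rfl, map_intCast, mul_one]
    · intro ξ' hξ' hne
      rw [classInner_smul_right, he ξ hξ ξ' hξ', if_neg hne.symm, mul_zero]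
    · intro h
      exact absurd hξ h
  have hΔe : ∀ ξ ∈ S₀, classInner (τ₁ ξ) (T - P) = 0 := by
    intro ξ hξ
    rw [classInner_sub_right, hc' ξ hξ, hPe ξ hξ, sub_self]
  have hPg : IsGeneralizedCharacter G P :=
    genChar_sum _ fun ξ hξ => genChar_zsmul _ (hvirt₁ _ (hmem₀ ξ hξ))
  have hΔg : IsGeneralizedCharacter G (T - P) := genChar_sub hTg hPg
  have hPΔ : classInner P (T - P) = 0 := by
    rw [hP, classInner_sum_left]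
    apply Finset.sum_eq_zero
    intro ξ hξ
    rw [classInner_smul_left, ← hP, hΔe ξ hξ, mul_zero]
  have hTP : classInner T P = ∑ ξ ∈ S₀, (c ξ : ℂ) ^ 2 := by
    rw [hP, classInner_sum_right]
    refine Finset.sum_congr rfl fun ξ hξ => ?_
    rw [classInner_smul_right, hc ξ hξ, map_intCast]
    ring
  have hΔΔ : classInner (T - P) (T - P) = 1 + (a : ℂ) ^ 2 - ∑ ξ ∈ S₀, (c ξ : ℂ) ^ 2 := by
    rw [classInner_sub_left, hPΔ, sub_zero, classInner_sub_right, hTT, hTP]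
  obtain ⟨n, hn⟩ := genChar_inner_int hΔg hΔg
  have hn0 : 0 ≤ n := by
    have h1 := inner_self_re_nonneg (T - P)
    rw [hn, Complex.intCast_re] at h1
    exact_mod_cast h1
  have hnZ : n = 1 + (a : ℤ) ^ 2 - ∑ ξ ∈ S₀, c ξ ^ 2 := by
    rw [hn] at hΔΔ
    exact_mod_cast hΔΔ
  set D : ℤ := ∑ ξ ∈ S₀, (d ξ : ℤ) ^ 2 with hD
  have hsumsq : (d ψ : ℤ) ^ 2 * ∑ ξ ∈ S₀, c ξ ^ 2 =
      m ^ 2 * D - 2 * a * m * (d ψ : ℤ) ^ 2 + (a : ℤ) ^ 2 * (d ψ : ℤ) ^ 2 := by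
    rw [Finset.mul_sum]
    have h1 : ∀ ξ ∈ S₀, (d ψ : ℤ) ^ 2 * c ξ ^ 2 = m ^ 2 * (d ξ : ℤ) ^ 2 +
        (if ξ = ψ then (-2 * a * m * (d ψ : ℤ) ^ 2 + (a : ℤ) ^ 2 * (d ψ : ℤ) ^ 2) else 0) := by
      intro ξ hξ
      have h2 := hrel ξ hξ
      have h3 : (d ψ : ℤ) ^ 2 * c ξ ^ 2 = ((d ψ : ℤ) * c ξ) ^ 2 := by ring
      rw [h3, h2]
      by_cases e : ξ = ψ
      · rw [if_pos e, if_pos e, e]
        ring
      · rw [if_neg e, if_neg e]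
        ring
    rw [Finset.sum_congr rfl h1, Finset.sum_add_distrib, ← Finset.mul_sum, Finset.sum_ite_eq',
      if_pos hψ]
    ring
  have hstar : (d ψ : ℤ) ^ 2 * n = (d ψ : ℤ) ^ 2 - m ^ 2 * D + 2 * a * m * (d ψ : ℤ) ^ 2 := by
    rw [hnZ, mul_sub, hsumsq]
    ring
  have hDlt : 2 * (a : ℤ) * (d ψ : ℤ) ^ 2 < D := by
    have h1 : ((2 * d ψ * d χ : ℕ) : ℤ) < ((∑ ξ ∈ S₀, d ξ ^ 2 : ℕ) : ℤ) := by exact_mod_cast hlt
    rw [ha] at h1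
    push_cast at h1
    rw [hD]
    linarith
  have hT1 : T 1 = 0 := hτ1 _ hβ
  have he1 : ∀ ξ ∈ S₀, ((d ψ : ℤ) : ℂ) * τ₁ ξ 1 = ((d ξ : ℤ) : ℂ) * τ₁ ψ 1 := by
    intro ξ hξ
    have h1 := hτ1 _ (zspanOn_mono hsub _ (hγ ξ hξ))
    rw [hτγ ξ hξ, Pi.sub_apply, Pi.smul_apply, Pi.smul_apply, zsmul_eq_mul, zsmul_eq_mul] at h1
    linear_combination h1
  have heψ : τ₁ ψ 1 ≠ 0 := by
    have : Sgn G (τ₁ ψ) := genChar_norm_one (hvirt₁ _ (hmem₀ ψ hψ)) (by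
      rw [he ψ hψ ψ hψ, if_pos rfl])
    exact this.deg_ne
  have hm0 : m = 0 := by
    apply feit_arith (Int.natCast_nonneg a) (by exact_mod_cast hdψpos) hDlt hn0 hstar
    intro hn00
    rw [hn00, Int.cast_zero] at hn
    have hΔ0 := inner_self_eq_zero hn
    have hTP' : T = P := sub_eq_zero.mp hΔ0
    have h1 : P 1 = 0 := by rw [← hTP', hT1]
    rw [hP, Finset.sum_apply] at h1
    have h2 : ∑ ξ ∈ S₀, (((d ψ : ℤ) * c ξ : ℤ) : ℂ) * (((d ξ : ℤ) : ℂ) * τ₁ ψ 1) = 0 := by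
      have h3 : ∀ ξ ∈ S₀, (((d ψ : ℤ) * c ξ : ℤ) : ℂ) * (((d ξ : ℤ) : ℂ) * τ₁ ψ 1) =
          ((d ψ : ℤ) : ℂ) ^ 2 * (((c ξ : ℂ) • τ₁ ξ) 1) := by
        intro ξ hξ
        rw [← he1 ξ hξ, Pi.smul_apply, smul_eq_mul]
        push_cast
        ring
      rw [Finset.sum_congr rfl h3, ← Finset.mul_sum, h1, mul_zero]
    have h4 : ∑ ξ ∈ S₀, (((d ψ : ℤ) * c ξ : ℤ) : ℂ) * (((d ξ : ℤ) : ℂ) * τ₁ ψ 1) =
        ((∑ ξ ∈ S₀, ((d ψ : ℤ) * c ξ) * (d ξ : ℤ) : ℤ) : ℂ) * τ₁ ψ 1 := by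
      push_cast
      rw [Finset.sum_mul]
      refine Finset.sum_congr rfl fun ξ _ => ?_
      ring
    rw [h4] at h2
    have h5 := (mul_eq_zero.mp h2).resolve_right heψ
    have h6 : ∑ ξ ∈ S₀, ((d ψ : ℤ) * c ξ) * (d ξ : ℤ) = 0 := by exact_mod_cast h5
    have h7 : ∀ ξ ∈ S₀, ((d ψ : ℤ) * c ξ) * (d ξ : ℤ) = m * (d ξ : ℤ) ^ 2 +
        (if ξ = ψ then (-(a : ℤ) * (d ψ : ℤ) ^ 2) else 0) := by
      intro ξ hξ
      rw [hrel ξ hξ]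
      by_cases e : ξ = ψ
      · rw [if_pos e, if_pos e, e]
        ring
      · rw [if_neg e, if_neg e]
        ring
    rw [Finset.sum_congr rfl h7, Finset.sum_add_distrib, ← Finset.mul_sum, Finset.sum_ite_eq',
      if_pos hψ] at h6
    linarith
  -- consequences
  have hcψ : c ψ = -(a : ℤ) := by omega
  have hcξ : ∀ ξ ∈ S₀, ξ ≠ ψ → c ξ = 0 := by
    intro ξ hξ hne
    have h1 := hrel ξ hξ
    rw [hm0, if_neg hne] at h1
    have h2 : (d ψ : ℤ) * c ξ = 0 := by linarith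
    rcases mul_eq_zero.mp h2 with h3 | h3
    · have : (0 : ℤ) < d ψ := by exact_mod_cast hdψpos
      omega
    · exact h3
  have hn1 : n = 1 := by
    rw [hm0] at hstar
    have h1 : (d ψ : ℤ) ^ 2 * n = (d ψ : ℤ) ^ 2 * 1 := by linarith
    have h2 : (d ψ : ℤ) ^ 2 ≠ 0 := by
      have : (0 : ℤ) < d ψ := by exact_mod_cast hdψpos
      positivity
    exact mul_left_cancel₀ h2 h1
  have hPval : P = (-(a : ℤ)) • τ₁ ψ := by
    rw [hP, Finset.sum_eq_single ψ]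
    · rw [hcψ, zsmul_eq]
    · intro ξ hξ hne
      rw [hcξ ξ hξ hne, Int.cast_zero, zero_smul]
    · intro h
      exact absurd hψ h
  have hΔnorm : classInner (T - P) (T - P) = classInner χ χ := by
    rw [hn, hn1, hχχ, Int.cast_one]
  have hext := ext_isometry hτ₁' (χ := χ) (Δ := T - P) (by rw [hχχ]; exact one_ne_zero)
    (fun ξ hξ => hξχ ξ (Finset.mem_coe.mp hξ)) hΔg hΔnorm
    (fun ξ hξ => hΔe ξ (Finset.mem_coe.mp hξ))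
  refine ⟨⟨α₀, zspanOn_mono hsub _ hα₀, hα₀ne⟩, ext τ₁ χ (T - P), hext, ?_⟩
  intro α hα
  obtain ⟨k, z, hz, rfl⟩ := mem_zspan_insert hα.1
  rw [ext_apply τ₁ (T - P) (by rw [hχχ]; exact one_ne_zero)
    (fun ξ hξ => hξχ ξ (Finset.mem_coe.mp hξ)) k hz]
  have hα1 : (k • χ + z) 1 = 0 := hα.2 1 (by simp)
  have hz' : z + (k * a) • ψ ∈ zspanOn (↑S₀ : Set (N → ℂ)) {1}ᶜ := by
    refine ⟨zspan_add hz (zspan_smul _ (hmem₀ ψ hψ)), hvan _ ?_⟩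
    rw [Pi.add_apply, Pi.smul_apply, zsmul_eq_mul] at hα1 ⊢
    rw [Pi.sub_apply, Pi.smul_apply, zsmul_eq_mul] at hβ1
    push_cast
    linear_combination hα1 - (k : ℂ) * hβ1
  have hdecomp : k • χ + z = k • (χ - (a : ℤ) • ψ) + (z + (k * a) • ψ) := by
    rw [smul_sub, mul_smul]
    abel
  have hkβ : k • (χ - (a : ℤ) • ψ) ∈ zspanOn (insert χ (↑S₀ : Set (N → ℂ))) {1}ᶜ := by
    refine ⟨zspan_smul _ hβ.1, hvan _ ?_⟩
    rw [Pi.smul_apply, hβ1, smul_zero]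
  rw [hdecomp, hadd _ hkβ _ (zspanOn_mono hsub _ hz'), hsmul _ hβ, ← hT, ← hagree _ hz',
    hadd₁ _ hz _ (zspan_smul _ (hmem₀ ψ hψ)), hsmul₁ _ (hmem₀ ψ hψ), hPval, smul_sub, mul_smul,
    neg_smul, smul_neg]
  abel

end Cfsg.Agent.Lib.Lead.Coh
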