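import Mathlib
import Cfsg.Agent.Lib.Lead.Coh3

/-!
# Coherence: gluing two isometries with orthogonal images
-/

set_option autoImplicit false

namespace Cfsg.Agent.Lib.Lead.Coh

open Cfsg Cfsg.Agent.Lib.Helper2 Cfsg.Agent.Lib.Lead Cfsg.Agent.Lib.Lead.CycTI
open Cfsg.Agent.Lib.Helper23.IndTools
open scoped ComplexConjugate Classical

section orth

variable {X : Type*} [Group X] [Fintype X]

theorem Sgn.cases' {α γ : X → ℂ} (hα : Sgn X α) (hγ : Sgn X γ) :
    classInner α γ = 0 ∨ ∃ ε : ℝ, (ε = 1 ∨ ε = -1) ∧ γ = (ε : ℂ) • α := by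
  rcases Sgn.cases hα hγ with h | h | h
  · exact Or.inl h
  · exact Or.inr ⟨1, Or.inl rfl, by rw [h]; simp⟩
  · exact Or.inr ⟨-1, Or.inr rfl, by rw [h]; simp⟩

/-- weighted version of the orthogonality lemma -/
theorem orth_aux2 (α β γ δ : X → ℂ) (hα : Sgn X α) (hβ : Sgn X β) (hγ : Sgn X γ) (hδ : Sgn X δ)
    (s t u v : ℝ) (hs : s ≠ 0) (hu : u ≠ 0) (hv : v ≠ 0)
    (hab : classInner α β = 0) (hcd : classInner γ δ = 0)
    (hmix : classInner ((s : ℂ) • α - (t : ℂ) • β) ((u : ℂ) • γ - (v : ℂ) • δ) = 0)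
    (h1 : (s : ℂ) * α 1 = (t : ℂ) * β 1) (h2 : (u : ℂ) * γ 1 = (v : ℂ) * δ 1) :
    classInner α γ = 0 := by
  have hba : classInner β α = 0 := inner_symm_zero hab
  rw [classInner_sub_left, classInner_sub_right, classInner_sub_right, classInner_smul_right,
    classInner_smul_right, classInner_smul_right, classInner_smul_right, classInner_smul_left,
    classInner_smul_left, classInner_smul_left, classInner_smul_left, Complex.conj_ofReal,
    Complex.conj_ofReal] at hmix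
  have hα1 := hα.deg_ne
  rcases Sgn.cases' hα hγ with h | ⟨ε, hε, hg⟩
  · exact h
  exfalso
  have hε0 : ε ≠ 0 := by rcases hε with rfl | rfl <;> norm_num
  rw [hg, classInner_smul_left] at hcd
  have hαδ : classInner α δ = 0 := by
    rcases mul_eq_zero.mp hcd with h | h
    · exact absurd (by exact_mod_cast h) hε0
    · exact h
  rw [hg, classInner_smul_right, classInner_smul_right, hα.norm, hba, hαδ,
    Complex.conj_ofReal] at hmix
  rw [hg, Pi.smul_apply, smul_eq_mul] at h2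
  rcases Sgn.cases' hβ hδ with h | ⟨ε', hε', hd⟩
  · rw [h] at hmix
    have h3 : ((s * u * ε : ℝ) : ℂ) = 0 := by
      push_cast
      linear_combination hmix
    have h4 : s * u * ε = 0 := by exact_mod_cast h3
    exact (mul_ne_zero (mul_ne_zero hs hu) hε0) h4
  · have hε'0 : ε' ≠ 0 := by rcases hε' with rfl | rfl <;> norm_num
    rw [hd, classInner_smul_right, hβ.norm, Complex.conj_ofReal] at hmix
    rw [hd, Pi.smul_apply, smul_eq_mul] at h2
    have h3 : ((s * u * ε + t * v * ε' : ℝ) : ℂ) = 0 := by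
      push_cast
      linear_combination hmix
    have h4 : s * u * ε + t * v * ε' = 0 := by exact_mod_cast h3
    have h5 : ((t * u * ε - s * v * ε' : ℝ) : ℂ) * α 1 = 0 := by
      push_cast
      linear_combination (t : ℂ) * h2 - (v : ℂ) * (ε' : ℂ) * h1
    have h6 : ((t * u * ε - s * v * ε' : ℝ) : ℂ) = 0 := (mul_eq_zero.mp h5).resolve_right hα1
    have h7 : t * u * ε - s * v * ε' = 0 := by exact_mod_cast h6
    have h8 : (s ^ 2 + t ^ 2) * (v * ε') = 0 := by
      linear_combination t * h4 - s * h7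
    have h9 : 0 < s ^ 2 + t ^ 2 := by positivity
    rcases mul_eq_zero.mp h8 with h10 | h10
    · exact absurd h10 h9.ne'
    · exact (mul_ne_zero hv hε'0) h10

end orth

section glue

variable {L : Type*} [Group L] [Fintype L] {G : Type*} [Group G] [Fintype G]

theorem inner_zspan_zspan {X Y : Set (L → ℂ)} (h : ∀ ξ ∈ X, ∀ η ∈ Y, classInner ξ η = 0) :
    ∀ x ∈ zspan X, ∀ y ∈ zspan Y, classInner x y = 0 := by
  intro x hx y hy
  apply inner_zspan_zero (S := X) _ x hx
  intro ξ hξ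
  apply inner_symm_zero
  apply inner_zspan_zero (S := Y) _ y hy
  intro η hη
  exact inner_symm_zero (h ξ hξ η hη)

theorem inner_tau_tau {X Y : Set (L → ℂ)} {σ τ : (L → ℂ) → (G → ℂ)}
    (hσ : IsLinearIsometryOn (zspan X) σ) (hτ : IsLinearIsometryOn (zspan Y) τ)
    (h : ∀ ξ ∈ X, ∀ η ∈ Y, classInner (σ ξ) (τ η) = 0) :
    ∀ x ∈ zspan X, ∀ y ∈ zspan Y, classInner (σ x) (τ y) = 0 := by
  intro x hx y hy
  apply inner_tau_zspan_zero hσ _ x hx
  intro ξ hξ
  apply inner_symm_zero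
  apply inner_tau_zspan_zero hτ _ y hy
  intro η hη
  exact inner_symm_zero (h ξ hξ η hη)

theorem dec_unique' {X Y : Set (L → ℂ)}
    (horth : ∀ x ∈ zspan X, ∀ y ∈ zspan Y, classInner x y = 0) {x x' y y' : L → ℂ}
    (hx : x ∈ zspan X) (hx' : x' ∈ zspan X) (hy : y ∈ zspan Y) (hy' : y' ∈ zspan Y)
    (h : x + y = x' + y') : x = x' ∧ y = y' := by
  have h1 : x - x' = y' - y := by
    rw [sub_eq_sub_iff_add_eq_add, h, add_comm]
  have h2 : classInner (x - x') (x - x') = 0 := by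
    conv_lhs => rw [h1]
    rw [← h1]
    have := horth _ (zspan_sub hx hx') _ (zspan_sub hy' hy)
    rw [← h1] at this
    exact this
  have h3 : x = x' := sub_eq_zero.mp (inner_self_eq_zero h2)
  refine ⟨h3, ?_⟩
  subst h3
  exact add_left_cancel h

theorem mem_zspan_union {X Y : Set (L → ℂ)} {θ : L → ℂ} (h : θ ∈ zspan (X ∪ Y)) :
    ∃ x ∈ zspan X, ∃ y ∈ zspan Y, θ = x + y := by
  unfold zspan at h
  rw [Submodule.span_union] at h
  obtain ⟨x, hx, y, hy, hxy⟩ := Submodule.mem_sup.mp h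
  exact ⟨x, hx, y, hy, hxy.symm⟩

/-- gluing -/
noncomputable def glue (X Y : Set (L → ℂ)) (σ τ : (L → ℂ) → (G → ℂ)) : (L → ℂ) → (G → ℂ) :=
  fun θ => if h : ∃ x ∈ zspan X, ∃ y ∈ zspan Y, θ = x + y then
    σ h.choose + τ h.choose_spec.2.choose else 0

theorem glue_apply {X Y : Set (L → ℂ)} (σ τ : (L → ℂ) → (G → ℂ))
    (horth : ∀ x ∈ zspan X, ∀ y ∈ zspan Y, classInner x y = 0) {x y : L → ℂ}
    (hx : x ∈ zspan X) (hy : y ∈ zspan Y) : glue X Y σ τ (x + y) = σ x + τ y := by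
  have h : ∃ x' ∈ zspan X, ∃ y' ∈ zspan Y, x + y = x' + y' := ⟨x, hx, y, hy, rfl⟩
  unfold glue
  rw [dif_pos h]
  have h1 := h.choose_spec.1
  have h2 := h.choose_spec.2.choose_spec.1
  have h3 := h.choose_spec.2.choose_spec.2
  obtain ⟨e1, e2⟩ := dec_unique' horth hx h1 hy h2 h3
  exact congrArg₂ (· + ·) (congrArg σ e1.symm) (congrArg τ e2.symm)

theorem glue_isometry {X Y : Set (L → ℂ)} {σ τ : (L → ℂ) → (G → ℂ)}
    (hσ : IsLinearIsometryOn (zspan X) σ) (hτ : IsLinearIsometryOn (zspan Y) τ)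
    (horth : ∀ x ∈ zspan X, ∀ y ∈ zspan Y, classInner x y = 0)
    (horth' : ∀ x ∈ zspan X, ∀ y ∈ zspan Y, classInner (σ x) (τ y) = 0) :
    IsLinearIsometryOn (zspan (X ∪ Y)) (glue X Y σ τ) := by
  refine ⟨?_, ?_, ?_, ?_⟩
  · intro α hα β hβ
    obtain ⟨x, hx, y, hy, rfl⟩ := mem_zspan_union hα
    obtain ⟨x', hx', y', hy', rfl⟩ := mem_zspan_union hβ
    have e1 : x + y + (x' + y') = (x + x') + (y + y') := by abel
    rw [e1, glue_apply σ τ horth (zspan_add hx hx') (zspan_add hy hy'),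
      glue_apply σ τ horth hx hy, glue_apply σ τ horth hx' hy', hσ.1 x hx x' hx',
      hτ.1 y hy y' hy']
    abel
  · intro α hα n
    obtain ⟨x, hx, y, hy, rfl⟩ := mem_zspan_union hα
    rw [smul_add, glue_apply σ τ horth (zspan_smul n hx) (zspan_smul n hy),
      glue_apply σ τ horth hx hy, hσ.2.1 x hx, hτ.2.1 y hy, smul_add]
  · intro α hα β hβ
    obtain ⟨x, hx, y, hy, rfl⟩ := mem_zspan_union hα
    obtain ⟨x', hx', y', hy', rfl⟩ := mem_zspan_union hβ
    rw [glue_apply σ τ horth hx hy, glue_apply σ τ horth hx' hy', classInner_add_left,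
      classInner_add_right, classInner_add_right, classInner_add_left, classInner_add_right,
      classInner_add_right, hσ.2.2.1 x hx x' hx', hτ.2.2.1 y hy y' hy', horth' x hx y' hy',
      inner_symm_zero (horth' x' hx' y hy), horth x hx y' hy', inner_symm_zero (horth x' hx' y hy)]
  · intro α hα
    obtain ⟨x, hx, y, hy, rfl⟩ := mem_zspan_union hα
    rw [glue_apply σ τ horth hx hy]
    exact genChar_add (hσ.2.2.2 x hx) (hτ.2.2.2 y hy)

theorem zspan_apply_one_int {Y : Set (L → ℂ)} (h : ∀ η ∈ Y, ∃ t : ℤ, η 1 = t) :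
    ∀ y ∈ zspan Y, ∃ t : ℤ, y 1 = t := by
  intro y hy
  unfold zspan at hy
  induction hy using Submodule.span_induction with
  | mem f hf => exact h f hf
  | zero => exact ⟨0, by simp⟩
  | add a b _ _ ha hb =>
    obtain ⟨s, hs⟩ := ha
    obtain ⟨t, ht⟩ := hb
    exact ⟨s + t, by rw [Pi.add_apply, hs, ht]; push_cast; ring⟩
  | smul n a _ ha =>
    obtain ⟨s, hs⟩ := ha
    exact ⟨n * s, by rw [Pi.smul_apply, hs, zsmul_eq_mul]; push_cast; ring⟩

end glue

end Cfsg.Agent.Lib.Lead.Coh
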