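import Mathlib
import Cfsg.Agent.Lib.Lead.Coh4

/-!
# Coherence: linear extension from an orthogonal set; projections on orthonormal sets
-/

set_option autoImplicit false

namespace Cfsg.Agent.Lib.Lead.Coh

open Cfsg Cfsg.Agent.Lib.Helper2 Cfsg.Agent.Lib.Lead Cfsg.Agent.Lib.Lead.CycTI
open Cfsg.Agent.Lib.Helper23.IndTools
open scoped ComplexConjugate Classical

section linext

variable {L : Type*} [Group L] [Fintype L] {G : Type*} [Group G] [Fintype G]

theorem iso_of_gen {S : Set (L → ℂ)} {τ₁ : (L → ℂ) → (G → ℂ)}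
    (hadd : ∀ α ∈ zspan S, ∀ β ∈ zspan S, τ₁ (α + β) = τ₁ α + τ₁ β)
    (hsmul : ∀ α ∈ zspan S, ∀ n : ℤ, τ₁ (n • α) = n • τ₁ α)
    (hgen : ∀ χ ∈ S, ∀ φ ∈ S, classInner (τ₁ χ) (τ₁ φ) = classInner χ φ) :
    ∀ x ∈ zspan S, ∀ y ∈ zspan S, classInner (τ₁ x) (τ₁ y) = classInner x y := by
  have h0 : τ₁ 0 = 0 := by
    have := hsmul 0 zspan_zero 0
    rwa [zero_smul, zero_smul] at this
  have step1 : ∀ φ ∈ S, ∀ x ∈ zspan S, classInner (τ₁ x) (τ₁ φ) = classInner x φ := by
    intro φ hφ x hx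
    unfold zspan at hx
    induction hx using Submodule.span_induction with
    | mem f hf => exact hgen f hf φ hφ
    | zero => rw [h0, classInner_zero_left, classInner_zero_left]
    | add a b ha' hb' ha hb =>
      rw [hadd a ha' b hb', classInner_add_left, classInner_add_left, ha, hb]
    | smul n a ha' ha =>
      rw [hsmul a ha' n, zsmul_eq, zsmul_eq, classInner_smul_left, classInner_smul_left, ha]
  intro x hx y hy
  unfold zspan at hy
  induction hy using Submodule.span_induction with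
  | mem f hf => exact step1 f hf x hx
  | zero => rw [h0, classInner_zero_right, classInner_zero_right]
  | add a b ha' hb' ha hb =>
    rw [hadd a ha' b hb', classInner_add_right, classInner_add_right, ha, hb]
  | smul n a ha' ha =>
    rw [hsmul a ha' n, zsmul_eq, zsmul_eq, classInner_smul_right, classInner_smul_right, ha]

theorem virt_of_gen {S : Set (L → ℂ)} {τ₁ : (L → ℂ) → (G → ℂ)}
    (hadd : ∀ α ∈ zspan S, ∀ β ∈ zspan S, τ₁ (α + β) = τ₁ α + τ₁ β)
    (hsmul : ∀ α ∈ zspan S, ∀ n : ℤ, τ₁ (n • α) = n • τ₁ α)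
    (hgen : ∀ χ ∈ S, IsGeneralizedCharacter G (τ₁ χ)) :
    ∀ x ∈ zspan S, IsGeneralizedCharacter G (τ₁ x) := by
  have h0 : τ₁ 0 = 0 := by
    have := hsmul 0 zspan_zero 0
    rwa [zero_smul, zero_smul] at this
  intro x hx
  unfold zspan at hx
  induction hx using Submodule.span_induction with
  | mem f hf => exact hgen f hf
  | zero => rw [h0]; exact genChar_zero
  | add a b ha' hb' ha hb => rw [hadd a ha' b hb']; exact genChar_add ha hb
  | smul n a ha' ha => rw [hsmul a ha' n, zsmul_eq]; exact genChar_zsmul n ha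

theorem linIndep_of_orth {S : Set (L → ℂ)}
    (horth : ∀ χ ∈ S, ∀ φ ∈ S, χ ≠ φ → classInner χ φ = 0)
    (hnz : ∀ χ ∈ S, classInner χ χ ≠ 0) :
    LinearIndependent ℤ (fun s : S => (s : L → ℂ)) := by
  rw [linearIndependent_iff']
  intro s g hg i hi
  have h1 := congrArg (fun F => classInner F (i : L → ℂ)) hg
  beta_reduce at h1
  rw [classInner_sum_left, classInner_zero_left, Finset.sum_eq_single i] at h1
  · rw [zsmul_eq, classInner_smul_left] at h1
    rcases mul_eq_zero.mp h1 with h2 | h2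
    · exact_mod_cast h2
    · exact absurd h2 (hnz i i.2)
  · intro j _ hj
    rw [zsmul_eq, classInner_smul_left, horth j j.2 i i.2 (fun e => hj (Subtype.ext e)), mul_zero]
  · intro h
    exact absurd hi h

theorem linExt {S : Set (L → ℂ)} (horth : ∀ χ ∈ S, ∀ φ ∈ S, χ ≠ φ → classInner χ φ = 0)
    (hnz : ∀ χ ∈ S, classInner χ χ ≠ 0) (f : (L → ℂ) → (G → ℂ))
    (hf : ∀ χ ∈ S, ∀ φ ∈ S, classInner (f χ) (f φ) = classInner χ φ)
    (hv : ∀ χ ∈ S, IsGeneralizedCharacter G (f χ)) :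
    ∃ τ₁ : (L → ℂ) → (G → ℂ), IsLinearIsometryOn (zspan S) τ₁ ∧ ∀ χ ∈ S, τ₁ χ = f χ := by
  have hli := linIndep_of_orth horth hnz
  have hrange : Set.range (fun s : S => (s : L → ℂ)) = S := Subtype.range_coe
  let Λ : Submodule.span ℤ (Set.range (fun s : S => (s : L → ℂ))) →ₗ[ℤ] (G → ℂ) :=
    (Finsupp.linearCombination ℤ (fun s : S => f s)) ∘ₗ hli.repr
  have hmem : ∀ α, α ∈ zspan S ↔ α ∈ Submodule.span ℤ (Set.range (fun s : S => (s : L → ℂ))) := by
    intro α
    rw [hrange]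
    rfl
  let τ₁ : (L → ℂ) → (G → ℂ) := fun α =>
    if h : α ∈ Submodule.span ℤ (Set.range (fun s : S => (s : L → ℂ))) then Λ ⟨α, h⟩ else 0
  have hτ₁ : ∀ α (h : α ∈ Submodule.span ℤ (Set.range (fun s : S => (s : L → ℂ)))),
      τ₁ α = Λ ⟨α, h⟩ := fun α h => dif_pos h
  have hadd : ∀ α ∈ zspan S, ∀ β ∈ zspan S, τ₁ (α + β) = τ₁ α + τ₁ β := by
    intro α hα β hβ
    have h1 := (hmem α).mp hα
    have h2 := (hmem β).mp hβ
    rw [hτ₁ α h1, hτ₁ β h2, hτ₁ (α + β) (Submodule.add_mem _ h1 h2), ← map_add]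
    rfl
  have hsmul : ∀ α ∈ zspan S, ∀ n : ℤ, τ₁ (n • α) = n • τ₁ α := by
    intro α hα n
    have h1 := (hmem α).mp hα
    rw [hτ₁ α h1, hτ₁ (n • α) (Submodule.smul_mem _ n h1), ← map_smul]
    rfl
  have hgen : ∀ χ ∈ S, τ₁ χ = f χ := by
    intro χ hχ
    have h1 : χ ∈ Submodule.span ℤ (Set.range (fun s : S => (s : L → ℂ))) :=
      Submodule.subset_span ⟨⟨χ, hχ⟩, rfl⟩
    rw [hτ₁ χ h1]
    have h2 : hli.repr ⟨χ, h1⟩ = Finsupp.single (⟨χ, hχ⟩ : S) 1 :=
      hli.repr_eq_single ⟨χ, hχ⟩ ⟨χ, h1⟩ rfl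
    change Finsupp.linearCombination ℤ (fun s : S => f s) (hli.repr ⟨χ, h1⟩) = f χ
    rw [h2, Finsupp.linearCombination_single, one_smul]
  refine ⟨τ₁, ⟨hadd, hsmul, ?_, ?_⟩, hgen⟩
  · apply iso_of_gen hadd hsmul
    intro χ hχ φ hφ
    rw [hgen χ hχ, hgen φ hφ, hf χ hχ φ hφ]
  · apply virt_of_gen hadd hsmul
    intro χ hχ
    rw [hgen χ hχ]
    exact hv χ hχ

theorem IsLinearIsometryOn.mono {E E' : Set (L → ℂ)} {τ : (L → ℂ) → (G → ℂ)}
    (h : IsLinearIsometryOn E τ) (hE : E' ⊆ E) : IsLinearIsometryOn E' τ :=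
  ⟨fun α hα β hβ => h.1 α (hE hα) β (hE hβ), fun α hα n => h.2.1 α (hE hα) n,
    fun α hα β hβ => h.2.2.1 α (hE hα) β (hE hβ), fun α hα => h.2.2.2 α (hE hα)⟩

end linext

section proj

variable {G : Type*} [Group G] [Fintype G]

/-- orthonormal finite set -/
def ON (R : Finset (G → ℂ)) : Prop :=
  ∀ α ∈ R, ∀ β ∈ R, classInner α β = if α = β then 1 else 0

/-- orthogonal projection -/
noncomputable def proj (R : Finset (G → ℂ)) (T : G → ℂ) : G → ℂ := ∑ α ∈ R, classInner T α • α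

theorem inner_proj_mem {R : Finset (G → ℂ)} (hR : ON R) (T : G → ℂ) {α : G → ℂ} (hα : α ∈ R) :
    classInner (proj R T) α = classInner T α := by
  rw [proj, classInner_sum_left, Finset.sum_eq_single α]
  · rw [classInner_smul_left, hR α hα α hα, if_pos rfl, mul_one]
  · intro β hβ hne
    rw [classInner_smul_left, hR β hβ α hα, if_neg hne, mul_zero]
  · intro h
    exact absurd hα h

theorem inner_proj_of_orth {R : Finset (G → ℂ)} (T : G → ℂ) {γ : G → ℂ}
    (h : ∀ α ∈ R, classInner α γ = 0) : classInner (proj R T) γ = 0 := by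
  rw [proj, classInner_sum_left]
  apply Finset.sum_eq_zero
  intro α hα
  rw [classInner_smul_left, h α hα, mul_zero]

theorem inner_left_proj {R : Finset (G → ℂ)} (U T : G → ℂ) :
    classInner U (proj R T) = ∑ α ∈ R, classInner U α * conj (classInner T α) := by
  rw [proj, classInner_sum_right]
  refine Finset.sum_congr rfl fun α _ => ?_
  rw [classInner_smul_right, mul_comm]

theorem norm_proj {R : Finset (G → ℂ)} (hR : ON R) (T : G → ℂ) :
    classInner (proj R T) (proj R T) = ∑ α ∈ R, classInner T α * conj (classInner T α) := by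
  rw [inner_left_proj]
  refine Finset.sum_congr rfl fun α hα => ?_
  rw [inner_proj_mem hR T hα]

theorem inner_sum_mem {R : Finset (G → ℂ)} (hR : ON R) {α : G → ℂ} (hα : α ∈ R) :
    classInner α (∑ β ∈ R, β) = 1 := by
  rw [classInner_sum_right, Finset.sum_eq_single α]
  · rw [hR α hα α hα, if_pos rfl]
  · intro β hβ hne
    rw [hR α hα β hβ, if_neg hne.symm]
  · intro h
    exact absurd hα h

theorem norm_sum {R R' : Finset (G → ℂ)} (hR : ON R) (hsub : R' ⊆ R) :
    classInner (∑ β ∈ R', β) (∑ β ∈ R, β) = (R'.card : ℂ) := by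
  rw [classInner_sum_left, Finset.sum_congr rfl (fun α hα => inner_sum_mem hR (hsub hα))]
  simp

theorem ON.mono {R R' : Finset (G → ℂ)} (hR : ON R) (hsub : R' ⊆ R) : ON R' :=
  fun α hα β hβ => hR α (hsub hα) β (hsub hβ)

end proj

end Cfsg.Agent.Lib.Lead.Coh
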