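import Mathlib
import Cfsg.Agent.Lib.Lead.Coh5

/-!
# Coherence systems: basic facts and the structure of `τ (a - b)`
-/

set_option autoImplicit false

namespace Cfsg.Agent.Lib.Lead.Coh

open Cfsg Cfsg.Agent.Lib.Helper2 Cfsg.Agent.Lib.Lead Cfsg.Agent.Lib.Lead.CycTI
open Cfsg.Agent.Lib.Helper23.IndTools
open scoped ComplexConjugate Classical

variable {L : Type*} [Group L] [Fintype L] {G : Type*} [Group G] [Fintype G]
  {S : Set (L → ℂ)} {τ : (L → ℂ) → (G → ℂ)} {R : (L → ℂ) → Finset (G → ℂ)}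

theorem hvan (f : L → ℂ) (hf : f 1 = 0) : ∀ x, x ∉ ({1}ᶜ : Set L) → f x = 0 := by
  intro x hx
  have hx1 : x = 1 := by
    by_contra h
    exact hx h
  rw [hx1, hf]

theorem conj_conj (χ : L → ℂ) : Cfsg.conjFun (Cfsg.conjFun χ) = χ := by
  funext x
  simp [Cfsg.conjFun]

theorem inner_conj_conj (φ χ : L → ℂ) :
    classInner (Cfsg.conjFun φ) (Cfsg.conjFun χ) = conj (classInner φ χ) := by
  simp only [classInner, Cfsg.conjFun, map_mul, map_inv₀, map_natCast, map_sum]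

theorem cs_ON (hS : IsCoherenceSystem S τ R) {χ : L → ℂ} (hχ : χ ∈ S) : ON (R χ) := by
  intro α hα β hβ
  rw [hS.orthonormal χ hχ α hα β hβ]

theorem cs_norm_nat (hS : IsCoherenceSystem S τ R) {χ : L → ℂ} (hχ : χ ∈ S) :
    ∃ n : ℕ, 0 < n ∧ classInner χ χ = n := by
  obtain ⟨n, hn⟩ := IsCharacter.classInner_nat (hS.isCharacter χ hχ) (hS.isCharacter χ hχ)
  refine ⟨n, ?_, hn⟩
  rcases Nat.eq_zero_or_pos n with h | h
  · exfalso
    rw [h, Nat.cast_zero] at hn
    have h0 := inner_self_eq_zero hn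
    apply hS.conj_ne χ hχ
    rw [h0]
    funext x
    simp [Cfsg.conjFun]
  · exact h

theorem cs_deg_nat (hS : IsCoherenceSystem S τ R) {χ : L → ℂ} (hχ : χ ∈ S) :
    ∃ d : ℕ, χ 1 = d := IsCharacter.apply_one (hS.isCharacter χ hχ)

theorem cs_conj_diff_mem (hS : IsCoherenceSystem S τ R) {χ : L → ℂ} (hχ : χ ∈ S) :
    χ - Cfsg.conjFun χ ∈ zspanOn S {1}ᶜ := by
  refine ⟨zspan_sub (mem_zspan hχ) (mem_zspan (hS.conj_mem χ hχ)), hvan _ ?_⟩
  obtain ⟨d, hd⟩ := cs_deg_nat hS hχ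
  rw [Pi.sub_apply, Cfsg.conjFun, hd, map_natCast, sub_self]

theorem cs_diff_mem {a b : L → ℂ} (ha : a ∈ S) (hb : b ∈ S) (hdeg : a 1 = b 1) :
    a - b ∈ zspanOn S {1}ᶜ := by
  refine ⟨zspan_sub (mem_zspan ha) (mem_zspan hb), hvan _ ?_⟩
  rw [Pi.sub_apply, hdeg, sub_self]

theorem cs_orth_conj (hS : IsCoherenceSystem S τ R) {χ : L → ℂ} (hχ : χ ∈ S) :
    classInner χ (Cfsg.conjFun χ) = 0 :=
  hS.orthogonal χ hχ _ (hS.conj_mem χ hχ) (hS.conj_ne χ hχ).symm

theorem cs_norm_conj (hS : IsCoherenceSystem S τ R) {χ : L → ℂ} (hχ : χ ∈ S) :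
    classInner (Cfsg.conjFun χ) (Cfsg.conjFun χ) = classInner χ χ := by
  obtain ⟨n, -, hn⟩ := cs_norm_nat hS hχ
  rw [inner_conj_conj, hn, map_natCast]

theorem cs_card (hS : IsCoherenceSystem S τ R) {χ : L → ℂ} (hχ : χ ∈ S) :
    ((R χ).card : ℂ) = 2 * classInner χ χ := by
  have h1 := hS.isometry.2.2.1 _ (cs_conj_diff_mem hS hχ) _ (cs_conj_diff_mem hS hχ)
  rw [hS.sum_eq χ hχ, norm_sum (cs_ON hS hχ) subset_rfl, classInner_sub_left,
    classInner_sub_right, classInner_sub_right, cs_orth_conj hS hχ,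
    inner_symm_zero (cs_orth_conj hS hχ), cs_norm_conj hS hχ] at h1
  rw [h1]
  ring

theorem cs_sum_inner (hS : IsCoherenceSystem S τ R) {χ : L → ℂ} (hχ : χ ∈ S) (T : G → ℂ) :
    ∑ α ∈ R χ, classInner T α = classInner T (τ (χ - Cfsg.conjFun χ)) := by
  rw [hS.sum_eq χ hχ, classInner_sum_right]

theorem int_sq_ge (k : ℤ) : k ≤ k ^ 2 := by
  nlinarith [sq_nonneg (2 * k - 1), sq_nonneg k]

theorem int_sq_ge' (k : ℤ) : -k ≤ k ^ 2 := by
  nlinarith [sq_nonneg (2 * k + 1), sq_nonneg k]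

theorem pair_structure (hS : IsCoherenceSystem S τ R) {a b : L → ℂ} (ha : a ∈ S) (hb : b ∈ S)
    (hne : b ≠ a) (hne' : b ≠ Cfsg.conjFun a) (hdeg : a 1 = b 1) :
    (∀ α ∈ R a, classInner (τ (a - b)) α = 0 ∨ classInner (τ (a - b)) α = 1) ∧
    (∑ α ∈ R a, classInner (τ (a - b)) α = classInner a a) ∧
    τ (a - b) = proj (R a) (τ (a - b)) + proj (R b) (τ (a - b)) := by
  have hab := cs_diff_mem ha hb hdeg
  set T := τ (a - b) with hT
  have hTg : IsGeneralizedCharacter G T := hS.isometry.2.2.2 _ hab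
  have o1 : classInner b a = 0 := hS.orthogonal b hb a ha hne
  have o2 : classInner a b = 0 := inner_symm_zero o1
  have o3 : classInner b (Cfsg.conjFun a) = 0 := hS.orthogonal b hb _ (hS.conj_mem a ha) hne'
  have o4 : classInner a (Cfsg.conjFun b) = 0 := by
    apply hS.orthogonal a ha _ (hS.conj_mem b hb)
    intro e
    apply hne'
    rw [e, conj_conj]
  have hRR : ∀ β ∈ R b, ∀ α ∈ R a, classInner β α = 0 := hS.disjoint a ha b hb o1 o3
  obtain ⟨na, hna0, hna⟩ := cs_norm_nat hS ha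
  obtain ⟨nb, hnb0, hnb⟩ := cs_norm_nat hS hb
  have hm : ∀ α ∈ R a, ∃ m : ℤ, classInner T α = m := fun α hα =>
    genChar_inner_int hTg (hS.virtual a ha α hα)
  have hk : ∀ α ∈ R b, ∃ m : ℤ, classInner T α = m := fun α hα =>
    genChar_inner_int hTg (hS.virtual b hb α hα)
  choose! m hm using hm
  choose! k hk using hk
  have hsm : ∑ α ∈ R a, classInner T α = classInner a a := by
    rw [cs_sum_inner hS ha, hT, hS.isometry.2.2.1 _ hab _ (cs_conj_diff_mem hS ha),
      classInner_sub_left, classInner_sub_right, classInner_sub_right, cs_orth_conj hS ha, o1, o3]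
    ring
  have hsk : ∑ α ∈ R b, classInner T α = -classInner b b := by
    rw [cs_sum_inner hS hb, hT, hS.isometry.2.2.1 _ hab _ (cs_conj_diff_mem hS hb),
      classInner_sub_left, classInner_sub_right, classInner_sub_right, cs_orth_conj hS hb, o2, o4]
    ring
  have hsmZ : ∑ α ∈ R a, m α = na := by
    have : ((∑ α ∈ R a, m α : ℤ) : ℂ) = ((na : ℤ) : ℂ) := by
      push_cast
      rw [← hna, ← hsm]
      exact Finset.sum_congr rfl fun α hα => (hm α hα).symm
    exact_mod_cast this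
  have hskZ : ∑ α ∈ R b, k α = -(nb : ℤ) := by
    have : ((∑ α ∈ R b, k α : ℤ) : ℂ) = ((-(nb : ℤ) : ℤ) : ℂ) := by
      push_cast
      rw [← hnb, ← hsk]
      exact Finset.sum_congr rfl fun α hα => (hk α hα).symm
    exact_mod_cast this
  have hTT : classInner T T = (na : ℂ) + nb := by
    rw [hT, hS.isometry.2.2.1 _ hab _ hab, classInner_sub_left, classInner_sub_right,
      classInner_sub_right, o1, o2, hna, hnb]
    ring
  set P := proj (R a) T with hP
  set Q := proj (R b) T with hQ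
  have hA : ∑ α ∈ R a, classInner T α * conj (classInner T α) = ((∑ α ∈ R a, m α ^ 2 : ℤ) : ℂ) := by
    push_cast
    refine Finset.sum_congr rfl fun α hα => ?_
    rw [hm α hα, map_intCast]
    ring
  have hB : ∑ α ∈ R b, classInner T α * conj (classInner T α) = ((∑ α ∈ R b, k α ^ 2 : ℤ) : ℂ) := by
    push_cast
    refine Finset.sum_congr rfl fun α hα => ?_
    rw [hk α hα, map_intCast]
    ring
  have hTP : classInner T P = ((∑ α ∈ R a, m α ^ 2 : ℤ) : ℂ) := by rw [hP, inner_left_proj, hA]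
  have hTQ : classInner T Q = ((∑ α ∈ R b, k α ^ 2 : ℤ) : ℂ) := by rw [hQ, inner_left_proj, hB]
  have hPT : classInner P T = ((∑ α ∈ R a, m α ^ 2 : ℤ) : ℂ) := by
    rw [← classInner_conj_symm, hTP, map_intCast]
  have hQT : classInner Q T = ((∑ α ∈ R b, k α ^ 2 : ℤ) : ℂ) := by
    rw [← classInner_conj_symm, hTQ, map_intCast]
  have hPP : classInner P P = ((∑ α ∈ R a, m α ^ 2 : ℤ) : ℂ) := by
    rw [hP, norm_proj (cs_ON hS ha), hA]
  have hQQ : classInner Q Q = ((∑ α ∈ R b, k α ^ 2 : ℤ) : ℂ) := by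
    rw [hQ, norm_proj (cs_ON hS hb), hB]
  have hQP : classInner Q P = 0 := by
    rw [hQ]
    apply inner_proj_of_orth
    intro β hβ
    rw [hP, inner_left_proj]
    apply Finset.sum_eq_zero
    intro α hα
    rw [hRR β hβ α hα, zero_mul]
  have hPQ : classInner P Q = 0 := inner_symm_zero hQP
  have hZZ : classInner (T - P - Q) (T - P - Q) =
      (((na : ℤ) + nb - ∑ α ∈ R a, m α ^ 2 - ∑ α ∈ R b, k α ^ 2 : ℤ) : ℂ) := by
    rw [classInner_sub_left, classInner_sub_left, classInner_sub_right, classInner_sub_right,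
      classInner_sub_right, classInner_sub_right, classInner_sub_right, classInner_sub_right,
      hTT, hTP, hTQ, hPT, hPP, hPQ, hQT, hQP, hQQ]
    push_cast
    ring
  have hnn : 0 ≤ (na : ℤ) + nb - ∑ α ∈ R a, m α ^ 2 - ∑ α ∈ R b, k α ^ 2 := by
    have h1 := inner_self_re_nonneg (T - P - Q)
    rw [hZZ, Complex.intCast_re] at h1
    exact_mod_cast h1
  have hle1 : ∑ α ∈ R a, m α ≤ ∑ α ∈ R a, m α ^ 2 := Finset.sum_le_sum fun α _ => int_sq_ge _
  have hle2 : ∑ α ∈ R b, -k α ≤ ∑ α ∈ R b, k α ^ 2 := Finset.sum_le_sum fun α _ => int_sq_ge' _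
  rw [Finset.sum_neg_distrib] at hle2
  have heq1 : ∑ α ∈ R a, m α ^ 2 = ∑ α ∈ R a, m α := by omega
  have hz : (na : ℤ) + nb - ∑ α ∈ R a, m α ^ 2 - ∑ α ∈ R b, k α ^ 2 = 0 := by omega
  refine ⟨?_, hsm, ?_⟩
  · intro α hα
    have h0 : ∑ α ∈ R a, (m α ^ 2 - m α) = 0 := by
      rw [Finset.sum_sub_distrib, heq1, sub_self]
    have h3 := (Finset.sum_eq_zero_iff_of_nonneg
      (fun α _ => sub_nonneg.mpr (int_sq_ge (m α)))).mp h0 α hα
    have h4 : m α * (m α - 1) = 0 := by linear_combination h3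
    rw [hm α hα]
    rcases mul_eq_zero.mp h4 with h5 | h5
    · left
      rw [h5, Int.cast_zero]
    · right
      have : m α = 1 := by omega
      rw [this, Int.cast_one]
  · rw [hz, Int.cast_zero] at hZZ
    have h1 := inner_self_eq_zero hZZ
    have h2 : T = P + Q := by
      have : T - P - Q = T - (P + Q) := by abel
      rw [this] at h1
      exact sub_eq_zero.mp h1
    exact h2

end Cfsg.Agent.Lib.Lead.Coh
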