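import Mathlib
import Cfsg.Agent.Lib.Lead.Coh6
import Cfsg.Agent.Lib.Helper13.CyclicExt2

/-!
# Coherence systems of uniform degree are coherent
-/

set_option autoImplicit false

namespace Cfsg.Agent.Lib.Lead.Coh

open Cfsg Cfsg.Agent.Lib.Helper2 Cfsg.Agent.Lib.Lead Cfsg.Agent.Lib.Lead.CycTI
open Cfsg.Agent.Lib.Helper23.IndTools
open scoped ComplexConjugate Classical

variable {L : Type*} [Group L] [Fintype L] {G : Type*} [Group G] [Fintype G]
  {S : Set (L → ℂ)} {τ : (L → ℂ) → (G → ℂ)} {R : (L → ℂ) → Finset (G → ℂ)}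

theorem zspanOn_zero {A : Set L} : (0 : L → ℂ) ∈ zspanOn S A := ⟨zspan_zero, fun _ _ => rfl⟩

theorem cs_tau_zero (hS : IsCoherenceSystem S τ R) : τ 0 = 0 := tau_zero hS.isometry zspanOn_zero

theorem cs_R_orth (hS : IsCoherenceSystem S τ R) {χ ψ : L → ℂ} (hχ : χ ∈ S) (hψ : ψ ∈ S)
    (h1 : ψ ≠ χ) (h2 : ψ ≠ Cfsg.conjFun χ) : ∀ β ∈ R ψ, ∀ α ∈ R χ, classInner β α = 0 :=
  hS.disjoint χ hχ ψ hψ (hS.orthogonal ψ hψ χ hχ h1)
    (hS.orthogonal ψ hψ _ (hS.conj_mem χ hχ) h2)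

theorem exists_F0 (hS : IsCoherenceSystem S τ R) (hdeg : ∀ φ ∈ S, ∀ ψ ∈ S, φ 1 = ψ 1)
    {χ₀ : L → ℂ} (h₀ : χ₀ ∈ S) :
    ∃ F₀ : G → ℂ, IsGeneralizedCharacter G F₀ ∧ classInner F₀ F₀ = classInner χ₀ χ₀ ∧
      ∀ ψ ∈ S, ψ ≠ χ₀ → classInner F₀ (τ (χ₀ - ψ)) = classInner χ₀ χ₀ := by
  obtain ⟨n₀, hn₀pos, hn₀⟩ := cs_norm_nat hS h₀
  have hON := cs_ON hS h₀
  by_cases hcase : ∃ ψ₁ ∈ S, ψ₁ ≠ χ₀ ∧ ψ₁ ≠ Cfsg.conjFun χ₀
  · obtain ⟨ψ₁, hψ₁, hne, hne'⟩ := hcase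
    obtain ⟨h01, hsum, -⟩ := pair_structure hS h₀ hψ₁ hne hne' (hdeg _ h₀ _ hψ₁)
    set T₁ := τ (χ₀ - ψ₁) with hT₁
    have hcc : ∀ α ∈ R χ₀, classInner T₁ α * conj (classInner T₁ α) = classInner T₁ α := by
      intro α hα
      rcases h01 α hα with h | h <;> rw [h] <;> simp
    refine ⟨proj (R χ₀) T₁, ?_, ?_, ?_⟩
    · apply genChar_sum
      intro α hα
      rcases h01 α hα with h | h
      · rw [h, zero_smul]
        exact genChar_zero
      · rw [h, one_smul]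
        exact hS.virtual χ₀ h₀ α hα
    · rw [norm_proj hON, Finset.sum_congr rfl hcc, hsum]
    · intro ψ hψ hψne
      rw [← classInner_conj_symm, inner_left_proj]
      have key : ∀ α ∈ R χ₀, classInner (τ (χ₀ - ψ)) α * conj (classInner T₁ α) =
          classInner T₁ α := by
        intro α hα
        by_cases e1 : ψ = Cfsg.conjFun χ₀
        · rw [e1, hS.sum_eq χ₀ h₀, ← classInner_conj_symm, inner_sum_mem hON hα]
          rcases h01 α hα with h | h <;> rw [h] <;> simp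
        · have e2 : classInner (τ (ψ₁ - ψ)) α = 0 := by
            by_cases e3 : ψ = ψ₁
            · rw [e3, sub_self, cs_tau_zero hS, classInner_zero_left]
            by_cases e4 : ψ = Cfsg.conjFun ψ₁
            · rw [e4, hS.sum_eq ψ₁ hψ₁, classInner_sum_left]
              apply Finset.sum_eq_zero
              intro β hβ
              exact cs_R_orth hS h₀ hψ₁ hne hne' β hβ α hα
            · obtain ⟨-, -, hdec⟩ := pair_structure hS hψ₁ hψ e3 e4 (hdeg _ hψ₁ _ hψ)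
              rw [hdec, classInner_add_left,
                inner_proj_of_orth _ (fun β hβ => cs_R_orth hS h₀ hψ₁ hne hne' β hβ α hα),
                inner_proj_of_orth _ (fun β hβ => cs_R_orth hS h₀ hψ hψne e1 β hβ α hα), add_zero]
          have e5 : χ₀ - ψ = (χ₀ - ψ₁) + (ψ₁ - ψ) := by abel
          rw [e5, hS.isometry.1 _ (cs_diff_mem h₀ hψ₁ (hdeg _ h₀ _ hψ₁)) _
            (cs_diff_mem hψ₁ hψ (hdeg _ hψ₁ _ hψ)), classInner_add_left, e2, add_zero]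
          exact hcc α hα
      rw [Finset.sum_congr rfl key, hsum, hn₀, map_natCast]
  · push Not at hcase
    have hcard : (R χ₀).card = 2 * n₀ := by
      have := cs_card hS h₀
      rw [hn₀] at this
      exact_mod_cast this
    obtain ⟨R₁, hR₁, hR₁c⟩ := Finset.exists_subset_card_eq (s := R χ₀) (n := n₀) (by omega)
    refine ⟨∑ β ∈ R₁, β, ?_, ?_, ?_⟩
    · exact genChar_sum _ fun β hβ => hS.virtual χ₀ h₀ β (hR₁ hβ)
    · rw [norm_sum (hON.mono hR₁) subset_rfl, hR₁c, hn₀]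
    · intro ψ hψ hψne
      have e1 : ψ = Cfsg.conjFun χ₀ := hcase ψ hψ hψne
      rw [e1, hS.sum_eq χ₀ h₀, norm_sum hON hR₁, hR₁c, hn₀]

theorem cs_deg_ne (hS : IsCoherenceSystem S τ R) {χ : L → ℂ} (hχ : χ ∈ S) : χ 1 ≠ 0 := by
  intro h
  obtain ⟨n, hn0, hn⟩ := cs_norm_nat hS hχ
  have h0 := Cfsg.Agent.Lib.Helper13.IsCharacter.eq_zero_of_apply_one (hS.isCharacter χ hχ) h
  rw [h0, classInner_zero_left] at hn
  have : n = 0 := by exact_mod_cast hn.symm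
  omega

theorem uniform_coherent (hS : IsCoherenceSystem S τ R)
    (hdeg : ∀ φ ∈ S, ∀ ψ ∈ S, φ 1 = ψ 1) : IsCoherent S {1}ᶜ τ := by
  obtain ⟨χ₀, h₀⟩ := hS.nonempty
  obtain ⟨F₀, hF₀g, hF₀n, hF₀⟩ := exists_F0 hS hdeg h₀
  obtain ⟨n₀, hn₀pos, hn₀⟩ := cs_norm_nat hS h₀
  have hdm : ∀ χ ∈ S, χ₀ - χ ∈ zspanOn S {1}ᶜ := fun χ hχ => cs_diff_mem h₀ hχ (hdeg _ h₀ _ hχ)
  have hu : ∀ ψ ∈ S, classInner F₀ (τ (χ₀ - ψ)) = classInner χ₀ χ₀ - classInner χ₀ ψ := by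
    intro ψ hψ
    by_cases e : ψ = χ₀
    · rw [e, sub_self, cs_tau_zero hS, classInner_zero_right, sub_self]
    · rw [hF₀ ψ hψ e, hS.orthogonal χ₀ h₀ ψ hψ (Ne.symm e), sub_zero]
  have hf : ∀ χ ∈ S, ∀ φ ∈ S, classInner (F₀ - τ (χ₀ - χ)) (F₀ - τ (χ₀ - φ)) = classInner χ φ := by
    intro χ hχ φ hφ
    rw [classInner_sub_left, classInner_sub_right, classInner_sub_right, hF₀n, hu φ hφ,
      ← classInner_conj_symm F₀ (τ (χ₀ - χ)), hu χ hχ, hS.isometry.2.2.1 _ (hdm χ hχ) _ (hdm φ hφ),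
      classInner_sub_left, classInner_sub_right, classInner_sub_right, map_sub,
      classInner_conj_symm, classInner_conj_symm, hn₀]
    ring
  obtain ⟨τ₁, hτ₁, hτ₁f⟩ := linExt hS.orthogonal (fun χ hχ => by
    obtain ⟨n, hn0, hn⟩ := cs_norm_nat hS hχ
    rw [hn]
    exact_mod_cast hn0.ne') (fun χ => F₀ - τ (χ₀ - χ)) hf
    (fun χ hχ => genChar_sub hF₀g (hS.isometry.2.2.2 _ (hdm χ hχ)))
  refine ⟨⟨χ₀ - Cfsg.conjFun χ₀, cs_conj_diff_mem hS h₀,
    sub_ne_zero.mpr (hS.conj_ne χ₀ h₀).symm⟩, τ₁, hτ₁, ?_⟩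
  -- the differences generate
  set D : Set (L → ℂ) := {δ | ∃ χ ∈ S, δ = χ₀ - χ} with hD
  have hDS : ∀ w ∈ zspan D, w ∈ zspanOn S {1}ᶜ := by
    intro w hw
    unfold zspan at hw
    induction hw using Submodule.span_induction with
    | mem f hf =>
      obtain ⟨χ, hχ, rfl⟩ := hf
      exact hdm χ hχ
    | zero => exact zspanOn_zero
    | add a b _ _ ha hb =>
      exact ⟨zspan_add ha.1 hb.1, fun x hx => by rw [Pi.add_apply, ha.2 x hx, hb.2 x hx, add_zero]⟩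
    | smul n a _ ha =>
      exact ⟨zspan_smul n ha.1, fun x hx => by rw [Pi.smul_apply, ha.2 x hx, smul_zero]⟩
  have hgen : ∀ α ∈ zspan S, ∃ k : ℤ, ∃ w ∈ zspan D, α = k • χ₀ + w := by
    intro α hα
    unfold zspan at hα
    induction hα using Submodule.span_induction with
    | mem f hf =>
      refine ⟨1, (-1 : ℤ) • (χ₀ - f), zspan_smul _ (mem_zspan ⟨f, hf, rfl⟩), ?_⟩
      rw [one_smul, neg_smul, one_smul]
      abel
    | zero => exact ⟨0, 0, zspan_zero, by simp⟩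
    | add a b _ _ ha hb =>
      obtain ⟨k, w, hw, rfl⟩ := ha
      obtain ⟨k', w', hw', rfl⟩ := hb
      refine ⟨k + k', w + w', zspan_add hw hw', ?_⟩
      rw [add_smul]
      abel
    | smul n a _ ha =>
      obtain ⟨k, w, hw, rfl⟩ := ha
      exact ⟨n * k, n • w, zspan_smul n hw, by rw [smul_add, mul_smul]⟩
  have hagree : ∀ w ∈ zspan D, τ₁ w = τ w := by
    intro w hw
    unfold zspan at hw
    induction hw using Submodule.span_induction with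
    | mem f hf =>
      obtain ⟨χ, hχ, rfl⟩ := hf
      rw [tau_sub hτ₁ (mem_zspan h₀) (mem_zspan hχ), hτ₁f χ₀ h₀, hτ₁f χ hχ, sub_self,
        cs_tau_zero hS]
      abel
    | zero => rw [cs_tau_zero hS, tau_zero hτ₁ zspan_zero]
    | add a b ha' hb' ha hb =>
      rw [hτ₁.1 a (hDS a ha').1 b (hDS b hb').1, hS.isometry.1 a (hDS a ha') b (hDS b hb'), ha, hb]
    | smul n a ha' ha =>
      rw [hτ₁.2.1 a (hDS a ha').1, hS.isometry.2.1 a (hDS a ha'), ha]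
  intro α hα
  obtain ⟨k, w, hw, rfl⟩ := hgen α hα.1
  have h1 := hα.2 1 (by simp)
  rw [Pi.add_apply, Pi.smul_apply, (hDS w hw).2 1 (by simp), add_zero, zsmul_eq_mul] at h1
  have hk : k = 0 := by
    rcases mul_eq_zero.mp h1 with h2 | h2
    · exact_mod_cast h2
    · exact absurd h2 (cs_deg_ne hS h₀)
  rw [hk, zero_smul, zero_add]
  exact hagree w hw

end Cfsg.Agent.Lib.Lead.Coh
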