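import Mathlib
import Cfsg.Agent.Lib.Lead.Coh7

/-!
# Coherence systems: the extension criterion
-/

set_option autoImplicit false

namespace Cfsg.Agent.Lib.Lead.Coh

open Cfsg Cfsg.Agent.Lib.Helper2 Cfsg.Agent.Lib.Lead Cfsg.Agent.Lib.Lead.CycTI
open Cfsg.Agent.Lib.Helper23.IndTools
open scoped ComplexConjugate Classical

section bessel

variable {G : Type*} [Group G] [Fintype G]

theorem norm_sub_proj {R : Finset (G → ℂ)} (hR : ON R) (T : G → ℂ) :
    classInner (T - proj R T) (T - proj R T) =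
      classInner T T - ∑ α ∈ R, classInner T α * conj (classInner T α) := by
  have h1 : classInner T (proj R T) = ∑ α ∈ R, classInner T α * conj (classInner T α) :=
    inner_left_proj T T
  have h2 : classInner (proj R T) T = ∑ α ∈ R, classInner T α * conj (classInner T α) := by
    rw [← classInner_conj_symm, h1, map_sum]
    refine Finset.sum_congr rfl fun α _ => ?_
    rw [map_mul, Complex.conj_conj, mul_comm]
  rw [classInner_sub_left, classInner_sub_right, classInner_sub_right, h1, h2, norm_proj hR]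
  ring

theorem bessel_orth {ι : Type*} (s : Finset ι) (v : ι → G → ℂ) (N : ι → ℝ)
    (hN : ∀ i ∈ s, N i ≠ 0)
    (horth : ∀ i ∈ s, ∀ j ∈ s, classInner (v i) (v j) = if i = j then (N i : ℂ) else 0)
    (Y : G → ℂ) (c : ι → ℝ) (hc : ∀ i ∈ s, classInner Y (v i) = (c i : ℂ)) :
    ∑ i ∈ s, c i ^ 2 / N i ≤ (classInner Y Y).re := by
  set W : G → ℂ := ∑ i ∈ s, ((c i / N i : ℝ) : ℂ) • v i with hW
  have hYW : classInner Y W = ((∑ i ∈ s, c i ^ 2 / N i : ℝ) : ℂ) := by
    rw [hW, classInner_sum_right, Complex.ofReal_sum]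
    refine Finset.sum_congr rfl fun i hi => ?_
    rw [classInner_smul_right, hc i hi, Complex.conj_ofReal]
    push_cast
    ring
  have hWY : classInner W Y = ((∑ i ∈ s, c i ^ 2 / N i : ℝ) : ℂ) := by
    rw [← classInner_conj_symm, hYW, Complex.conj_ofReal]
  have hvW : ∀ i ∈ s, classInner (v i) W = (c i : ℂ) := by
    intro i hi
    rw [hW, classInner_sum_right, Finset.sum_eq_single i]
    · rw [classInner_smul_right, horth i hi i hi, if_pos rfl, Complex.conj_ofReal]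
      have : (N i : ℂ) ≠ 0 := by exact_mod_cast hN i hi
      push_cast
      field_simp
    · intro j hj hne
      rw [classInner_smul_right, horth i hi j hj, if_neg hne.symm, mul_zero]
    · intro h
      exact absurd hi h
  have hWW : classInner W W = ((∑ i ∈ s, c i ^ 2 / N i : ℝ) : ℂ) := by
    conv_lhs => rw [hW]
    rw [classInner_sum_left, Complex.ofReal_sum]
    refine Finset.sum_congr rfl fun i hi => ?_
    rw [classInner_smul_left, hvW i hi]
    push_cast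
    ring
  have h1 := inner_self_re_nonneg (Y - W)
  rw [classInner_sub_left, classInner_sub_right, classInner_sub_right, hYW, hWY, hWW] at h1
  simp only [Complex.sub_re, Complex.ofReal_re] at h1
  linarith

end bessel

variable {L : Type*} [Group L] [Fintype L] {G : Type*} [Group G] [Fintype G]
  {S : Set (L → ℂ)} {τ : (L → ℂ) → (G → ℂ)} {R : (L → ℂ) → Finset (G → ℂ)}

theorem zspanOn_add {A : Set L} {a b : L → ℂ} (ha : a ∈ zspanOn S A) (hb : b ∈ zspanOn S A) :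
    a + b ∈ zspanOn S A :=
  ⟨zspan_add ha.1 hb.1, fun x hx => by rw [Pi.add_apply, ha.2 x hx, hb.2 x hx, add_zero]⟩

theorem zspanOn_smul {A : Set L} {a : L → ℂ} (n : ℤ) (ha : a ∈ zspanOn S A) :
    n • a ∈ zspanOn S A :=
  ⟨zspan_smul n ha.1, fun x hx => by rw [Pi.smul_apply, ha.2 x hx, smul_zero]⟩

theorem ext_self {S₀ : Set (L → ℂ)} {τ₁ : (L → ℂ) → (G → ℂ)}
    (hτ₁ : IsLinearIsometryOn (zspan S₀) τ₁) {χ : L → ℂ} (Δ : G → ℂ)
    (hχ : classInner χ χ ≠ 0) (hS : ∀ ξ ∈ S₀, classInner ξ χ = 0) : ext τ₁ χ Δ χ = Δ := by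
  have h := ext_apply τ₁ Δ hχ hS 1 (zspan_zero (S := S₀))
  rwa [one_smul, one_smul, add_zero, tau_zero hτ₁ zspan_zero, add_zero] at h

theorem ext_of_mem {S₀ : Set (L → ℂ)} (τ₁ : (L → ℂ) → (G → ℂ)) {χ : L → ℂ} (Δ : G → ℂ)
    (hχ : classInner χ χ ≠ 0) (hS : ∀ ξ ∈ S₀, classInner ξ χ = 0) {z : L → ℂ}
    (hz : z ∈ zspan S₀) : ext τ₁ χ Δ z = τ₁ z := by
  have h := ext_apply τ₁ Δ hχ hS 0 hz
  rwa [zero_smul, zero_smul, zero_add, zero_add] at h

theorem coh_in_R (hS : IsCoherenceSystem S τ R) {S₁ : Set (L → ℂ)} (hS₁ : S₁ ⊆ S)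
    (hS₁c : ∀ φ ∈ S₁, Cfsg.conjFun φ ∈ S₁) {τ₁ : (L → ℂ) → (G → ℂ)}
    (hτ₁ : IsLinearIsometryOn (zspan S₁) τ₁)
    (hag : ∀ α ∈ zspanOn S₁ {1}ᶜ, τ₁ α = τ α) {φ : L → ℂ} (hφ : φ ∈ S₁) :
    τ₁ φ = proj (R φ) (τ₁ φ) := by
  have hφS := hS₁ hφ
  have hON := cs_ON hS hφS
  obtain ⟨n, hn0, hn⟩ := cs_norm_nat hS hφS
  have hm1 := mem_zspan hφ
  have hm2 := mem_zspan (hS₁c φ hφ)
  have hAB : τ₁ φ - τ₁ (Cfsg.conjFun φ) = ∑ α ∈ R φ, α := by
    rw [← tau_sub hτ₁ hm1 hm2, hag _ ⟨zspan_sub hm1 hm2, (cs_conj_diff_mem hS hφS).2⟩,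
      hS.sum_eq φ hφS]
  set A := τ₁ φ with hA
  set B := τ₁ (Cfsg.conjFun φ) with hB
  have hAg : IsGeneralizedCharacter G A := hτ₁.2.2.2 _ hm1
  have hBg : IsGeneralizedCharacter G B := hτ₁.2.2.2 _ hm2
  have hx : ∀ α ∈ R φ, ∃ m : ℤ, classInner A α = m := fun α hα =>
    genChar_inner_int hAg (hS.virtual φ hφS α hα)
  have hy : ∀ α ∈ R φ, ∃ m : ℤ, classInner B α = m := fun α hα =>
    genChar_inner_int hBg (hS.virtual φ hφS α hα)
  choose! x hx using hx
  choose! y hy using hy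
  have hxy : ∀ α ∈ R φ, x α = y α + 1 := by
    intro α hα
    have h1 : classInner (A - B) α = 1 := by
      rw [hAB, ← classInner_conj_symm, inner_sum_mem hON hα, map_one]
    rw [classInner_sub_left, hx α hα, hy α hα] at h1
    have h2 : ((x α : ℤ) : ℂ) = ((y α + 1 : ℤ) : ℂ) := by
      push_cast
      linear_combination h1
    exact_mod_cast h2
  have hAA : classInner A A = n := by rw [hA, hτ₁.2.2.1 _ hm1 _ hm1, hn]
  have hBB : classInner B B = n := by rw [hB, hτ₁.2.2.1 _ hm2 _ hm2, cs_norm_conj hS hφS, hn]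
  have eA : classInner (A - proj (R φ) A) (A - proj (R φ) A) =
      (((n : ℤ) - ∑ α ∈ R φ, x α ^ 2 : ℤ) : ℂ) := by
    rw [norm_sub_proj hON, hAA]
    push_cast
    congr 1
    refine Finset.sum_congr rfl fun α hα => ?_
    rw [hx α hα, map_intCast]
    ring
  have eB : classInner (B - proj (R φ) B) (B - proj (R φ) B) =
      (((n : ℤ) - ∑ α ∈ R φ, y α ^ 2 : ℤ) : ℂ) := by
    rw [norm_sub_proj hON, hBB]
    push_cast
    congr 1
    refine Finset.sum_congr rfl fun α hα => ?_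
    rw [hy α hα, map_intCast]
    ring
  have nA : 0 ≤ (n : ℤ) - ∑ α ∈ R φ, x α ^ 2 := by
    have h1 := inner_self_re_nonneg (A - proj (R φ) A)
    rw [eA, Complex.intCast_re] at h1
    exact_mod_cast h1
  have nB : 0 ≤ (n : ℤ) - ∑ α ∈ R φ, y α ^ 2 := by
    have h1 := inner_self_re_nonneg (B - proj (R φ) B)
    rw [eB, Complex.intCast_re] at h1
    exact_mod_cast h1
  have hcard : ((R φ).card : ℤ) = 2 * n := by
    have := cs_card hS hφS
    rw [hn] at this
    exact_mod_cast this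
  have hge : ((R φ).card : ℤ) ≤ ∑ α ∈ R φ, (x α ^ 2 + y α ^ 2) := by
    have h1 : ∑ α ∈ R φ, (1 : ℤ) ≤ ∑ α ∈ R φ, (x α ^ 2 + y α ^ 2) := by
      apply Finset.sum_le_sum
      intro α hα
      rw [hxy α hα]
      nlinarith [int_sq_ge' (y α)]
    simpa using h1
  rw [Finset.sum_add_distrib] at hge
  have hz : (n : ℤ) - ∑ α ∈ R φ, x α ^ 2 = 0 := by omega
  rw [hz, Int.cast_zero] at eA
  exact sub_eq_zero.mp (inner_self_eq_zero eA)

end Cfsg.Agent.Lib.Lead.Coh
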