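import Mathlib
import Cfsg.Agent.Lib.Lead.Coh8

/-!
# Coherence systems: the extension criterion (main theorem)
-/

set_option autoImplicit false

namespace Cfsg.Agent.Lib.Lead.Coh

open Cfsg Cfsg.Agent.Lib.Helper2 Cfsg.Agent.Lib.Lead Cfsg.Agent.Lib.Lead.CycTI
open Cfsg.Agent.Lib.Helper23.IndTools
open scoped ComplexConjugate Classical

variable {L : Type*} [Group L] [Fintype L] {G : Type*} [Group G] [Fintype G]
  {S : Set (L → ℂ)} {τ : (L → ℂ) → (G → ℂ)} {R : (L → ℂ) → Finset (G → ℂ)}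

theorem ext_arith {a : ℕ} {m : ℤ} {d₁ D : ℝ} (hd₁ : 0 < d₁) (hD : 2 * a * d₁ ^ 2 < D)
    (h : (m : ℝ) ^ 2 / d₁ ^ 2 * D ≤ 2 * a * m) : m = 0 := by
  by_contra hm
  have hm2 : (0 : ℝ) < (m : ℝ) ^ 2 := by
    have : (m : ℝ) ≠ 0 := by exact_mod_cast hm
    positivity
  have hmm : (m : ℝ) ≤ (m : ℝ) ^ 2 := by exact_mod_cast int_sq_ge m
  have h1 : (m : ℝ) ^ 2 / d₁ ^ 2 * (2 * a * d₁ ^ 2) < (m : ℝ) ^ 2 / d₁ ^ 2 * D :=
    mul_lt_mul_of_pos_left hD (by positivity)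
  have h2 : (m : ℝ) ^ 2 / d₁ ^ 2 * (2 * a * d₁ ^ 2) = 2 * a * (m : ℝ) ^ 2 := by
    field_simp
  have h3 : (0 : ℝ) ≤ a := Nat.cast_nonneg a
  nlinarith

theorem extension_criterion (hS : IsCoherenceSystem S τ R) (d n : (L → ℂ) → ℕ)
    (hd : ∀ φ ∈ S, φ 1 = (d φ : ℂ)) (hn : ∀ φ ∈ S, classInner φ φ = (n φ : ℂ))
    (S₁ : Finset (L → ℂ)) (hS₁ : ↑S₁ ⊆ S) (hS₁c : ∀ φ ∈ S₁, Cfsg.conjFun φ ∈ S₁)
    (hcoh : IsCoherent (↑S₁ : Set (L → ℂ)) {1}ᶜ τ) (χ : L → ℂ) (hχ : χ ∈ S) (hχ₁ : χ ∉ S₁)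
    (hχ₂ : Cfsg.conjFun χ ∉ S₁) (χ₁ : L → ℂ) (hχ₁S : χ₁ ∈ S₁) (hdvd : d χ₁ ∣ d χ)
    (hineq : (2 * d χ * d χ₁ : ℝ) < ∑ φ ∈ S₁, ((d φ : ℝ) ^ 2 / (n φ : ℝ))) :
    IsCoherent (↑S₁ ∪ {χ, Cfsg.conjFun χ} : Set (L → ℂ)) {1}ᶜ τ := by
  obtain ⟨⟨α₀, hα₀, hα₀ne⟩, τ₁, hτ₁, hagree⟩ := hcoh
  obtain ⟨a, ha⟩ := hdvd
  have hmem₁ : ∀ ξ ∈ S₁, ξ ∈ zspan (↑S₁ : Set (L → ℂ)) :=
    fun ξ h => mem_zspan (Finset.mem_coe.mpr h)
  have hSS : ∀ ξ ∈ S₁, ξ ∈ S := fun ξ h => hS₁ (Finset.mem_coe.mpr h)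
  have h1S := hSS χ₁ hχ₁S
  have hcS := hS.conj_mem χ hχ
  have hd₁pos : 0 < d χ₁ := by
    have h := cs_deg_ne hS h1S
    rw [hd _ h1S] at h
    exact Nat.pos_of_ne_zero (by exact_mod_cast h)
  have hnpos : ∀ φ ∈ S, 0 < n φ := by
    intro φ hφ
    obtain ⟨k, hk0, hk⟩ := cs_norm_nat hS hφ
    rw [hn φ hφ] at hk
    have : n φ = k := by exact_mod_cast hk
    omega
  have hne1 : ∀ ξ ∈ S₁, ξ ≠ χ := by
    intro ξ hξ e
    rw [e] at hξ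
    exact hχ₁ hξ
  have hne2 : ∀ ξ ∈ S₁, ξ ≠ Cfsg.conjFun χ := by
    intro ξ hξ e
    rw [e] at hξ
    exact hχ₂ hξ
  have hξχ : ∀ ξ ∈ S₁, classInner ξ χ = 0 := fun ξ hξ =>
    hS.orthogonal ξ (hSS ξ hξ) χ hχ (hne1 ξ hξ)
  have hχξ : ∀ ξ ∈ S₁, classInner χ ξ = 0 := fun ξ hξ => inner_symm_zero (hξχ ξ hξ)
  have hξc : ∀ ξ ∈ S₁, classInner ξ (Cfsg.conjFun χ) = 0 := fun ξ hξ =>
    hS.orthogonal ξ (hSS ξ hξ) _ hcS (hne2 ξ hξ)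
  have hξξ : ∀ ξ ∈ S₁, ∀ ξ' ∈ S₁, classInner ξ ξ' = if ξ = ξ' then (n ξ : ℂ) else 0 := by
    intro ξ hξ ξ' hξ'
    by_cases e : ξ = ξ'
    · rw [if_pos e, ← e, hn ξ (hSS ξ hξ)]
    · rw [if_neg e, hS.orthogonal ξ (hSS ξ hξ) ξ' (hSS ξ' hξ') e]
  have hinR : ∀ ξ ∈ S₁, τ₁ ξ = proj (R ξ) (τ₁ ξ) := fun ξ hξ =>
    coh_in_R hS hS₁ (fun φ hφ => Finset.mem_coe.mpr (hS₁c φ (Finset.mem_coe.mp hφ))) hτ₁ hagree
      (Finset.mem_coe.mpr hξ)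
  have hperp : ∀ ξ ∈ S₁, ∀ α ∈ R χ, classInner (τ₁ ξ) α = 0 := by
    intro ξ hξ α hα
    rw [hinR ξ hξ]
    apply inner_proj_of_orth
    intro β hβ
    exact cs_R_orth hS hχ (hSS ξ hξ) (hne1 ξ hξ) (hne2 ξ hξ) β hβ α hα
  have hON := cs_ON hS hχ
  -- β
  have hβ : χ - (a : ℤ) • χ₁ ∈ zspanOn S {1}ᶜ := by
    refine ⟨zspan_sub (mem_zspan hχ) (zspan_smul _ (mem_zspan h1S)), hvan _ ?_⟩
    rw [Pi.sub_apply, Pi.smul_apply, hd χ hχ, hd χ₁ h1S, ha, zsmul_eq_mul]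
    push_cast
    ring
  set T := τ (χ - (a : ℤ) • χ₁) with hT
  have hTg : IsGeneralizedCharacter G T := hS.isometry.2.2.2 _ hβ
  have hTT : classInner T T = (n χ : ℂ) + (a : ℂ) ^ 2 * n χ₁ := by
    rw [hT, hS.isometry.2.2.1 _ hβ _ hβ, zsmul_eq, classInner_sub_left, classInner_sub_right,
      classInner_sub_right, classInner_smul_left, classInner_smul_right, classInner_smul_right,
      classInner_smul_left, hn χ hχ, hχξ χ₁ hχ₁S, hξχ χ₁ hχ₁S, hn χ₁ h1S]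
    simp
    ring
  have hcex : ∀ ξ ∈ S₁, ∃ c : ℤ, classInner T (τ₁ ξ) = c := fun ξ hξ =>
    genChar_inner_int hTg (hτ₁.2.2.2 _ (hmem₁ ξ hξ))
  choose! c hc using hcex
  -- γ
  have hγ : ∀ ξ ∈ S₁, (d χ₁ : ℤ) • ξ - (d ξ : ℤ) • χ₁ ∈ zspanOn (↑S₁ : Set (L → ℂ)) {1}ᶜ := by
    intro ξ hξ
    refine ⟨zspan_sub (zspan_smul _ (hmem₁ ξ hξ)) (zspan_smul _ (hmem₁ χ₁ hχ₁S)), hvan _ ?_⟩
    rw [Pi.sub_apply, Pi.smul_apply, Pi.smul_apply, hd ξ (hSS ξ hξ), hd χ₁ h1S, zsmul_eq_mul,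
      zsmul_eq_mul]
    push_cast
    ring
  have hτγ : ∀ ξ ∈ S₁, τ ((d χ₁ : ℤ) • ξ - (d ξ : ℤ) • χ₁) =
      (d χ₁ : ℤ) • τ₁ ξ - (d ξ : ℤ) • τ₁ χ₁ := by
    intro ξ hξ
    rw [← hagree _ (hγ ξ hξ), tau_sub hτ₁ (zspan_smul _ (hmem₁ ξ hξ))
      (zspan_smul _ (hmem₁ χ₁ hχ₁S)), hτ₁.2.1 _ (hmem₁ ξ hξ), hτ₁.2.1 _ (hmem₁ χ₁ hχ₁S)]
  have hrel : ∀ ξ ∈ S₁, (d χ₁ : ℤ) * c ξ =
      d ξ * (c χ₁ + a * n χ₁) - a * d χ₁ * n χ₁ * (if ξ = χ₁ then 1 else 0) := by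
    intro ξ hξ
    have h1 := hS.isometry.2.2.1 _ hβ _ (zspanOn_mono hS₁ _ (hγ ξ hξ))
    rw [← hT, hτγ ξ hξ] at h1
    simp only [zsmul_eq] at h1
    rw [classInner_sub_right, classInner_smul_right, classInner_smul_right, hc ξ hξ, hc χ₁ hχ₁S,
      classInner_sub_left, classInner_sub_right, classInner_sub_right, classInner_smul_right,
      classInner_smul_right, classInner_smul_left, classInner_smul_left, classInner_smul_right,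
      classInner_smul_right, hχξ ξ hξ, hχξ χ₁ hχ₁S, hξξ χ₁ hχ₁S ξ hξ, hξξ χ₁ hχ₁S χ₁ hχ₁S,
      if_pos rfl] at h1
    simp only [map_intCast] at h1
    by_cases e : ξ = χ₁
    · rw [if_pos e]
      rw [if_pos e.symm] at h1
      have h2 : ((d χ₁ : ℤ) : ℂ) * c ξ = ((d ξ : ℤ) : ℂ) * (c χ₁ + (a : ℤ) * (n χ₁ : ℤ)) -
          ((a : ℤ) : ℂ) * ((d χ₁ : ℤ) : ℂ) * (n χ₁ : ℤ) * 1 := by
        push_cast
        push_cast at h1
        linear_combination h1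
      exact_mod_cast h2
    · rw [if_neg e]
      rw [if_neg (fun e' => e e'.symm)] at h1
      have h2 : ((d χ₁ : ℤ) : ℂ) * c ξ = ((d ξ : ℤ) : ℂ) * (c χ₁ + (a : ℤ) * (n χ₁ : ℤ)) -
          ((a : ℤ) : ℂ) * ((d χ₁ : ℤ) : ℂ) * (n χ₁ : ℤ) * 0 := by
        push_cast
        push_cast at h1
        linear_combination h1
      exact_mod_cast h2
  set m : ℤ := c χ₁ + a * n χ₁ with hm
  -- t
  have htex : ∀ α ∈ R χ, ∃ t : ℤ, classInner T α = t := fun α hα =>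
    genChar_inner_int hTg (hS.virtual χ hχ α hα)
  choose! t ht using htex
  have hst : ∑ α ∈ R χ, classInner T α = n χ := by
    rw [cs_sum_inner hS hχ, hT, hS.isometry.2.2.1 _ hβ _ (cs_conj_diff_mem hS hχ), zsmul_eq,
      classInner_sub_left, classInner_sub_right, classInner_sub_right, classInner_smul_left,
      classInner_smul_left, cs_orth_conj hS hχ, hξχ χ₁ hχ₁S, hξc χ₁ hχ₁S, hn χ hχ]
    ring
  have hstZ : ∑ α ∈ R χ, t α = n χ := by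
    have : ((∑ α ∈ R χ, t α : ℤ) : ℂ) = ((n χ : ℤ) : ℂ) := by
      push_cast
      rw [← hst]
      exact Finset.sum_congr rfl fun α hα => (ht α hα).symm
    exact_mod_cast this
  have hsq : ∑ α ∈ R χ, classInner T α * conj (classInner T α) =
      ((∑ α ∈ R χ, t α ^ 2 : ℤ) : ℂ) := by
    push_cast
    refine Finset.sum_congr rfl fun α hα => ?_
    rw [ht α hα, map_intCast]
    ring
  set X := proj (R χ) T with hX
  have hXX : classInner X X = ((∑ α ∈ R χ, t α ^ 2 : ℤ) : ℂ) := by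
    rw [hX, norm_proj hON, hsq]
  have hYY : classInner (T - X) (T - X) =
      (n χ : ℂ) + (a : ℂ) ^ 2 * n χ₁ - ((∑ α ∈ R χ, t α ^ 2 : ℤ) : ℂ) := by
    rw [hX, norm_sub_proj hON, hTT, hsq]
  have hXξ : ∀ ξ ∈ S₁, classInner X (τ₁ ξ) = 0 := by
    intro ξ hξ
    rw [hX]
    exact inner_proj_of_orth T fun α hα => inner_symm_zero (hperp ξ hξ α hα)
  have hYξ : ∀ ξ ∈ S₁, classInner (T - X) (τ₁ ξ) = (((c ξ : ℤ) : ℝ) : ℂ) := by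
    intro ξ hξ
    rw [classInner_sub_left, hXξ ξ hξ, sub_zero, hc ξ hξ]
    push_cast
    rfl
  have hbes := bessel_orth S₁ (fun ξ => τ₁ ξ) (fun ξ => (n ξ : ℝ))
    (fun ξ hξ => by
      have := hnpos ξ (hSS ξ hξ)
      positivity)
    (fun ξ hξ ξ' hξ' => by
      rw [hτ₁.2.2.1 _ (hmem₁ ξ hξ) _ (hmem₁ ξ' hξ'), hξξ ξ hξ ξ' hξ']
      push_cast
      rfl) (T - X) (fun ξ => ((c ξ : ℤ) : ℝ)) hYξ
  have hYYre : (classInner (T - X) (T - X)).re =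
      (n χ : ℝ) + (a : ℝ) ^ 2 * n χ₁ - ((∑ α ∈ R χ, t α ^ 2 : ℤ) : ℝ) := by
    rw [hYY]
    have : (n χ : ℂ) + (a : ℂ) ^ 2 * n χ₁ - ((∑ α ∈ R χ, t α ^ 2 : ℤ) : ℂ) =
        (((n χ : ℝ) + (a : ℝ) ^ 2 * n χ₁ - ((∑ α ∈ R χ, t α ^ 2 : ℤ) : ℝ) : ℝ) : ℂ) := by
      push_cast
      rfl
    rw [this, Complex.ofReal_re]
  rw [hYYre] at hbes
  have hd₁R : (0 : ℝ) < d χ₁ := by exact_mod_cast hd₁pos
  have hsum : ∑ ξ ∈ S₁, ((c ξ : ℤ) : ℝ) ^ 2 / (n ξ : ℝ) =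
      (m : ℝ) ^ 2 / (d χ₁ : ℝ) ^ 2 * ∑ φ ∈ S₁, ((d φ : ℝ) ^ 2 / (n φ : ℝ)) - 2 * a * m +
        (a : ℝ) ^ 2 * n χ₁ := by
    have h1 : ∀ ξ ∈ S₁, ((c ξ : ℤ) : ℝ) ^ 2 / (n ξ : ℝ) =
        (m : ℝ) ^ 2 / (d χ₁ : ℝ) ^ 2 * ((d ξ : ℝ) ^ 2 / (n ξ : ℝ)) +
        (if ξ = χ₁ then (-2 * a * m + (a : ℝ) ^ 2 * n χ₁) else 0) := by
      intro ξ hξ
      have h2 := hrel ξ hξ
      have hnR : (0 : ℝ) < n ξ := by exact_mod_cast hnpos ξ (hSS ξ hξ)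
      by_cases e : ξ = χ₁
      · rw [if_pos e] at h2 ⊢
        have h3 : ((d χ₁ : ℝ)) * (c ξ : ℝ) = (d ξ : ℝ) * (m : ℝ) - a * d χ₁ * n χ₁ * 1 := by
          exact_mod_cast h2
        rw [e] at h3 hnR ⊢
        have h4 : (c χ₁ : ℝ) = m - a * n χ₁ := by
          have : (d χ₁ : ℝ) * (c χ₁ : ℝ) = (d χ₁ : ℝ) * (m - a * n χ₁) := by
            linear_combination h3
          exact mul_left_cancel₀ hd₁R.ne' this
        rw [h4]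
        field_simp
        ring
      · rw [if_neg e] at h2 ⊢
        have h3 : ((d χ₁ : ℝ)) * (c ξ : ℝ) = (d ξ : ℝ) * (m : ℝ) - a * d χ₁ * n χ₁ * 0 := by
          exact_mod_cast h2
        have h4 : (c ξ : ℝ) = d ξ * m / d χ₁ := by
          field_simp
          linear_combination h3
        rw [h4]
        field_simp
        ring
    rw [Finset.sum_congr rfl h1, Finset.sum_add_distrib, ← Finset.mul_sum, Finset.sum_ite_eq',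
      if_pos hχ₁S]
    ring
  have hle : ∑ α ∈ R χ, t α ≤ ∑ α ∈ R χ, t α ^ 2 := Finset.sum_le_sum fun α _ => int_sq_ge _
  rw [hstZ] at hle
  have hleR : (n χ : ℝ) ≤ ((∑ α ∈ R χ, t α ^ 2 : ℤ) : ℝ) := by exact_mod_cast hle
  rw [hsum] at hbes
  have hm0 : m = 0 := by
    apply ext_arith (a := a) hd₁R (D := ∑ φ ∈ S₁, ((d φ : ℝ) ^ 2 / (n φ : ℝ)))
    · rw [ha] at hineq
      push_cast at hineq
      linarith
    · linarith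
  rw [hm0] at hbes
  have hsqZ : ∑ α ∈ R χ, t α ^ 2 = n χ := by
    have h1 : ((∑ α ∈ R χ, t α ^ 2 : ℤ) : ℝ) ≤ (n χ : ℝ) := by
      simp only [Int.cast_zero] at hbes
      have h0 : (0 : ℝ) ^ 2 / (d χ₁ : ℝ) ^ 2 * ∑ φ ∈ S₁, ((d φ : ℝ) ^ 2 / (n φ : ℝ)) = 0 := by
        rw [zero_pow two_ne_zero, zero_div, zero_mul]
      rw [h0] at hbes
      linarith
    have h2 : ∑ α ∈ R χ, t α ^ 2 ≤ (n χ : ℤ) := by exact_mod_cast h1
    omega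
  have hc₁ : c χ₁ = -(a * n χ₁ : ℤ) := by
    rw [hm0] at hm
    linarith
  rw [hsqZ] at hXX hYY
  have hXXn : classInner X X = classInner χ χ := by
    rw [hXX, hn χ hχ]
    push_cast
    rfl
  have hYc : classInner (T - X) (τ₁ χ₁) = -((a : ℂ) * n χ₁) := by
    rw [classInner_sub_left, hXξ χ₁ hχ₁S, sub_zero, hc χ₁ hχ₁S, hc₁]
    push_cast
    rfl
  have hcY : classInner (τ₁ χ₁) (T - X) = -((a : ℂ) * n χ₁) := by
    rw [← classInner_conj_symm, hYc]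
    simp
  have hZ : classInner (T - X + (a : ℂ) • τ₁ χ₁) (T - X + (a : ℂ) • τ₁ χ₁) = 0 := by
    rw [classInner_add_left, classInner_add_right, classInner_add_right, classInner_smul_left,
      classInner_smul_left, classInner_smul_right, classInner_smul_right, hYY, hYc, hcY,
      hτ₁.2.2.1 _ (hmem₁ χ₁ hχ₁S) _ (hmem₁ χ₁ hχ₁S), hn χ₁ h1S]
    simp
    ring
  have hTX : T = X - (a : ℤ) • τ₁ χ₁ := by
    have h1 := inner_self_eq_zero hZ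
    rw [zsmul_eq]
    push_cast
    have h2 : T - X + (a : ℂ) • τ₁ χ₁ = T - (X - (a : ℂ) • τ₁ χ₁) := by abel
    rw [h2] at h1
    exact sub_eq_zero.mp h1
  have hXg : IsGeneralizedCharacter G X := by
    rw [hX]
    apply genChar_sum
    intro α hα
    rw [ht α hα]
    exact genChar_zsmul _ (hS.virtual χ hχ α hα)
  set Sg := τ (χ - Cfsg.conjFun χ) with hSgd
  have hSe : Sg = ∑ α ∈ R χ, α := hS.sum_eq χ hχ
  have hSgg : IsGeneralizedCharacter G Sg := hS.isometry.2.2.2 _ (cs_conj_diff_mem hS hχ)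
  have hXSg : classInner X Sg = n χ := by
    rw [hSe, classInner_sum_right, ← hst]
    exact Finset.sum_congr rfl fun α hα => inner_proj_mem hON T hα
  have hSgX : classInner Sg X = n χ := by
    rw [← classInner_conj_symm, hXSg, map_natCast]
  have hSgSg : classInner Sg Sg = 2 * n χ := by
    rw [hSe, norm_sum hON subset_rfl, cs_card hS hχ, hn χ hχ]
  have hxSg : ∀ ξ ∈ S₁, classInner (τ₁ ξ) Sg = 0 := by
    intro ξ hξ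
    rw [hSe, classInner_sum_right]
    exact Finset.sum_eq_zero fun α hα => hperp ξ hξ α hα
  have hχne : classInner χ χ ≠ 0 := by
    rw [hn χ hχ]
    exact_mod_cast (hnpos χ hχ).ne'
  have hcne : classInner (Cfsg.conjFun χ) (Cfsg.conjFun χ) ≠ 0 := by
    rw [cs_norm_conj hS hχ]
    exact hχne
  have hS₁χ : ∀ ξ ∈ (↑S₁ : Set (L → ℂ)), classInner ξ χ = 0 := fun ξ hξ =>
    hξχ ξ (Finset.mem_coe.mp hξ)
  have hτ₂ := ext_isometry hτ₁ hχne hS₁χ hXg hXXn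
    (fun ξ hξ => inner_symm_zero (hXξ ξ (Finset.mem_coe.mp hξ)))
  set τ₂ := ext τ₁ χ X with hτ₂d
  have hS₂c : ∀ ξ ∈ insert χ (↑S₁ : Set (L → ℂ)), classInner ξ (Cfsg.conjFun χ) = 0 := by
    intro ξ hξ
    rcases Set.mem_insert_iff.mp hξ with e | h
    · rw [e]
      exact cs_orth_conj hS hχ
    · exact hξc ξ (Finset.mem_coe.mp h)
  have hτ₃ := ext_isometry hτ₂ hcne hS₂c (genChar_sub hXg hSgg)
    (by
      rw [classInner_sub_left, classInner_sub_right, classInner_sub_right, hXXn, hXSg, hSgX, hSgSg,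
        cs_norm_conj hS hχ, hn χ hχ]
      ring)
    (by
      intro ξ hξ
      rcases Set.mem_insert_iff.mp hξ with e | h
      · rw [e, hτ₂d, ext_self hτ₁ X hχne hS₁χ, classInner_sub_right, hXXn, hXSg, hn χ hχ, sub_self]
      · rw [hτ₂d, ext_of_mem τ₁ X hχne hS₁χ (mem_zspan h), classInner_sub_right,
          inner_symm_zero (hXξ ξ (Finset.mem_coe.mp h)), hxSg ξ (Finset.mem_coe.mp h), sub_zero])
  have hset : (↑S₁ ∪ {χ, Cfsg.conjFun χ} : Set (L → ℂ)) =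
      insert (Cfsg.conjFun χ) (insert χ (↑S₁ : Set (L → ℂ))) := by
    ext ξ
    simp only [Set.mem_union, Set.mem_insert_iff, Set.mem_singleton_iff]
    tauto
  rw [hset]
  refine ⟨⟨α₀, zspanOn_mono (fun ξ hξ => Set.mem_insert_of_mem _ (Set.mem_insert_of_mem _ hξ)) _
    hα₀, hα₀ne⟩, _, hτ₃, ?_⟩
  intro β' hβ'
  obtain ⟨v, w, hw, rfl⟩ := mem_zspan_insert hβ'.1
  obtain ⟨u, z, hz, rfl⟩ := mem_zspan_insert hw
  rw [ext_apply τ₂ _ hcne hS₂c v hw, hτ₂d, ext_apply τ₁ X hχne hS₁χ u hz]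
  have h1 := hβ'.2 1 (by simp)
  simp only [Pi.add_apply, Pi.smul_apply] at h1
  rw [Cfsg.conjFun, hd χ hχ, map_natCast, ha] at h1
  simp only [zsmul_eq_mul] at h1
  have hz' : z + ((u + v) * a) • χ₁ ∈ zspanOn (↑S₁ : Set (L → ℂ)) {1}ᶜ := by
    refine ⟨zspan_add hz (zspan_smul _ (hmem₁ χ₁ hχ₁S)), hvan _ ?_⟩
    rw [Pi.add_apply, Pi.smul_apply, hd χ₁ h1S, zsmul_eq_mul]
    push_cast at h1 ⊢
    linear_combination h1
  have hdec : v • Cfsg.conjFun χ + (u • χ + z) = (z + ((u + v) * a) • χ₁) +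
      ((u + v) • (χ - (a : ℤ) • χ₁) + (-v) • (χ - Cfsg.conjFun χ)) := by
    module
  rw [hdec, hS.isometry.1 _ (zspanOn_mono hS₁ _ hz') _
    (zspanOn_add (zspanOn_smul _ hβ) (zspanOn_smul _ (cs_conj_diff_mem hS hχ))),
    hS.isometry.1 _ (zspanOn_smul _ hβ) _ (zspanOn_smul _ (cs_conj_diff_mem hS hχ)),
    hS.isometry.2.1 _ hβ, hS.isometry.2.1 _ (cs_conj_diff_mem hS hχ), ← hagree _ hz',
    hτ₁.1 _ hz _ (zspan_smul _ (hmem₁ χ₁ hχ₁S)), hτ₁.2.1 _ (hmem₁ χ₁ hχ₁S), ← hT, ← hSgd, hTX]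
  module

end Cfsg.Agent.Lib.Lead.Coh
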