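import Mathlib
import Cfsg.Agent.Lib.Lead.Coh9

/-!
# Sets of irreducible characters of one degree are coherent
-/

set_option autoImplicit false

namespace Cfsg.Agent.Lib.Lead.Coh

open Cfsg Cfsg.Agent.Lib.Helper2 Cfsg.Agent.Lib.Lead Cfsg.Agent.Lib.Lead.CycTI
open Cfsg.Agent.Lib.Helper23.IndTools
open scoped ComplexConjugate Classical

variable {L : Type*} [Group L] [Fintype L] {G : Type*} [Group G] [Fintype G]
  {S : Set (L → ℂ)} {τ : (L → ℂ) → (G → ℂ)}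

theorem coherent_of_F0 (horth : ∀ χ ∈ S, ∀ φ ∈ S, χ ≠ φ → classInner χ φ = 0)
    (hnorm : ∀ χ ∈ S, ∃ n : ℕ, 0 < n ∧ classInner χ χ = n)
    (hiso : IsLinearIsometryOn (zspanOn S {1}ᶜ) τ)
    (hdeg : ∀ φ ∈ S, ∀ ψ ∈ S, φ 1 = ψ 1) {χ₀ : L → ℂ} (h₀ : χ₀ ∈ S) (hdeg0 : χ₀ 1 ≠ 0)
    (hnz : ∃ α ∈ zspanOn S {1}ᶜ, α ≠ 0) {F₀ : G → ℂ} (hF₀g : IsGeneralizedCharacter G F₀)
    (hF₀n : classInner F₀ F₀ = classInner χ₀ χ₀)
    (hF₀ : ∀ ψ ∈ S, ψ ≠ χ₀ → classInner F₀ (τ (χ₀ - ψ)) = classInner χ₀ χ₀) :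
    IsCoherent S {1}ᶜ τ := by
  obtain ⟨n₀, hn₀pos, hn₀⟩ := hnorm χ₀ h₀
  have hτ0 : τ 0 = 0 := tau_zero hiso zspanOn_zero
  have hdm : ∀ χ ∈ S, χ₀ - χ ∈ zspanOn S {1}ᶜ := fun χ hχ => cs_diff_mem h₀ hχ (hdeg _ h₀ _ hχ)
  have hu : ∀ ψ ∈ S, classInner F₀ (τ (χ₀ - ψ)) = classInner χ₀ χ₀ - classInner χ₀ ψ := by
    intro ψ hψ
    by_cases e : ψ = χ₀
    · rw [e, sub_self, hτ0, classInner_zero_right, sub_self]
    · rw [hF₀ ψ hψ e, horth χ₀ h₀ ψ hψ (Ne.symm e), sub_zero]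
  have hf : ∀ χ ∈ S, ∀ φ ∈ S, classInner (F₀ - τ (χ₀ - χ)) (F₀ - τ (χ₀ - φ)) = classInner χ φ := by
    intro χ hχ φ hφ
    rw [classInner_sub_left, classInner_sub_right, classInner_sub_right, hF₀n, hu φ hφ,
      ← classInner_conj_symm F₀ (τ (χ₀ - χ)), hu χ hχ, hiso.2.2.1 _ (hdm χ hχ) _ (hdm φ hφ),
      classInner_sub_left, classInner_sub_right, classInner_sub_right, map_sub,
      classInner_conj_symm, classInner_conj_symm, hn₀]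
    ring
  obtain ⟨τ₁, hτ₁, hτ₁f⟩ := linExt horth (fun χ hχ => by
    obtain ⟨n, hn0, hn⟩ := hnorm χ hχ
    rw [hn]
    exact_mod_cast hn0.ne') (fun χ => F₀ - τ (χ₀ - χ)) hf
    (fun χ hχ => genChar_sub hF₀g (hiso.2.2.2 _ (hdm χ hχ)))
  refine ⟨hnz, τ₁, hτ₁, ?_⟩
  set D : Set (L → ℂ) := {δ | ∃ χ ∈ S, δ = χ₀ - χ} with hD
  have hDS : ∀ w ∈ zspan D, w ∈ zspanOn S {1}ᶜ := by
    intro w hw
    unfold zspan at hw
    induction hw using Submodule.span_induction with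
    | mem f hf =>
      obtain ⟨χ, hχ, rfl⟩ := hf
      exact hdm χ hχ
    | zero => exact zspanOn_zero
    | add a b _ _ ha hb => exact zspanOn_add ha hb
    | smul n a _ ha => exact zspanOn_smul n ha
  have hgen : ∀ α ∈ zspan S, ∃ k : ℤ, ∃ w ∈ zspan D, α = k • χ₀ + w := by
    intro α hα
    unfold zspan at hα
    induction hα using Submodule.span_induction with
    | mem f hf =>
      refine ⟨1, (-1 : ℤ) • (χ₀ - f), zspan_smul _ (mem_zspan ⟨f, hf, rfl⟩), ?_⟩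
      rw [one_smul, neg_smul, one_smul]
      abel
    | zero => exact ⟨0, 0, zspan_zero, by simp⟩
    | add a b _ _ ha hb =>
      obtain ⟨k, w, hw, rfl⟩ := ha
      obtain ⟨k', w', hw', rfl⟩ := hb
      refine ⟨k + k', w + w', zspan_add hw hw', ?_⟩
      rw [add_smul]
      abel
    | smul n a _ ha =>
      obtain ⟨k, w, hw, rfl⟩ := ha
      exact ⟨n * k, n • w, zspan_smul n hw, by rw [smul_add, mul_smul]⟩
  have hagree : ∀ w ∈ zspan D, τ₁ w = τ w := by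
    intro w hw
    unfold zspan at hw
    induction hw using Submodule.span_induction with
    | mem f hf =>
      obtain ⟨χ, hχ, rfl⟩ := hf
      rw [tau_sub hτ₁ (mem_zspan h₀) (mem_zspan hχ), hτ₁f χ₀ h₀, hτ₁f χ hχ, sub_self, hτ0]
      abel
    | zero => rw [hτ0, tau_zero hτ₁ zspan_zero]
    | add a b ha' hb' ha hb =>
      rw [hτ₁.1 a (hDS a ha').1 b (hDS b hb').1, hiso.1 a (hDS a ha') b (hDS b hb'), ha, hb]
    | smul n a ha' ha =>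
      rw [hτ₁.2.1 a (hDS a ha').1, hiso.2.1 a (hDS a ha'), ha]
  intro α hα
  obtain ⟨k, w, hw, rfl⟩ := hgen α hα.1
  have h1 := hα.2 1 (by simp)
  rw [Pi.add_apply, Pi.smul_apply, (hDS w hw).2 1 (by simp), add_zero, zsmul_eq_mul] at h1
  have hk : k = 0 := by
    rcases mul_eq_zero.mp h1 with h2 | h2
    · exact_mod_cast h2
    · exact absurd h2 hdeg0
  rw [hk, zero_smul, zero_add]
  exact hagree w hw

/-- a generalized character of norm two vanishing at `1` is a difference of two irreducibles -/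
theorem norm_two_deg_zero {θ : G → ℂ} (hθ : IsGeneralizedCharacter G θ)
    (h : classInner θ θ = 2) (h1 : θ 1 = 0) :
    ∃ a b, IsIrrCharacter G a ∧ IsIrrCharacter G b ∧ a ≠ b ∧ θ = a - b := by
  obtain ⟨α, β, hα, hβ, hαβ, rfl⟩ := genChar_norm_two hθ h
  obtain ⟨A, hA, hα'⟩ := hα.exists
  obtain ⟨B, hB, hβ'⟩ := hβ.exists
  obtain ⟨m, hm, hAm⟩ := irr_deg hA
  obtain ⟨n, hn, hBn⟩ := irr_deg hB
  have hpos : ((m : ℂ) + n) ≠ 0 := by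
    have : m + n ≠ 0 := by omega
    exact_mod_cast this
  rw [Pi.add_apply] at h1
  rcases hα' with e1 | e1 <;> rcases hβ' with e2 | e2 <;> rw [e1, e2] at h1 hαβ ⊢
  · exfalso
    rw [hAm, hBn] at h1
    exact hpos h1
  · refine ⟨A, B, hA, hB, ?_, by abel⟩
    intro e
    rw [← e, CycTI.inner_neg_right, classInner_irr hA hA, if_pos rfl] at hαβ
    norm_num at hαβ
  · refine ⟨B, A, hB, hA, ?_, by abel⟩
    intro e
    rw [← e, CycTI.inner_neg_left, classInner_irr hB hB, if_pos rfl] at hαβ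
    norm_num at hαβ
  · exfalso
    rw [Pi.neg_apply, Pi.neg_apply, hAm, hBn] at h1
    apply hpos
    linear_combination -h1

theorem pair_rel {a b a' b' : G → ℂ} (ha : IsIrrCharacter G a) (hb : IsIrrCharacter G b)
    (ha' : IsIrrCharacter G a') (hb' : IsIrrCharacter G b') (hab : a ≠ b) (hab' : a' ≠ b')
    (h : classInner (a - b) (a' - b') = 1) : (a = a' ∧ b ≠ b') ∨ (a ≠ a' ∧ b = b') := by
  rw [classInner_sub_left, classInner_sub_right, classInner_sub_right, classInner_irr ha ha',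
    classInner_irr ha hb', classInner_irr hb ha', classInner_irr hb hb'] at h
  by_cases e1 : a = a' <;> by_cases e2 : b = b'
  · exfalso
    subst e1 e2
    rw [if_pos rfl, if_pos rfl, if_neg hab, if_neg (Ne.symm hab)] at h
    norm_num at h
  · exact Or.inl ⟨e1, e2⟩
  · exact Or.inr ⟨e1, e2⟩
  · exfalso
    rw [if_neg e1, if_neg e2] at h
    by_cases e3 : a = b' <;> by_cases e4 : b = a'
    · rw [if_pos e3, if_pos e4] at h
      norm_num at h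
    · rw [if_pos e3, if_neg e4] at h
      norm_num at h
    · rw [if_neg e3, if_pos e4] at h
      norm_num at h
    · rw [if_neg e3, if_neg e4] at h
      norm_num at h

theorem uniform_irr_coherent (hirr : ∀ χ ∈ S, IsIrrCharacter L χ)
    (hdeg : ∀ φ ∈ S, ∀ ψ ∈ S, φ 1 = ψ 1) (htwo : ∃ χ ∈ S, ∃ ξ ∈ S, χ ≠ ξ)
    (hiso : IsLinearIsometryOn (zspanOn S {1}ᶜ) τ)
    (hτ1 : ∀ α ∈ zspanOn S {1}ᶜ, τ α 1 = 0) : IsCoherent S {1}ᶜ τ := by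
  obtain ⟨χ₀, h₀, ψ₁, hψ₁, hne₁⟩ := htwo
  have horth : ∀ χ ∈ S, ∀ φ ∈ S, χ ≠ φ → classInner χ φ = 0 := fun χ hχ φ hφ hne => by
    rw [classInner_irr (hirr χ hχ) (hirr φ hφ), if_neg hne]
  have hn1 : ∀ χ ∈ S, classInner χ χ = 1 := fun χ hχ => by
    rw [classInner_irr (hirr χ hχ) (hirr χ hχ), if_pos rfl]
  have hdm : ∀ χ ∈ S, χ₀ - χ ∈ zspanOn S {1}ᶜ := fun χ hχ => cs_diff_mem h₀ hχ (hdeg _ h₀ _ hχ)
  have hex : ∀ ψ ∈ S, ψ ≠ χ₀ → ∃ a b, IsIrrCharacter G a ∧ IsIrrCharacter G b ∧ a ≠ b ∧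
      τ (χ₀ - ψ) = a - b := by
    intro ψ hψ hne
    apply norm_two_deg_zero (hiso.2.2.2 _ (hdm ψ hψ)) _ (hτ1 _ (hdm ψ hψ))
    rw [hiso.2.2.1 _ (hdm ψ hψ) _ (hdm ψ hψ), classInner_sub_left, classInner_sub_right,
      classInner_sub_right, hn1 χ₀ h₀, hn1 ψ hψ, horth χ₀ h₀ ψ hψ (Ne.symm hne),
      horth ψ hψ χ₀ h₀ hne]
    norm_num
  choose! a b ha hb hab hT using hex
  have hrel : ∀ ψ ∈ S, ψ ≠ χ₀ → ∀ ψ' ∈ S, ψ' ≠ χ₀ → ψ ≠ ψ' →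
      (a ψ = a ψ' ∧ b ψ ≠ b ψ') ∨ (a ψ ≠ a ψ' ∧ b ψ = b ψ') := by
    intro ψ hψ hne ψ' hψ' hne' hd
    apply pair_rel (ha ψ hψ hne) (hb ψ hψ hne) (ha ψ' hψ' hne') (hb ψ' hψ' hne') (hab ψ hψ hne)
      (hab ψ' hψ' hne')
    rw [← hT ψ hψ hne, ← hT ψ' hψ' hne', hiso.2.2.1 _ (hdm ψ hψ) _ (hdm ψ' hψ'),
      classInner_sub_left, classInner_sub_right, classInner_sub_right, hn1 χ₀ h₀,
      horth χ₀ h₀ ψ' hψ' (Ne.symm hne'), horth ψ hψ χ₀ h₀ hne, horth ψ hψ ψ' hψ' hd]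
    norm_num
  have hnz : ∃ α ∈ zspanOn S {1}ᶜ, α ≠ 0 := ⟨χ₀ - ψ₁, hdm ψ₁ hψ₁, sub_ne_zero.mpr hne₁⟩
  have hnorm : ∀ χ ∈ S, ∃ n : ℕ, 0 < n ∧ classInner χ χ = n := fun χ hχ =>
    ⟨1, one_pos, by rw [hn1 χ hχ, Nat.cast_one]⟩
  have hd0 : χ₀ 1 ≠ 0 := Cfsg.Agent.Lib.Helper6.irr_one_ne_zero (hirr χ₀ h₀)
  by_cases hcase : ∃ φ₁ ∈ S, φ₁ ≠ χ₀ ∧ ∃ φ₂ ∈ S, φ₂ ≠ χ₀ ∧ φ₁ ≠ φ₂ ∧ a φ₁ = a φ₂
  · obtain ⟨φ₁, hφ₁, hn₁, φ₂, hφ₂, hn₂, h12, ha12⟩ := hcase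
    have hb12 : b φ₁ ≠ b φ₂ := by
      rcases hrel φ₁ hφ₁ hn₁ φ₂ hφ₂ hn₂ h12 with h | h
      · exact h.2
      · exact absurd ha12 h.1
    have hall : ∀ ψ ∈ S, ψ ≠ χ₀ → a ψ = a φ₁ := by
      intro ψ hψ hne
      by_cases e1 : ψ = φ₁
      · rw [e1]
      by_cases e2 : ψ = φ₂
      · rw [e2, ha12]
      by_contra hcon
      have h3 : b ψ = b φ₁ := by
        rcases hrel ψ hψ hne φ₁ hφ₁ hn₁ e1 with h | h
        · exact absurd h.1 hcon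
        · exact h.2
      have h4 : b ψ = b φ₂ := by
        rcases hrel ψ hψ hne φ₂ hφ₂ hn₂ e2 with h | h
        · exact absurd (h.1.trans ha12.symm) hcon
        · exact h.2
      exact hb12 (h3.symm.trans h4)
    have hA := ha φ₁ hφ₁ hn₁
    apply coherent_of_F0 horth hnorm hiso hdeg h₀ hd0 hnz
      (genChar_of_char (IsIrrCharacter.isCharacter hA))
    · rw [classInner_irr hA hA, if_pos rfl, hn1 χ₀ h₀]
    · intro ψ hψ hne
      rw [hT ψ hψ hne, ← hall ψ hψ hne, classInner_sub_right,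
        classInner_irr (ha ψ hψ hne) (ha ψ hψ hne), if_pos rfl,
        classInner_irr (ha ψ hψ hne) (hb ψ hψ hne), if_neg (hab ψ hψ hne), hn1 χ₀ h₀, sub_zero]
  · push Not at hcase
    have hn₁ : ψ₁ ≠ χ₀ := Ne.symm hne₁
    have hall : ∀ ψ ∈ S, ψ ≠ χ₀ → b ψ = b ψ₁ := by
      intro ψ hψ hne
      by_cases e1 : ψ = ψ₁
      · rw [e1]
      rcases hrel ψ hψ hne ψ₁ hψ₁ hn₁ e1 with h | h
      · exact absurd h.1 (hcase ψ hψ hne ψ₁ hψ₁ hn₁ e1)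
      · exact h.2
    have hB := hb ψ₁ hψ₁ hn₁
    apply coherent_of_F0 horth hnorm hiso hdeg h₀ hd0 hnz
      (genChar_neg (genChar_of_char (IsIrrCharacter.isCharacter hB)))
    · rw [CycTI.inner_neg_left, CycTI.inner_neg_right, neg_neg, classInner_irr hB hB, if_pos rfl,
        hn1 χ₀ h₀]
    · intro ψ hψ hne
      rw [hT ψ hψ hne, ← hall ψ hψ hne, CycTI.inner_neg_left, classInner_sub_right,
        classInner_irr (hb ψ hψ hne) (hb ψ hψ hne), if_pos rfl,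
        classInner_irr (hb ψ hψ hne) (ha ψ hψ hne), if_neg (Ne.symm (hab ψ hψ hne)), hn1 χ₀ h₀]
      ring

end Cfsg.Agent.Lib.Lead.Coh
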