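import Mathlib
import Cfsg.Agent.Lib.Lead.CycTIc
import Cfsg.Agent.Lib.Helper25.Twist
import Cfsg.Agent.Lib.Helper25.GaloisVal

/-!
# Galois action on the family attached to a self-normalising cyclic subgroup
-/

set_option autoImplicit false

namespace Cfsg.Agent.Lib.Lead.CycTI

open Cfsg Cfsg.Agent.Lib.Helper2 Cfsg.Agent.Lib.Helper25.Twist
open scoped ComplexConjugate Classical

theorem exists_coprime_lift {n d x : ℕ} (hn : n ≠ 0) (hd : d ∣ n) (hx : x.Coprime d) :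
    ∃ k : ℕ, k.Coprime n ∧ k ≡ x [MOD d] := by
  haveI : NeZero n := ⟨hn⟩
  obtain ⟨y, hy⟩ := ZMod.unitsMap_surjective hd (ZMod.unitOfCoprime x hx)
  refine ⟨(y : ZMod n).val, ZMod.val_coe_unit_coprime y, ?_⟩
  have h1 := congrArg Units.val hy
  rw [ZMod.unitsMap_def, Units.coe_map, ZMod.coe_unitOfCoprime] at h1
  rw [← ZMod.natCast_eq_natCast_iff, ← h1, ZMod.natCast_val]
  rfl

section identify

variable {X : Type*} [Group X] [Fintype X]

theorem identify {Ω : Type*} (χ : Ω → X → ℂ) (hs : ∀ ω, Sgn X (χ ω))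
    (ho : ∀ ω ω', ω ≠ ω' → classInner (χ ω) (χ ω') = 0) {A : X → ℂ} (hA : Sgn X A)
    {i j l i' l' : Ω} (h1 : i ≠ i') (h2 : i ≠ l') (h3 : l ≠ i') (h4 : l ≠ l')
    (hij : i ≠ j) (hlj : l ≠ j)
    (e : classInner A (χ i) + classInner A (χ j) - classInner A (χ l) = 1)
    (e' : classInner A (χ i') + classInner A (χ j) - classInner A (χ l') = 1) : A = χ j := by
  have uniq : ∀ ω ω', classInner A (χ ω) ≠ 0 → classInner A (χ ω') ≠ 0 → ω = ω' := by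
    intro ω ω' h h'
    by_contra hne
    have h0 := ho ω ω' hne
    rcases Sgn.cases hA (hs ω) with a | a | a
    · exact h a
    · rcases Sgn.cases hA (hs ω') with b | b | b
      · exact h' b
      · rw [a, b, hA.norm] at h0
        exact one_ne_zero h0
      · rw [a, b, inner_neg_right, hA.norm] at h0
        exact one_ne_zero (neg_eq_zero.mp h0)
    · rcases Sgn.cases hA (hs ω') with b | b | b
      · exact h' b
      · rw [a, b, inner_neg_left, hA.norm] at h0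
        exact one_ne_zero (neg_eq_zero.mp h0)
      · rw [a, b, inner_neg_right, inner_neg_left, neg_neg, hA.norm] at h0
        exact one_ne_zero h0
  by_cases hj : classInner A (χ j) = 0
  · exfalso
    rw [hj, add_zero] at e e'
    have c1 : classInner A (χ i) ≠ 0 ∨ classInner A (χ l) ≠ 0 := by
      by_contra hcon
      push Not at hcon
      rw [hcon.1, hcon.2, sub_zero] at e
      exact zero_ne_one e
    have c2 : classInner A (χ i') ≠ 0 ∨ classInner A (χ l') ≠ 0 := by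
      by_contra hcon
      push Not at hcon
      rw [hcon.1, hcon.2, sub_zero] at e'
      exact zero_ne_one e'
    rcases c1 with c1 | c1 <;> rcases c2 with c2 | c2
    · exact h1 (uniq _ _ c1 c2)
    · exact h2 (uniq _ _ c1 c2)
    · exact h3 (uniq _ _ c1 c2)
    · exact h4 (uniq _ _ c1 c2)
  · have hi : classInner A (χ i) = 0 := by
      by_contra hcon
      exact hij (uniq _ _ hcon hj)
    have hl : classInner A (χ l) = 0 := by
      by_contra hcon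
      exact hlj (uniq _ _ hcon hj)
    rw [hi, hl, zero_add, sub_zero] at e
    rcases Sgn.cases hA (hs j) with a | a | a
    · exact absurd a hj
    · exact a.symm
    · exfalso
      rw [a, inner_neg_right, hA.norm] at e
      norm_num at e

end identify

section tw

variable {G : Type*} [Group G]

theorem tw_neg (k : ℕ) (f : G → ℂ) : tw k (-f) = -tw k f := rfl
theorem tw_add (k : ℕ) (f g : G → ℂ) : tw k (f + g) = tw k f + tw k g := rfl
theorem tw_sub (k : ℕ) (f g : G → ℂ) : tw k (f - g) = tw k f - tw k g := rfl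

theorem Sgn.tw [Finite G] {k : ℕ} (hk : k.Coprime (Nat.card G)) {α : G → ℂ} (h : Sgn G α) :
    Sgn G (tw k α) := by
  rcases h with h | h
  · exact Or.inl (isIrr_tw hk h)
  · right
    rw [← tw_neg]
    exact isIrr_tw hk h

theorem tw_indFun_gen [Fintype G] (E : Subgroup G) (f : E → ℂ) {k : ℕ}
    (hk : k.Coprime (Nat.card G)) :
    tw k (indFun E f) = indFun E (tw k f) := by
  funext g
  unfold Cfsg.Agent.Lib.Helper25.Twist.tw indFun
  congr 1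
  apply Finset.sum_congr rfl
  intro x _
  have e1 : x⁻¹ * g ^ k * x = (x⁻¹ * g * x) ^ k := by
    have := conj_pow (a := x⁻¹) (b := g) (i := k)
    rw [inv_inv] at this
    exact this.symm
  rw [e1]
  by_cases hy : x⁻¹ * g * x ∈ E
  · rw [extendByZero_mem E _ hy, extendByZero_mem E _ (E.pow_mem hy k)]
    rfl
  · rw [extendByZero_not_mem E _ hy,
      extendByZero_not_mem E _ (fun h => hy ((pow_mem_iff E hk _).1 h))]

theorem hom_pow_inj {A : Type*} [Group A] [Finite A] {k : ℕ} (hk : k.Coprime (Nat.card A))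
    {φ φ' : A →* ℂˣ} (h : φ ^ k = φ' ^ k) : φ = φ' := by
  apply MonoidHom.ext
  intro w
  have h1 := DFunLike.congr_fun h w
  rw [MonoidHom.pow_apply, MonoidHom.pow_apply] at h1
  have h2 : (φ w / φ' w) ^ k = 1 := by rw [div_pow, h1, div_self']
  have h3 : (φ w / φ' w) ^ (Nat.card A) = 1 := by
    rw [div_pow, ← map_pow, ← map_pow, pow_card_eq_one', map_one, map_one, div_self']
  have h4 := pow_gcd_eq_one.mpr ⟨h2, h3⟩
  rw [Nat.Coprime.gcd_eq_one hk, pow_one] at h4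
  exact div_eq_one.mp h4

theorem hom_one_pow {A : Type*} [Group A] (k : ℕ) : (1 : A →* ℂˣ) ^ k = 1 := by
  ext w
  simp

theorem hom_mul_pow {A : Type*} [Group A] (φ ψ : A →* ℂˣ) (k : ℕ) :
    (φ * ψ) ^ k = φ ^ k * ψ ^ k := by
  apply MonoidHom.ext
  intro w
  rw [MonoidHom.pow_apply, MonoidHom.mul_apply, MonoidHom.mul_apply, MonoidHom.pow_apply,
    MonoidHom.pow_apply, mul_pow]

theorem hom_mul_comm {A : Type*} [Group A] (φ ψ : A →* ℂˣ) : φ * ψ = ψ * φ := by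
  apply MonoidHom.ext
  intro w
  rw [MonoidHom.mul_apply, MonoidHom.mul_apply, mul_comm]

variable {W₁ W₂ : Subgroup G}

theorem tw_al (φ ψ : ↥(W₁ ⊔ W₂) →* ℂˣ) (k : ℕ) : tw k (al φ ψ) = al (φ ^ k) (ψ ^ k) := by
  funext w
  simp only [tw_apply, al, map_pow, MonoidHom.pow_apply]

/-- the core identification, symmetric in the two factors -/
theorem core [Fintype G] (χ : (↥(W₁ ⊔ W₂) →* ℂˣ) → (G → ℂ))
    (hs : ∀ ω, Sgn G (χ ω))
    (ho1 : ∀ ω, classInner (χ ω) (χ ω) = 1)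
    (hne : ∀ ω ω', ω ≠ ω' → classInner (χ ω) (χ ω') = 0)
    (hodd : Odd (Nat.card ↥(W₁ ⊔ W₂)))
    {k : ℕ} (hk : k.Coprime (Nat.card G))
    (P Q : (↥(W₁ ⊔ W₂) →* ℂˣ) → Prop) (hP1 : P 1) (hQ1 : Q 1)
    (hPmul : ∀ φ φ', P φ → P φ' → P (φ * φ')) (hPpow : ∀ φ, P φ → P (φ ^ k))
    (hQpow : ∀ φ, Q φ → Q (φ ^ k))
    (hiff : ∀ φ φ' ψ ψ', P φ → P φ' → Q ψ → Q ψ' → (φ * ψ = φ' * ψ' ↔ φ = φ' ∧ ψ = ψ'))
    (hE : ∀ φ ψ, P φ → Q ψ → φ ≠ 1 → ψ ≠ 1 →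
      tw k (χ φ) + tw k (χ ψ) - tw k (χ (φ * ψ)) = χ (φ ^ k) + χ (ψ ^ k) - χ (φ ^ k * ψ ^ k))
    (hex : ∃ φ, P φ ∧ φ ≠ 1) : ∀ ψ, Q ψ → ψ ≠ 1 → tw k (χ ψ) = χ (ψ ^ k) := by
  intro ψ hψ hψ1
  obtain ⟨φ, hφ, hφ1⟩ := hex
  have hkW : k.Coprime (Nat.card ↥(W₁ ⊔ W₂)) :=
    hk.coprime_dvd_right (Subgroup.card_subgroup_dvd_card _)
  have hpow1 : ∀ η : ↥(W₁ ⊔ W₂) →* ℂˣ, η ≠ 1 → η ^ k ≠ 1 := by
    intro η hη h
    apply hη
    apply hom_pow_inj hkW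
    rw [h, hom_one_pow]
  -- the second character
  have hφφ : P (φ * φ) := hPmul φ φ hφ hφ
  have hφφ1 : φ * φ ≠ 1 := by
    intro h
    apply hφ1
    have h2 : (2 : ℕ).Coprime (Nat.card ↥(W₁ ⊔ W₂)) := by
      rw [Nat.coprime_two_left]
      exact hodd
    apply hom_pow_inj h2
    rw [hom_one_pow, ← h]
    apply MonoidHom.ext
    intro w
    rw [MonoidHom.pow_apply, MonoidHom.mul_apply, pow_two]
  have hφφne : φ ≠ φ * φ := by
    intro h
    have := (hiff φ (φ * φ) 1 1 hφ hφφ hQ1 hQ1).mp (by rw [hom_mul_one, hom_mul_one]; exact h)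
    apply hφ1
    apply MonoidHom.ext
    intro w
    have h3 := DFunLike.congr_fun h w
    rw [MonoidHom.mul_apply] at h3
    exact (mul_eq_left.mp h3.symm)
  -- generic inner product computation
  have hin : ∀ η, P η → η ≠ 1 →
      classInner (tw k (χ ψ)) (χ (η ^ k)) + classInner (tw k (χ ψ)) (χ (ψ ^ k)) -
        classInner (tw k (χ ψ)) (χ (η ^ k * ψ ^ k)) = 1 := by
    intro η hη hη1
    rw [← classInner_add_right, ← classInner_sub_right, ← hE η ψ hη hψ hη1 hψ1,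
      classInner_sub_right, classInner_add_right, classInner_tw hk, classInner_tw hk,
      classInner_tw hk, ho1, hne ψ η, hne ψ (η * ψ)]
    · ring
    · intro h
      have := (hiff 1 η ψ ψ hP1 hη hψ hψ).mp (by rw [hom_one_mul]; exact h)
      exact hη1 this.1.symm
    · intro h
      have := (hiff 1 η ψ 1 hP1 hη hψ hQ1).mp (by rw [hom_one_mul, hom_mul_one]; exact h)
      exact hη1 this.1.symm
  have hPk := hPpow φ hφ
  have hPk' := hPpow _ hφφ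
  have hQk := hQpow ψ hψ
  have hkne : φ ^ k ≠ (φ * φ) ^ k := fun h => hφφne (hom_pow_inj hkW h)
  refine identify χ hs hne (Sgn.tw hk (hs ψ)) (i := φ ^ k) (j := ψ ^ k) (l := φ ^ k * ψ ^ k)
    (i' := (φ * φ) ^ k) (l' := (φ * φ) ^ k * ψ ^ k) hkne ?_ ?_ ?_ ?_ ?_ (hin φ hφ hφ1)
    (hin _ hφφ hφφ1)
  · intro h
    have := (hiff _ _ 1 _ hPk hPk' hQ1 hQk).mp (by rw [hom_mul_one]; exact h)
    exact hkne this.1
  · intro h
    have := (hiff _ _ _ 1 hPk hPk' hQk hQ1).mp (by rw [hom_mul_one]; exact h)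
    exact hkne this.1
  · intro h
    exact hkne ((hiff _ _ _ _ hPk hPk' hQk hQk).mp h).1
  · intro h
    have := (hiff _ 1 1 _ hPk hP1 hQ1 hQk).mp (by rw [hom_mul_one, hom_one_mul]; exact h)
    exact hpow1 φ hφ1 this.1
  · intro h
    have := (hiff _ 1 _ _ hPk hP1 hQk hQk).mp (by rw [hom_one_mul]; exact h)
    exact hpow1 φ hφ1 this.1

theorem tw_family [Fintype G] (hW : IsSelfNormalizingCyclic W₁ W₂)
    (hodd : Odd (Nat.card ↥(W₁ ⊔ W₂))) (χ : (↥(W₁ ⊔ W₂) →* ℂˣ) → (G → ℂ))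
    (hχ : IsCyclicTIFamily W₁ W₂ χ) {k : ℕ} (hk : k.Coprime (Nat.card G))
    (ω : ↥(W₁ ⊔ W₂) →* ℂˣ) : tw k (χ ω) = χ (ω ^ k) := by
  have hcomm := hW.2.2.2.1
  have hdisj := hW.2.2.1
  have hWc := Cfsg.Agent.Lib.Lead.Glaub.comm_of_cyclic (W₁ ⊔ W₂) hW.2.2.2.2.1
  obtain ⟨ρ₁, ρ₂, hρ₁, hρ₂, hρ, hρW₁, hρW₂⟩ := exists_proj hdisj hcomm
  have hs : ∀ ω, Sgn G (χ ω) := hχ.irr_or_neg
  have ho1 : ∀ ω, classInner (χ ω) (χ ω) = 1 := fun ω => by rw [hχ.orthonormal, if_pos rfl]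
  have hne : ∀ ω ω', ω ≠ ω' → classInner (χ ω) (χ ω') = 0 := fun ω ω' h => by
    rw [hχ.orthonormal, if_neg h]
  have hkW : k.Coprime (Nat.card ↥(W₁ ⊔ W₂)) :=
    hk.coprime_dvd_right (Subgroup.card_subgroup_dvd_card _)
  have hpow1 : ∀ η : ↥(W₁ ⊔ W₂) →* ℂˣ, η ≠ 1 → η ^ k ≠ 1 := by
    intro η hη h
    apply hη
    apply hom_pow_inj hkW
    rw [h, hom_one_pow]
  have hind : ∀ φ ψ, T1 W₁ W₂ φ → T2 W₁ W₂ ψ → φ ≠ 1 → ψ ≠ 1 →
      indFun (W₁ ⊔ W₂) (al φ ψ) = χ 1 - χ φ - χ ψ + χ (φ * ψ) := by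
    intro φ ψ h1 h2 e1 e2
    have h3 := hχ.induced_eq φ ψ e1 e2 h1 h2
    change indFun (W₁ ⊔ W₂) (fun w => 1 - (φ w : ℂ) - (ψ w : ℂ) + (φ w : ℂ) * (ψ w : ℂ)) = _
    rw [h3, hχ.map_one]
    rfl
  have a4 : tw k (χ 1) = χ 1 := by
    rw [hχ.map_one]
    rfl
  have hE : ∀ φ ψ, T1 W₁ W₂ φ → T2 W₁ W₂ ψ → φ ≠ 1 → ψ ≠ 1 →
      tw k (χ φ) + tw k (χ ψ) - tw k (χ (φ * ψ)) = χ (φ ^ k) + χ (ψ ^ k) - χ (φ ^ k * ψ ^ k) := by
    intro φ ψ h1 h2 e1 e2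
    have a1 := hind φ ψ h1 h2 e1 e2
    have a2 := hind (φ ^ k) (ψ ^ k) (h1.pow k) (h2.pow k) (hpow1 φ e1) (hpow1 ψ e2)
    have a3 := tw_indFun_gen (W₁ ⊔ W₂) (al φ ψ) hk
    rw [tw_al, a1, a2, tw_add, tw_sub, tw_sub, a4] at a3
    calc tw k (χ φ) + tw k (χ ψ) - tw k (χ (φ * ψ))
        = χ 1 - (χ 1 - tw k (χ φ) - tw k (χ ψ) + tw k (χ (φ * ψ))) := by abel
      _ = χ 1 - (χ 1 - χ (φ ^ k) - χ (ψ ^ k) + χ (φ ^ k * ψ ^ k)) := by rw [a3]
      _ = _ := by abel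
  have hT1 : ∀ ω : ↥(W₁ ⊔ W₂) →* ℂˣ, T1 W₁ W₂ (ω.comp ρ₁) := by
    intro ω w hw
    rw [MonoidHom.comp_apply, (hρW₂ w hw).1, map_one]
  have hT2 : ∀ ω : ↥(W₁ ⊔ W₂) →* ℂˣ, T2 W₁ W₂ (ω.comp ρ₂) := by
    intro ω w hw
    rw [MonoidHom.comp_apply, (hρW₁ w hw).2, map_one]
  have hex1 : ∃ φ, T1 W₁ W₂ φ ∧ φ ≠ 1 := by
    obtain ⟨⟨a, ha⟩, ha0⟩ := Subgroup.ne_bot_iff_exists_ne_one.mp hW.1
    have ha1 : a ≠ 1 := fun h' => ha0 (Subtype.ext h')
    have hne1 : (⟨a, Subgroup.mem_sup_left ha⟩ : ↥(W₁ ⊔ W₂)) ≠ 1 := fun h =>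
      ha1 (congrArg Subtype.val h)
    obtain ⟨η, hη⟩ := Cfsg.Agent.Lib.Lead.Glaub.exists_hom_ne_one hWc hne1
    refine ⟨η.comp ρ₁, hT1 η, ?_⟩
    intro h
    apply hη
    have h2 := DFunLike.congr_fun h ⟨a, Subgroup.mem_sup_left ha⟩
    rw [MonoidHom.comp_apply, (hρW₁ _ ha).1] at h2
    exact h2
  have hex2 : ∃ φ, T2 W₁ W₂ φ ∧ φ ≠ 1 := by
    obtain ⟨⟨a, ha⟩, ha0⟩ := Subgroup.ne_bot_iff_exists_ne_one.mp hW.2.1
    have ha1 : a ≠ 1 := fun h' => ha0 (Subtype.ext h')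
    have hne1 : (⟨a, Subgroup.mem_sup_right ha⟩ : ↥(W₁ ⊔ W₂)) ≠ 1 := fun h =>
      ha1 (congrArg Subtype.val h)
    obtain ⟨η, hη⟩ := Cfsg.Agent.Lib.Lead.Glaub.exists_hom_ne_one hWc hne1
    refine ⟨η.comp ρ₂, hT2 η, ?_⟩
    intro h
    apply hη
    have h2 := DFunLike.congr_fun h ⟨a, Subgroup.mem_sup_right ha⟩
    rw [MonoidHom.comp_apply, (hρW₂ _ ha).2] at h2
    exact h2
  have c2 : ∀ ψ, T2 W₁ W₂ ψ → ψ ≠ 1 → tw k (χ ψ) = χ (ψ ^ k) :=
    core χ hs ho1 hne hodd hk (T1 W₁ W₂) (T2 W₁ W₂) T1.one T2.one (fun _ _ => T1.mul)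
      (fun _ h => h.pow k) (fun _ h => h.pow k)
      (fun φ φ' ψ ψ' a b c d => mul_eq_mul_iff hcomm a b c d) hE hex1
  have c1 : ∀ φ, T1 W₁ W₂ φ → φ ≠ 1 → tw k (χ φ) = χ (φ ^ k) := by
    refine core χ hs ho1 hne hodd hk (T2 W₁ W₂) (T1 W₁ W₂) T2.one T1.one (fun _ _ => T2.mul)
      (fun _ h => h.pow k) (fun _ h => h.pow k) ?_ ?_ hex2
    · intro ψ ψ' φ φ' a b c d
      rw [hom_mul_comm ψ φ, hom_mul_comm ψ' φ', mul_eq_mul_iff hcomm c d a b]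
      exact and_comm
    · intro ψ φ a b e1 e2
      rw [hom_mul_comm ψ φ, hom_mul_comm (ψ ^ k) (φ ^ k), add_comm (tw k (χ ψ)),
        add_comm (χ (ψ ^ k))]
      exact hE φ ψ b a e2 e1
  have hω : ω = ω.comp ρ₁ * ω.comp ρ₂ := by
    apply MonoidHom.ext
    intro w
    rw [MonoidHom.mul_apply, MonoidHom.comp_apply, MonoidHom.comp_apply, ← map_mul, ← hρ w]
  by_cases e1 : ω.comp ρ₁ = 1
  · by_cases e2 : ω.comp ρ₂ = 1
    · rw [hω, e1, e2, hom_one_mul, hom_one_pow]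
      exact a4
    · rw [hω, e1, hom_one_mul]
      exact c2 _ (hT2 ω) e2
  · by_cases e2 : ω.comp ρ₂ = 1
    · rw [hω, e2, hom_mul_one]
      exact c1 _ (hT1 ω) e1
    · have h1 := hE _ _ (hT1 ω) (hT2 ω) e1 e2
      rw [c1 _ (hT1 ω) e1, c2 _ (hT2 ω) e2] at h1
      have h2 : tw k (χ (ω.comp ρ₁ * ω.comp ρ₂)) = χ ((ω.comp ρ₁) ^ k * (ω.comp ρ₂) ^ k) :=
        sub_right_injective h1
      rw [← hom_mul_pow, ← hω] at h2
      exact h2

/-- values of `χ ω` at elements of order prime to the order of `ω` are integers -/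
theorem family_int [Fintype G] (hW : IsSelfNormalizingCyclic W₁ W₂)
    (hodd : Odd (Nat.card ↥(W₁ ⊔ W₂))) (χ : (↥(W₁ ⊔ W₂) →* ℂˣ) → (G → ℂ))
    (hχ : IsCyclicTIFamily W₁ W₂ χ) (ω : ↥(W₁ ⊔ W₂) →* ℂˣ) (a : ℕ) (ha : ω ^ a = 1)
    (haG : a ∣ Nat.card G) (g : G) (hg : Nat.Coprime (orderOf g) a) : ∃ n : ℤ, χ ω g = n := by
  have key : ∀ m : ℕ, m.Coprime (Nat.card G) → χ ω (g ^ m) = χ ω g := by
    intro m hm
    have hd : orderOf g * a ∣ Nat.card G :=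
      Nat.Coprime.mul_dvd_of_dvd_of_dvd hg (orderOf_dvd_natCard g) haG
    obtain ⟨k₀, hk₀⟩ := Nat.chineseRemainder hg m 1
    have hk₀c : k₀.Coprime (orderOf g * a) := by
      apply Nat.Coprime.mul_right
      · have h1 : m.Coprime (orderOf g) := hm.coprime_dvd_right (orderOf_dvd_natCard g)
        rw [Nat.Coprime, hk₀.1.gcd_eq]
        exact h1
      · rw [Nat.Coprime, hk₀.2.gcd_eq]
        exact Nat.gcd_one_left a
    obtain ⟨k, hk, hkk⟩ := exists_coprime_lift Nat.card_pos.ne' hd hk₀c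
    have h1 : k ≡ m [MOD orderOf g] := (hkk.of_mul_right a).trans hk₀.1
    have h2 : k ≡ 1 [MOD a] := (hkk.of_mul_left (orderOf g)).trans hk₀.2
    have h3 : g ^ m = g ^ k := (pow_eq_pow_iff_modEq.mpr h1).symm
    have h4 : ω ^ k = ω := by
      apply MonoidHom.ext
      intro w
      have h5 : (ω w) ^ a = 1 := by
        have := DFunLike.congr_fun ha w
        rwa [MonoidHom.pow_apply] at this
      rw [MonoidHom.pow_apply]
      have h6 : k ≡ 1 [MOD orderOf (ω w)] := h2.of_dvd (orderOf_dvd_of_pow_eq_one h5)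
      rw [pow_eq_pow_iff_modEq.mpr h6, pow_one]
    have h5 := congrFun (tw_family hW hodd χ hχ hk ω) g
    rw [tw_apply, h4] at h5
    rw [h3, h5]
  rcases hχ.irr_or_neg ω with h | h
  · obtain ⟨q, hq⟩ := Cfsg.Agent.Lib.Helper25.GaloisVal.rat_of_apply_pow
      (IsIrrCharacter.isCharacter h) g key
    have hint := Cfsg.Agent.Lib.Helper24.char_isIntegral (IsIrrCharacter.isCharacter h) g
    rw [hq] at hint
    obtain ⟨n, hn⟩ := Cfsg.Agent.Lib.Lead.Glaub.int_of_rat_integral hint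
    exact ⟨n, by rw [hq, hn]⟩
  · obtain ⟨q, hq⟩ := Cfsg.Agent.Lib.Helper25.GaloisVal.rat_of_apply_pow
      (IsIrrCharacter.isCharacter h) g (by
        intro m hm
        rw [Pi.neg_apply, Pi.neg_apply, key m hm])
    have hint := Cfsg.Agent.Lib.Helper24.char_isIntegral (IsIrrCharacter.isCharacter h) g
    rw [hq] at hint
    obtain ⟨n, hn⟩ := Cfsg.Agent.Lib.Lead.Glaub.int_of_rat_integral hint
    refine ⟨-n, ?_⟩
    rw [Pi.neg_apply] at hq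
    rw [Int.cast_neg, ← hn, ← hq, neg_neg]

end tw

end Cfsg.Agent.Lib.Lead.CycTI
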