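import Mathlib

/-!
# A counting lemma for matrices of the form `x i + y j`
-/

set_option autoImplicit false

namespace Cfsg.Agent.Lib.Lead.CycTI

open scoped Classical

variable {I J : Type*} [Fintype I] [Fintype J]

/-- number of nonzero entries in row `i` -/
noncomputable def rowCount (x : I → ℂ) (y : J → ℂ) (i : I) : ℕ :=
  (Finset.univ.filter (fun j : J => x i + y j ≠ 0)).card

theorem card_eq_sum_rowCount (x : I → ℂ) (y : J → ℂ) :
    (Finset.univ.filter (fun p : I × J => x p.1 + y p.2 ≠ 0)).card = ∑ i, rowCount x y i := by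
  simp only [rowCount, Finset.card_filter]
  rw [Fintype.sum_prod_type]

theorem sum_ge_of_row (R : I → ℕ) (i₂ : I) (h : ∀ i, i ≠ i₂ → 1 ≤ R i) :
    R i₂ + (Fintype.card I - 1) ≤ ∑ i, R i := by
  rw [← Finset.add_sum_erase Finset.univ R (Finset.mem_univ i₂)]
  apply Nat.add_le_add_left
  have h1 : (Finset.univ.erase i₂).card = Fintype.card I - 1 := by
    rw [Finset.card_erase_of_mem (Finset.mem_univ _), Finset.card_univ]
  rw [← h1]
  have h2 := Finset.card_nsmul_le_sum (Finset.univ.erase i₂) R 1 (by
    intro i hi
    exact h i (Finset.ne_of_mem_erase hi))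
  simpa using h2

theorem sum_ge_two (R : I → ℕ) {i₂ i₃ : I} (h : i₂ ≠ i₃) : R i₂ + R i₃ ≤ ∑ i, R i := by
  rw [← Finset.add_sum_erase Finset.univ R (Finset.mem_univ i₂)]
  apply Nat.add_le_add_left
  exact Finset.single_le_sum (f := R) (fun _ _ => Nat.zero_le _)
    (Finset.mem_erase.mpr ⟨h.symm, Finset.mem_univ _⟩)

theorem matrix_lemma (x : I → ℂ) (y : J → ℂ) (hIJ : Fintype.card I + 2 ≤ Fintype.card J)
    (hfew : (Finset.univ.filter (fun p : I × J => x p.1 + y p.2 ≠ 0)).card < 2 * Fintype.card I) :
    (∀ i j, x i + y j = 0) ∨ (∃ j₀ a, ∀ i j, x i + y j = if j = j₀ then a else 0) ∨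
      (∃ i₀ a, ∀ i j, x i + y j = if i = i₀ then a else 0) := by
  rw [card_eq_sum_rowCount] at hfew
  -- a row with at most one nonzero entry
  obtain ⟨i₁, hi₁⟩ : ∃ i₁, rowCount x y i₁ ≤ 1 := by
    by_contra hcon
    push Not at hcon
    have h2 := Finset.card_nsmul_le_sum Finset.univ (rowCount x y) 2 (fun i _ => hcon i)
    rw [Finset.card_univ, smul_eq_mul, mul_comm] at h2
    exact absurd hfew (not_lt.mpr h2)
  set c := x i₁ with hc
  have hfull : ∀ i, (∀ j, x i + y j ≠ 0) → rowCount x y i = Fintype.card J := by
    intro i h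
    rw [rowCount, Finset.filter_true_of_mem (fun j _ => h j), Finset.card_univ]
  rcases Nat.le_one_iff_eq_zero_or_eq_one.mp hi₁ with h0 | h1
  · -- Case A
    have hy : ∀ j, y j = -c := by
      intro j
      rw [rowCount, Finset.card_eq_zero, Finset.filter_eq_empty_iff] at h0
      have := h0 (Finset.mem_univ j)
      push Not at this
      linear_combination this
    by_cases hall : ∀ i, x i = c
    · left
      intro i j
      rw [hall i, hy j, add_neg_cancel]
    · push Not at hall
      obtain ⟨i₀, hi₀⟩ := hall
      right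
      right
      refine ⟨i₀, x i₀ - c, ?_⟩
      have huniq : ∀ i, i ≠ i₀ → x i = c := by
        intro i hne
        by_contra hxi
        have a1 := hfull i (by
          intro j
          rw [hy j]
          intro h
          exact hxi (by linear_combination h))
        have a2 := hfull i₀ (by
          intro j
          rw [hy j]
          intro h
          exact hi₀ (by linear_combination h))
        have a3 := sum_ge_two (rowCount x y) hne
        omega
      intro i j
      by_cases hi : i = i₀
      · rw [if_pos hi, hi, hy j]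
        ring
      · rw [if_neg hi, huniq i hi, hy j, add_neg_cancel]
  · -- Case B
    rw [rowCount, Finset.card_eq_one] at h1
    obtain ⟨j₀, hj₀⟩ := h1
    have hj₀ne : c + y j₀ ≠ 0 := by
      have : j₀ ∈ Finset.univ.filter (fun j : J => x i₁ + y j ≠ 0) := by
        rw [hj₀]
        exact Finset.mem_singleton_self _
      exact (Finset.mem_filter.mp this).2
    have hy : ∀ j, j ≠ j₀ → y j = -c := by
      intro j hj
      by_contra hcon
      have : j ∈ Finset.univ.filter (fun j : J => x i₁ + y j ≠ 0) := by
        rw [Finset.mem_filter]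
        refine ⟨Finset.mem_univ _, ?_⟩
        intro h
        exact hcon (by linear_combination h)
      rw [hj₀, Finset.mem_singleton] at this
      exact hj this
    have hJ2 : ∃ j₁ : J, j₁ ≠ j₀ := by
      have : 1 < Fintype.card J := by omega
      haveI : Nontrivial J := Fintype.one_lt_card_iff_nontrivial.mp this
      exact exists_ne j₀
    obtain ⟨j₁, hj₁⟩ := hJ2
    have hpos : ∀ i, 1 ≤ rowCount x y i := by
      intro i
      rw [rowCount, Nat.succ_le_iff, Finset.card_pos]
      by_cases hxi : x i = c
      · exact ⟨j₀, Finset.mem_filter.mpr ⟨Finset.mem_univ _, by rw [hxi]; exact hj₀ne⟩⟩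
      · refine ⟨j₁, Finset.mem_filter.mpr ⟨Finset.mem_univ _, ?_⟩⟩
        rw [hy j₁ hj₁]
        intro h
        exact hxi (by linear_combination h)
    have hall : ∀ i, x i = c := by
      intro i₂
      by_contra hxi
      have a1 : Fintype.card J - 1 ≤ rowCount x y i₂ := by
        have : Finset.univ.erase j₀ ⊆ Finset.univ.filter (fun j : J => x i₂ + y j ≠ 0) := by
          intro j hj
          rw [Finset.mem_filter]
          refine ⟨Finset.mem_univ _, ?_⟩
          rw [hy j (Finset.ne_of_mem_erase hj)]
          intro h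
          exact hxi (by linear_combination h)
        have h2 := Finset.card_le_card this
        rw [Finset.card_erase_of_mem (Finset.mem_univ _), Finset.card_univ] at h2
        exact h2
      have a2 := sum_ge_of_row (rowCount x y) i₂ (fun i _ => hpos i)
      have a3 : 0 < Fintype.card I := Fintype.card_pos_iff.mpr ⟨i₁⟩
      omega
    right
    left
    refine ⟨j₀, c + y j₀, ?_⟩
    intro i j
    by_cases hj : j = j₀
    · rw [if_pos hj, hall i, hj]
    · rw [if_neg hj, hall i, hy j hj, add_neg_cancel]

end Cfsg.Agent.Lib.Lead.CycTI
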