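import Mathlib
import Cfsg.Agent.Lib.Lead.CycTIb
import Cfsg.Agent.Lib.Lead.CycTIe

/-!
# The dual of `W₁ × W₂` as a product
-/

set_option autoImplicit false

namespace Cfsg.Agent.Lib.Lead.CycTI

open Cfsg Cfsg.Agent.Lib.Helper2
open scoped ComplexConjugate Classical

variable {G : Type*} [Group G] {W₁ W₂ : Subgroup G}

theorem card_T1 [Finite G] (hdisj : W₁ ⊓ W₂ = ⊥) (hcomm : ∀ a ∈ W₁, ∀ b ∈ W₂, a * b = b * a)
    (hS₁ : ∀ a b : W₁, a * b = b * a) :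
    Nat.card {φ : ↥(W₁ ⊔ W₂) →* ℂˣ // T1 W₁ W₂ φ} = Nat.card W₁ := by
  obtain ⟨ρ₁, ρ₂, hρ₁, hρ₂, hρ, hρW₁, hρW₂⟩ := exists_proj hdisj hcomm
  rw [← Cfsg.Agent.Lib.Lead.Glaub.card_hom hS₁]
  let f : {φ : ↥(W₁ ⊔ W₂) →* ℂˣ // T1 W₁ W₂ φ} → (W₁ →* ℂˣ) :=
    fun φ => φ.1.comp (Subgroup.inclusion le_sup_left)
  apply Nat.card_congr (Equiv.ofBijective f ⟨?_, ?_⟩)
  · intro φ φ' h
    apply Subtype.ext
    apply T1.ext hcomm φ.2 φ'.2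
    intro w hw
    exact DFunLike.congr_fun h ⟨w, hw⟩
  · intro lam
    let r₁ : ↥(W₁ ⊔ W₂) →* W₁ := ((W₁ ⊔ W₂).subtype.comp ρ₁).codRestrict W₁ hρ₁
    refine ⟨⟨lam.comp r₁, ?_⟩, ?_⟩
    · intro w hw
      have : r₁ w = 1 := by
        apply Subtype.ext
        change ((ρ₁ w : ↥(W₁ ⊔ W₂)) : G) = 1
        rw [(hρW₂ w hw).1]
        rfl
      rw [MonoidHom.comp_apply, this, map_one]
    · apply MonoidHom.ext
      intro a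
      have : r₁ (Subgroup.inclusion le_sup_left a) = a := by
        apply Subtype.ext
        change ((ρ₁ (Subgroup.inclusion le_sup_left a) : ↥(W₁ ⊔ W₂)) : G) = a
        rw [(hρW₁ (Subgroup.inclusion le_sup_left a) a.2).1]
        rfl
      change lam (r₁ (Subgroup.inclusion le_sup_left a)) = lam a
      rw [this]

theorem card_T2 [Finite G] (hdisj : W₁ ⊓ W₂ = ⊥) (hcomm : ∀ a ∈ W₁, ∀ b ∈ W₂, a * b = b * a)
    (hS₂ : ∀ a b : W₂, a * b = b * a) :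
    Nat.card {φ : ↥(W₁ ⊔ W₂) →* ℂˣ // T2 W₁ W₂ φ} = Nat.card W₂ := by
  obtain ⟨ρ₁, ρ₂, hρ₁, hρ₂, hρ, hρW₁, hρW₂⟩ := exists_proj hdisj hcomm
  rw [← Cfsg.Agent.Lib.Lead.Glaub.card_hom hS₂]
  let f : {φ : ↥(W₁ ⊔ W₂) →* ℂˣ // T2 W₁ W₂ φ} → (W₂ →* ℂˣ) :=
    fun φ => φ.1.comp (Subgroup.inclusion le_sup_right)
  apply Nat.card_congr (Equiv.ofBijective f ⟨?_, ?_⟩)
  · intro φ φ' h
    apply Subtype.ext
    apply T2.ext hcomm φ.2 φ'.2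
    intro w hw
    exact DFunLike.congr_fun h ⟨w, hw⟩
  · intro lam
    let r₂ : ↥(W₁ ⊔ W₂) →* W₂ := ((W₁ ⊔ W₂).subtype.comp ρ₂).codRestrict W₂ hρ₂
    refine ⟨⟨lam.comp r₂, ?_⟩, ?_⟩
    · intro w hw
      have : r₂ w = 1 := by
        apply Subtype.ext
        change ((ρ₂ w : ↥(W₁ ⊔ W₂)) : G) = 1
        rw [(hρW₁ w hw).2]
        rfl
      rw [MonoidHom.comp_apply, this, map_one]
    · apply MonoidHom.ext
      intro a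
      have : r₂ (Subgroup.inclusion le_sup_right a) = a := by
        apply Subtype.ext
        change ((ρ₂ (Subgroup.inclusion le_sup_right a) : ↥(W₁ ⊔ W₂)) : G) = a
        rw [(hρW₂ (Subgroup.inclusion le_sup_right a) a.2).2]
        rfl
      change lam (r₂ (Subgroup.inclusion le_sup_right a)) = lam a
      rw [this]

theorem mul_bij (hdisj : W₁ ⊓ W₂ = ⊥) (hcomm : ∀ a ∈ W₁, ∀ b ∈ W₂, a * b = b * a) :
    Function.Bijective (fun p : {φ : ↥(W₁ ⊔ W₂) →* ℂˣ // T1 W₁ W₂ φ} ×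
      {φ : ↥(W₁ ⊔ W₂) →* ℂˣ // T2 W₁ W₂ φ} => p.1.1 * p.2.1) := by
  obtain ⟨ρ₁, ρ₂, hρ₁, hρ₂, hρ, hρW₁, hρW₂⟩ := exists_proj hdisj hcomm
  constructor
  · intro p q h
    have := (mul_eq_mul_iff hcomm p.1.2 q.1.2 p.2.2 q.2.2).mp h
    exact Prod.ext (Subtype.ext this.1) (Subtype.ext this.2)
  · intro ω
    refine ⟨(⟨ω.comp ρ₁, ?_⟩, ⟨ω.comp ρ₂, ?_⟩), ?_⟩
    · intro w hw
      rw [MonoidHom.comp_apply, (hρW₂ w hw).1, map_one]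
    · intro w hw
      rw [MonoidHom.comp_apply, (hρW₁ w hw).2, map_one]
    · apply MonoidHom.ext
      intro w
      change (ω.comp ρ₁ * ω.comp ρ₂) w = ω w
      rw [MonoidHom.mul_apply, MonoidHom.comp_apply, MonoidHom.comp_apply, ← map_mul, ← hρ w]

/-- the combinatorial statement on additive functions on the dual -/
theorem few_nonzero [Finite G] (hdisj : W₁ ⊓ W₂ = ⊥)
    (hcomm : ∀ a ∈ W₁, ∀ b ∈ W₂, a * b = b * a)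
    (hWc : ∀ a b : ↥(W₁ ⊔ W₂), a * b = b * a)
    (hodd : Odd (Nat.card ↥(W₁ ⊔ W₂))) (hlt : Nat.card W₁ < Nat.card W₂)
    (a : (↥(W₁ ⊔ W₂) →* ℂˣ) → ℂ)
    (hadd : ∀ φ ψ, T1 W₁ W₂ φ → T2 W₁ W₂ ψ → a (φ * ψ) = a φ + a ψ - a 1)
    (hfew : Nat.card {ω : ↥(W₁ ⊔ W₂) →* ℂˣ // a ω ≠ 0} < 2 * Nat.card W₁) :
    (∀ ω, a ω = 0) ∨
    (∃ ψ₀, T2 W₁ W₂ ψ₀ ∧ ∃ c : ℂ, ∀ φ ψ, T1 W₁ W₂ φ → T2 W₁ W₂ ψ →
      a (φ * ψ) = if ψ = ψ₀ then c else 0) ∨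
    (∃ φ₀, T1 W₁ W₂ φ₀ ∧ ∃ c : ℂ, ∀ φ ψ, T1 W₁ W₂ φ → T2 W₁ W₂ ψ →
      a (φ * ψ) = if φ = φ₀ then c else 0) := by
  haveI := Cfsg.Agent.Lib.Lead.Glaub.finite_hom hWc
  haveI := Fintype.ofFinite {φ : ↥(W₁ ⊔ W₂) →* ℂˣ // T1 W₁ W₂ φ}
  haveI := Fintype.ofFinite {φ : ↥(W₁ ⊔ W₂) →* ℂˣ // T2 W₁ W₂ φ}
  have hS₁ : ∀ a b : W₁, a * b = b * a := by
    intro a b
    have := hWc (Subgroup.inclusion le_sup_left a) (Subgroup.inclusion le_sup_left b)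
    have h2 := congrArg Subtype.val this
    exact Subtype.ext h2
  have hS₂ : ∀ a b : W₂, a * b = b * a := by
    intro a b
    have := hWc (Subgroup.inclusion le_sup_right a) (Subgroup.inclusion le_sup_right b)
    have h2 := congrArg Subtype.val this
    exact Subtype.ext h2
  have c1 := card_T1 hdisj hcomm hS₁
  have c2 := card_T2 hdisj hcomm hS₂
  rw [Nat.card_eq_fintype_card] at c1 c2
  have o1 : Odd (Nat.card W₁) := Odd.of_dvd_nat hodd (Subgroup.card_dvd_of_le le_sup_left)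
  have o2 : Odd (Nat.card W₂) := Odd.of_dvd_nat hodd (Subgroup.card_dvd_of_le le_sup_right)
  have hIJ : Nat.card W₁ + 2 ≤ Nat.card W₂ := by
    obtain ⟨u, hu⟩ := o1
    obtain ⟨v, hv⟩ := o2
    omega
  let x : {φ : ↥(W₁ ⊔ W₂) →* ℂˣ // T1 W₁ W₂ φ} → ℂ := fun φ => a φ.1 - a 1
  let y : {φ : ↥(W₁ ⊔ W₂) →* ℂˣ // T2 W₁ W₂ φ} → ℂ := fun ψ => a ψ.1
  have hxy : ∀ p : {φ : ↥(W₁ ⊔ W₂) →* ℂˣ // T1 W₁ W₂ φ} × {φ : ↥(W₁ ⊔ W₂) →* ℂˣ // T2 W₁ W₂ φ},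
      x p.1 + y p.2 = a (p.1.1 * p.2.1) := by
    intro p
    rw [hadd _ _ p.1.2 p.2.2]
    simp only [x, y]
    ring
  have hcount : (Finset.univ.filter (fun p : {φ : ↥(W₁ ⊔ W₂) →* ℂˣ // T1 W₁ W₂ φ} ×
      {φ : ↥(W₁ ⊔ W₂) →* ℂˣ // T2 W₁ W₂ φ} => x p.1 + y p.2 ≠ 0)).card =
      Nat.card {ω : ↥(W₁ ⊔ W₂) →* ℂˣ // a ω ≠ 0} := by
    rw [← Fintype.card_subtype, ← Nat.card_eq_fintype_card]
    apply Nat.card_congr
    refine Equiv.subtypeEquiv (Equiv.ofBijective _ (mul_bij hdisj hcomm)) ?_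
    intro p
    rw [hxy p]
    rfl
  have hmain := matrix_lemma x y (by rw [c1, c2]; exact hIJ) (by rw [hcount, c1]; exact hfew)
  rcases hmain with h | ⟨j₀, c, h⟩ | ⟨i₀, c, h⟩
  · left
    intro ω
    obtain ⟨p, rfl⟩ := (mul_bij hdisj hcomm).2 ω
    change a (p.1.1 * p.2.1) = 0
    rw [← hxy p]
    exact h _ _
  · right
    left
    refine ⟨j₀.1, j₀.2, c, ?_⟩
    intro φ ψ hφ hψ
    have := h ⟨φ, hφ⟩ ⟨ψ, hψ⟩
    rw [hxy (⟨φ, hφ⟩, ⟨ψ, hψ⟩)] at this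
    rw [this]
    by_cases e : ψ = j₀.1
    · rw [if_pos e, if_pos (Subtype.ext e)]
    · rw [if_neg e, if_neg (fun e' => e (congrArg Subtype.val e'))]
  · right
    right
    refine ⟨i₀.1, i₀.2, c, ?_⟩
    intro φ ψ hφ hψ
    have := h ⟨φ, hφ⟩ ⟨ψ, hψ⟩
    rw [hxy (⟨φ, hφ⟩, ⟨ψ, hψ⟩)] at this
    rw [this]
    by_cases e : φ = i₀.1
    · rw [if_pos e, if_pos (Subtype.ext e)]
    · rw [if_neg e, if_neg (fun e' => e (congrArg Subtype.val e'))]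

end Cfsg.Agent.Lib.Lead.CycTI
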