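import Mathlib
import Cfsg.Agent.S1536
import Cfsg.Agent.Lib.Lead.Coh9

/-!
# Normal subgroups containing the centralisers of their non-identity elements
-/

set_option autoImplicit false

namespace Cfsg.Agent.Lib.Lead.FrobK

open Cfsg Cfsg.Agent.Lib.Helper2 Cfsg.Agent.Lib.Lead Cfsg.Agent.Lib.Lead.Coh
open scoped ComplexConjugate Classical

section group

variable {N : Type*} [Group N] [Finite N] (H : Subgroup N) [hN : H.Normal]

theorem coprime_card_index
    (hC : ∀ h ∈ H, h ≠ 1 → Subgroup.centralizer ({h} : Set N) ≤ H) :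
    Nat.Coprime (Nat.card H) H.index := by
  by_contra hcon
  obtain ⟨p, hp, h1, h2⟩ := Nat.Prime.not_coprime_iff_dvd.mp hcon
  have := Fact.mk hp
  let P : Sylow p N := default
  let _ : MulAction P H :=
    MulAction.compHom H ((MulAut.conjNormal (H := H)).comp (P : Subgroup N).subtype)
  have hsm : ∀ (x : P) (h : H), ((x • h : H) : N) = (x : N) * h * (x : N)⁻¹ := fun x h => rfl
  have hone : (1 : H) ∈ MulAction.fixedPoints P H := by
    intro x
    apply Subtype.ext
    rw [hsm]
    simp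
  obtain ⟨b, hb, hne⟩ := P.2.exists_fixed_point_of_prime_dvd_card_of_fixed_point H h1 hone
  have hPH : (P : Subgroup N) ≤ H := by
    intro x hx
    apply hC (b : N) b.2 (fun e => hne (Subtype.ext e.symm))
    rw [Subgroup.mem_centralizer_singleton_iff]
    have h3 := congrArg Subtype.val (hb ⟨x, hx⟩)
    rw [hsm] at h3
    exact mul_inv_eq_iff_eq_mul.mp h3
  exact P.not_dvd_index (dvd_trans h2 (Subgroup.index_dvd_of_le hPH))

end group

section chars

variable {N : Type*} [Group N] [Fintype N] (H : Subgroup N) [hN : H.Normal]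

theorem conjFun_ne (hC : ∀ h ∈ H, h ≠ 1 → Subgroup.centralizer ({h} : Set N) ≤ H)
    {φ : H → ℂ} (hφ : IsIrrCharacter H φ) (h1 : φ ≠ fun _ => 1) {x : N} (hx : x ∉ H) :
    Helper2.conjFun H x φ ≠ φ := by
  intro e
  have h2 := (Cfsg.Agent.S1536.result H (coprime_card_index H hC) x⁻¹).mp ⟨φ, hφ, h1, by
    funext h
    have := congrFun e h
    rw [conjFun_apply] at this
    rw [← this]
    congr 1
    apply Subtype.ext
    simp⟩
  obtain ⟨h, hh, hne, hcomm⟩ := h2
  apply hx
  have h3 : x⁻¹ ∈ H := by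
    apply hC h hh hne
    rw [Subgroup.mem_centralizer_singleton_iff]
    exact hcomm
  simpa using H.inv_mem h3

theorem irr_indFun (hC : ∀ h ∈ H, h ≠ 1 → Subgroup.centralizer ({h} : Set N) ≤ H)
    {φ : H → ℂ} (hφ : IsIrrCharacter H φ) (h1 : φ ≠ fun _ => 1) :
    IsIrrCharacter N (indFun H φ) := by
  apply isIrrCharacter_of_classInner_eq_one (IsCharacter.indFun H (IsIrrCharacter.isCharacter hφ))
  rw [classInner_indFun_indFun]
  have h2 : ∀ x : N, classInner φ (Helper2.conjFun H x φ) = if x ∈ H then 1 else 0 := by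
    intro x
    rw [classInner_irr hφ (IsIrrCharacter.conjFun H hφ x)]
    by_cases hx : x ∈ H
    · rw [if_pos hx, if_pos (conjFun_of_mem H
        (IsCharacter.isClassFunction (IsIrrCharacter.isCharacter hφ)) hx).symm]
    · rw [if_neg hx, if_neg (fun e => conjFun_ne H hC hφ h1 hx e.symm)]
  rw [Finset.sum_congr rfl (fun x _ => h2 x), sum_ite_mem_subgroup]
  have := card_subgroup_ne_zero H
  field_simp

theorem exists_constituent {χ : N → ℂ} (hχ : IsIrrCharacter N χ) (hker : ∃ n ∈ H, χ n ≠ χ 1) :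
    ∃ φ : H → ℂ, IsIrrCharacter H φ ∧ φ ≠ (fun _ => 1) ∧
      classInner φ (fun h : H => χ h) ≠ 0 := by
  by_contra hcon
  push Not at hcon
  have hr : IsClassFunction H (fun h : H => χ h) :=
    IsCharacter.isClassFunction (IsCharacter.restrict H (IsIrrCharacter.isCharacter hχ))
  have h1 : IsIrrCharacter H (fun _ => 1) := isIrrCharacter_one
  set c := classInner (fun h : H => χ h) (fun _ => 1) with hc
  have hz : (fun h : H => χ h) - c • (fun _ : H => (1 : ℂ)) = 0 := by
    apply eq_zero_of_classInner_irr_eq_zero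
    · exact isClassFunction_sub hr (isClassFunction_smul c
        (IsCharacter.isClassFunction (IsIrrCharacter.isCharacter h1)))
    · intro ψ hψ
      rw [classInner_sub_left, classInner_smul_left]
      by_cases e : ψ = fun _ => 1
      · rw [e, classInner_irr h1 h1, if_pos rfl, mul_one, sub_self]
      · rw [inner_symm_zero (hcon ψ hψ e), classInner_irr h1 hψ, if_neg (fun e' => e e'.symm),
          mul_zero, sub_zero]
  obtain ⟨n, hn, hne⟩ := hker
  apply hne
  have e1 := congrFun hz ⟨n, hn⟩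
  have e2 := congrFun hz 1
  simp only [Pi.sub_apply, Pi.smul_apply, Pi.zero_apply, smul_eq_mul, mul_one] at e1 e2
  have e3 : χ n = c := sub_eq_zero.mp e1
  have e4 : χ ((1 : H) : N) = c := sub_eq_zero.mp e2
  rw [e3, ← e4]
  rfl

theorem irr_induced (hC : ∀ h ∈ H, h ≠ 1 → Subgroup.centralizer ({h} : Set N) ≤ H)
    {χ : N → ℂ} (hχ : IsIrrCharacter N χ) (hker : ∃ n ∈ H, χ n ≠ χ 1) :
    ∃ φ : H → ℂ, IsIrrCharacter H φ ∧ φ ≠ (fun _ => 1) ∧ χ = indFun H φ := by
  obtain ⟨φ, hφ, h1, hne⟩ := exists_constituent H hχ hker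
  refine ⟨φ, hφ, h1, ?_⟩
  have h2 := irr_indFun H hC hφ h1
  rw [← frobenius_reciprocity H φ χ (IsCharacter.isClassFunction (IsIrrCharacter.isCharacter hχ)),
    classInner_irr h2 hχ] at hne
  by_contra e
  exact hne (if_neg (fun e' => e e'.symm))

end chars

end Cfsg.Agent.Lib.Lead.FrobK
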