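import Mathlib
import Cfsg.Agent.Lib.Lead.FrobK1

/-!
# T.I. subgroups with Frobenius normaliser: induction restricts back
-/

set_option autoImplicit false

namespace Cfsg.Agent.Lib.Lead.FrobK

open Cfsg Cfsg.Agent.Lib.Helper2 Cfsg.Agent.Lib.Lead Cfsg.Agent.Lib.Lead.Coh
open scoped ComplexConjugate Classical

theorem mem_of_orderOf_dvd {N : Type*} [Group N] [Finite N] (H : Subgroup N) [H.Normal]
    (hcop : Nat.Coprime (Nat.card H) H.index) {x : N} (hx : orderOf x ∣ Nat.card H) : x ∈ H := by
  obtain ⟨m, hm⟩ := exists_pow_eq_self_of_coprime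
    (Nat.Coprime.coprime_dvd_right hx hcop.symm : Nat.Coprime H.index (orderOf x))
  rw [← hm]
  exact H.pow_mem (H.pow_index_mem x) m

variable {G : Type*} [Group G] (K : Subgroup G)

instance subgroupOf_normalizer_normal :
    (K.subgroupOf (Subgroup.normalizer (K : Set G))).Normal :=
  Subgroup.normal_in_normalizer

theorem hC_sub (hC : ∀ k ∈ K, k ≠ 1 → Subgroup.centralizer ({k} : Set G) ≤ K) :
    ∀ h ∈ K.subgroupOf (Subgroup.normalizer (K : Set G)), h ≠ 1 →
      Subgroup.centralizer ({h} : Set ↥(Subgroup.normalizer (K : Set G))) ≤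
        K.subgroupOf (Subgroup.normalizer (K : Set G)) := by
  intro h hh hne x hx
  rw [Subgroup.mem_subgroupOf] at hh ⊢
  apply hC (h : G) hh (fun e => hne (Subtype.ext e))
  rw [Subgroup.mem_centralizer_singleton_iff] at hx ⊢
  exact congrArg Subtype.val hx

theorem card_subgroupOf_normalizer :
    Nat.card (K.subgroupOf (Subgroup.normalizer (K : Set G))) = Nat.card K :=
  Nat.card_congr (Subgroup.subgroupOfEquivOfLe Subgroup.le_normalizer).toEquiv

theorem not_conj_mem [Finite G]
    (hC : ∀ k ∈ K, k ≠ 1 → Subgroup.centralizer ({k} : Set G) ≤ K) :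
    ∀ x ∈ Subgroup.normalizer (K : Set G), x ∉ K → ∀ g : G, g * x * g⁻¹ ∉ K := by
  intro x hx hxK g hg
  apply hxK
  have h1 : orderOf (g * x * g⁻¹) ∣ Nat.card K := by
    have := orderOf_dvd_natCard (⟨g * x * g⁻¹, hg⟩ : K)
    rwa [← Subgroup.orderOf_coe] at this
  have h2 : orderOf (g * x * g⁻¹) = orderOf x := by
    have := (MulAut.conj g).orderOf_eq x
    simpa using this
  have h3 : orderOf (⟨x, hx⟩ : ↥(Subgroup.normalizer (K : Set G))) ∣
      Nat.card (K.subgroupOf (Subgroup.normalizer (K : Set G))) := by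
    rw [card_subgroupOf_normalizer, ← Subgroup.orderOf_coe, ← h2]
    exact h1
  exact Subgroup.mem_subgroupOf.mp (mem_of_orderOf_dvd _ (coprime_card_index _ (hC_sub K hC)) h3)

theorem indFun_restrict [Fintype G]
    (hTI : ∀ g : G, g ∉ Subgroup.normalizer (K : Set G) → ∀ k ∈ K, g * k * g⁻¹ ∈ K → k = 1)
    (hC : ∀ k ∈ K, k ≠ 1 → Subgroup.centralizer ({k} : Set G) ≤ K)
    (ϑ : Subgroup.normalizer (K : Set G) → ℂ)
    (hcl : IsClassFunction (Subgroup.normalizer (K : Set G)) ϑ)
    (hoff : ∀ x : Subgroup.normalizer (K : Set G), (x : G) ∉ K → ϑ x = 0) (h1 : ϑ 1 = 0)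
    (x : Subgroup.normalizer (K : Set G)) :
    indFun (Subgroup.normalizer (K : Set G)) ϑ x = ϑ x := by
  simp only [indFun]
  have key : ∀ g : G, extendByZero (Subgroup.normalizer (K : Set G)) ϑ (g⁻¹ * x * g) =
      if g ∈ Subgroup.normalizer (K : Set G) then ϑ x else 0 := by
    intro g
    by_cases hg : g ∈ Subgroup.normalizer (K : Set G)
    · rw [if_pos hg]
      have e : g⁻¹ * (x : G) * g =
          (((⟨g, hg⟩ : Subgroup.normalizer (K : Set G))⁻¹ * x *
            (⟨g, hg⟩ : Subgroup.normalizer (K : Set G))⁻¹⁻¹ :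
            Subgroup.normalizer (K : Set G)) : G) := by
        simp
      rw [e, extendByZero_coe, hcl]
    · rw [if_neg hg]
      by_cases hm : g⁻¹ * (x : G) * g ∈ Subgroup.normalizer (K : Set G)
      · rw [extendByZero_mem _ _ hm]
        by_cases hk : g⁻¹ * (x : G) * g ∈ K
        · by_cases hxK : (x : G) ∈ K
          · have hg' : g⁻¹ ∉ Subgroup.normalizer (K : Set G) := fun h =>
              hg ((Subgroup.normalizer (K : Set G)).inv_mem_iff.mp h)
            have e1 := hTI g⁻¹ hg' x hxK (by simpa using hk)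
            have e2 : (⟨g⁻¹ * (x : G) * g, hm⟩ : Subgroup.normalizer (K : Set G)) = 1 := by
              apply Subtype.ext
              simp [e1]
            rw [e2, h1]
          · exact absurd (by simpa using hk) (not_conj_mem K hC x x.2 hxK g⁻¹)
        · exact hoff _ hk
      · exact extendByZero_not_mem _ _ hm
  rw [Finset.sum_congr rfl (fun g _ => key g), sum_ite_mem_subgroup]
  have := card_subgroup_ne_zero (Subgroup.normalizer (K : Set G))
  field_simp

end Cfsg.Agent.Lib.Lead.FrobK
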