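import Mathlib
import Cfsg.Agent.Lib.Lead.Coh10
import Cfsg.Agent.Lib.Helper24.CharInt

/-!
# Coherence of sets of irreducible characters along a chain of degrees
-/

set_option autoImplicit false

namespace Cfsg.Agent.Lib.Lead.IrrCoh

open Cfsg Cfsg.Agent.Lib.Helper2 Cfsg.Agent.Lib.Lead Cfsg.Agent.Lib.Lead.Coh
open Cfsg.Agent.Lib.Helper24
open scoped ComplexConjugate Classical

variable {N : Type*} [Group N] [Fintype N] {G : Type*} [Group G] [Fintype G]
  {τ : (N → ℂ) → (G → ℂ)}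

theorem irr_extend_all (S : Set (N → ℂ)) (hirr : ∀ ξ ∈ S, IsIrrCharacter N ξ)
    (hτ : IsLinearIsometryOn (zspanOn S {1}ᶜ) τ) (hτ1 : ∀ α ∈ zspanOn S {1}ᶜ, τ α 1 = 0)
    (S₀ : Finset (N → ℂ)) (hcoh : IsCoherent (↑S₀ : Set (N → ℂ)) {1}ᶜ τ) (ψ : N → ℂ)
    (hψ : ψ ∈ S₀) :
    ∀ (k : ℕ) (T : Finset (N → ℂ)), (T \ S₀).card = k → S₀ ⊆ T → ↑T ⊆ S →
      (∀ χ ∈ T, χ ∉ S₀ → charDegree ψ ∣ charDegree χ ∧
        2 * charDegree ψ * charDegree χ < ∑ ξ ∈ S₀, charDegree ξ ^ 2) →
      IsCoherent (↑T : Set (N → ℂ)) {1}ᶜ τ := by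
  intro k
  induction k with
  | zero =>
    intro T hk hsub _ _
    rw [Finset.card_eq_zero, Finset.sdiff_eq_empty_iff_subset] at hk
    rw [Finset.Subset.antisymm hk hsub]
    exact hcoh
  | succ k ih =>
    intro T hk hsub hTS hcond
    have hne : (T \ S₀).Nonempty := by
      rw [← Finset.card_pos, hk]
      omega
    obtain ⟨χ, hχ⟩ := hne
    rw [Finset.mem_sdiff] at hχ
    have hsub' : S₀ ⊆ T.erase χ := fun ξ hξ =>
      Finset.mem_erase.mpr ⟨fun h => hχ.2 (h ▸ hξ), hsub hξ⟩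
    have hcard : (T.erase χ \ S₀).card = k := by
      have : T.erase χ \ S₀ = (T \ S₀).erase χ := by
        ext ξ
        simp only [Finset.mem_sdiff, Finset.mem_erase]
        tauto
      rw [this, Finset.card_erase_of_mem (Finset.mem_sdiff.mpr hχ), hk]
      rfl
    have hT' : (↑(T.erase χ) : Set (N → ℂ)) ⊆ S := fun ξ hξ =>
      hTS (Finset.mem_coe.mpr (Finset.mem_of_mem_erase (Finset.mem_coe.mp hξ)))
    have hcoh' := ih (T.erase χ) hcard hsub' hT'
      (fun ξ hξ hξ0 => hcond ξ (Finset.mem_of_mem_erase hξ) hξ0)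
    have hins : insert χ (↑(T.erase χ) : Set (N → ℂ)) = ↑T := by
      rw [← Finset.coe_insert, Finset.insert_erase hχ.1]
    have hd : ∀ ξ ∈ S, ξ 1 = (charDegree ξ : ℂ) := fun ξ hξ =>
      (charDegree_cast (IsIrrCharacter.isCharacter (hirr ξ hξ))).symm
    have hχS : χ ∈ S := hTS (Finset.mem_coe.mpr hχ.1)
    have hsubS : zspanOn (insert χ (↑(T.erase χ) : Set (N → ℂ))) {1}ᶜ ⊆ zspanOn S {1}ᶜ := by
      rw [hins]
      exact zspanOn_mono hTS _
    have := feit_criterion (T.erase χ) χ (fun ξ hξ => hirr ξ (hT' (Finset.mem_coe.mpr hξ)))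
      (hirr χ hχS) (Finset.notMem_erase χ T) charDegree (hd χ hχS)
      (fun ξ hξ => hd ξ (hT' (Finset.mem_coe.mpr hξ))) τ
      (Coh.IsLinearIsometryOn.mono hτ hsubS) (fun α hα => hτ1 α (hsubS hα)) hcoh' ψ (hsub' hψ)
      (hcond χ hχ.1 hχ.2).1
      (lt_of_lt_of_le (hcond χ hχ.1 hχ.2).2
        (Finset.sum_le_sum_of_subset hsub'))
    rwa [hins] at this

theorem irr_chain (XF : Finset (N → ℂ)) (hirr : ∀ ξ ∈ XF, IsIrrCharacter N ξ)
    (hτ : IsLinearIsometryOn (zspanOn (↑XF : Set (N → ℂ)) {1}ᶜ) τ)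
    (hτ1 : ∀ α ∈ zspanOn (↑XF : Set (N → ℂ)) {1}ᶜ, τ α 1 = 0) (hne : XF.Nonempty)
    (hpair : ∀ χ ∈ XF, ∃ χ' ∈ XF, χ' ≠ χ ∧ charDegree χ' = charDegree χ)
    (hstep : ∀ χ ∈ XF, ∀ ψ ∈ XF, charDegree ψ < charDegree χ →
      charDegree ψ ∣ charDegree χ ∧ 2 * charDegree ψ * charDegree χ <
        ∑ ξ ∈ XF.filter (fun ξ => charDegree ξ < charDegree χ), charDegree ξ ^ 2) :
    IsCoherent (↑XF : Set (N → ℂ)) {1}ᶜ τ := by
  let XD : ℕ → Finset (N → ℂ) := fun D => XF.filter (fun φ => charDegree φ ≤ D)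
  have hXD : ∀ D φ, φ ∈ XD D ↔ φ ∈ XF ∧ charDegree φ ≤ D := fun D φ => Finset.mem_filter
  have hXDsub : ∀ D, (↑(XD D) : Set (N → ℂ)) ⊆ ↑XF := fun D φ hφ =>
    Finset.mem_coe.mpr ((hXD D φ).mp (Finset.mem_coe.mp hφ)).1
  have hd : ∀ φ ∈ XF, φ 1 = (charDegree φ : ℂ) := fun φ hφ =>
    (charDegree_cast (IsIrrCharacter.isCharacter (hirr φ hφ))).symm
  have claim : ∀ D, XD D = ∅ ∨ IsCoherent (↑(XD D) : Set (N → ℂ)) {1}ᶜ τ := by
    intro D
    induction D with
    | zero =>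
      left
      rw [Finset.eq_empty_iff_forall_notMem]
      intro φ hφ
      rw [hXD] at hφ
      have := charDegree_pos (hirr φ hφ.1)
      omega
    | succ D ih =>
      by_cases hex : ∃ χ ∈ XF, charDegree χ = D + 1
      swap
      · have : XD (D + 1) = XD D := by
          ext φ
          rw [hXD, hXD]
          constructor
          · rintro ⟨h1, h2⟩
            refine ⟨h1, ?_⟩
            have : charDegree φ ≠ D + 1 := fun h => hex ⟨φ, h1, h⟩
            omega
          · rintro ⟨h1, h2⟩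
            exact ⟨h1, by omega⟩
        rw [this]
        exact ih
      right
      obtain ⟨χ₀, hχ₀, hχ₀d⟩ := hex
      rcases ih with ih | ih
      · -- uniform degree
        have hdeg : ∀ φ ∈ (↑(XD (D + 1)) : Set (N → ℂ)), φ 1 = ((D + 1 : ℕ) : ℂ) := by
          intro φ hφ
          have h1 := (hXD _ _).mp (Finset.mem_coe.mp hφ)
          have h2 : φ ∉ XD D := by rw [ih]; exact Finset.notMem_empty _
          rw [hXD] at h2
          have h3 : charDegree φ = D + 1 := by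
            have : ¬ charDegree φ ≤ D := fun h => h2 ⟨h1.1, h⟩
            omega
          rw [hd φ h1.1, h3]
        obtain ⟨χ', hχ', hne', hdeg'⟩ := hpair χ₀ hχ₀
        apply uniform_irr_coherent
          (fun φ hφ => hirr φ (Finset.mem_coe.mp (hXDsub _ hφ)))
          (fun φ hφ ψ hψ => by rw [hdeg φ hφ, hdeg ψ hψ])
          ⟨χ₀, Finset.mem_coe.mpr ((hXD _ _).mpr ⟨hχ₀, hχ₀d.le⟩), χ',
            Finset.mem_coe.mpr ((hXD _ _).mpr ⟨hχ', by omega⟩), hne'.symm⟩
          (Coh.IsLinearIsometryOn.mono hτ (zspanOn_mono (hXDsub _) _))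
          (fun α hα => hτ1 α (zspanOn_mono (hXDsub _) _ hα))
      · -- extension
        have hne : (XD D).Nonempty := by
          obtain ⟨⟨α, hα, hα0⟩, -⟩ := ih
          by_contra hemp
          rw [Finset.not_nonempty_iff_eq_empty] at hemp
          apply hα0
          have h1 := hα.1
          rw [hemp, Finset.coe_empty] at h1
          unfold zspan at h1
          rw [Submodule.span_empty] at h1
          exact h1
        obtain ⟨χ₁, hχ₁⟩ := hne
        apply irr_extend_all (↑XF : Set (N → ℂ)) (fun ξ hξ => hirr ξ (Finset.mem_coe.mp hξ)) hτ hτ1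
          (XD D) ih χ₁ hχ₁ _ (XD (D + 1)) rfl
        · intro φ hφ
          rw [hXD] at hφ ⊢
          exact ⟨hφ.1, by omega⟩
        · exact hXDsub _
        · intro χ hχ hχ0
          rw [hXD] at hχ hχ0
          have hχd : charDegree χ = D + 1 := by
            have : ¬ charDegree χ ≤ D := fun h => hχ0 ⟨hχ.1, h⟩
            omega
          have hχ₁' := (hXD _ _).mp hχ₁
          have := hstep χ hχ.1 χ₁ hχ₁'.1 (by omega)
          refine ⟨this.1, lt_of_lt_of_le this.2 (le_of_eq ?_)⟩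
          apply Finset.sum_congr (Finset.filter_congr (fun ξ _ => ?_)) (fun _ _ => rfl)
          rw [hχd]
          exact Nat.lt_succ_iff
  have hfinal : XD (XF.sup charDegree) = XF := by
    ext φ
    rw [hXD]
    constructor
    · exact fun h => h.1
    · exact fun h => ⟨h, Finset.le_sup (f := charDegree) h⟩
  rcases claim (XF.sup charDegree) with h | h
  · exfalso
    rw [hfinal] at h
    rw [h] at hne
    exact Finset.not_nonempty_empty hne
  · rwa [hfinal] at h

end Cfsg.Agent.Lib.Lead.IrrCoh
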