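import Mathlib
import Cfsg.Agent.Lib.Lead.Coh10
import Cfsg.Agent.Lib.Helper6.CharCentral

/-!
# Coherence from a single anchor character
-/

set_option autoImplicit false

namespace Cfsg.Agent.Lib.Lead.Sib

open Cfsg Cfsg.Agent.Lib.Helper2 Cfsg.Agent.Lib.Lead Cfsg.Agent.Lib.Lead.Coh
open Cfsg.Agent.Lib.Lead.CycTI
open Cfsg.Agent.Lib.Helper23.IndTools
open scoped ComplexConjugate Classical

variable {L : Type*} [Group L] [Fintype L] {G : Type*} [Group G] [Fintype G]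
  {S : Set (L → ℂ)} {τ : (L → ℂ) → (G → ℂ)}

theorem coherent_of_anchor (hirr : ∀ χ ∈ S, IsIrrCharacter L χ)
    (hiso : IsLinearIsometryOn (zspanOn S {1}ᶜ) τ) {ξ : L → ℂ} (hξ : ξ ∈ S) (q : (L → ℂ) → ℕ)
    (hq : ∀ χ ∈ S, χ 1 = (q χ : ℂ) * ξ 1)
    (hnz : ∃ α ∈ zspanOn S {1}ᶜ, α ≠ 0) {F₀ : G → ℂ} (hF₀g : IsGeneralizedCharacter G F₀)
    (hF₀n : classInner F₀ F₀ = 1)
    (hF₀ : ∀ χ ∈ S, χ ≠ ξ → classInner F₀ (τ ((q χ : ℤ) • ξ - χ)) = q χ) :
    IsCoherent S {1}ᶜ τ := by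
  have hξ1 : ξ 1 ≠ 0 := Cfsg.Agent.Lib.Helper6.irr_one_ne_zero (hirr ξ hξ)
  have hqξ : q ξ = 1 := by
    have h := hq ξ hξ
    have h2 : ((q ξ : ℂ) - 1) * ξ 1 = 0 := by linear_combination -h
    rcases mul_eq_zero.mp h2 with h3 | h3
    · have : (q ξ : ℂ) = 1 := by linear_combination h3
      exact_mod_cast this
    · exact absurd h3 hξ1
  have hin : ∀ χ ∈ S, ∀ φ ∈ S, classInner χ φ = if χ = φ then 1 else 0 := fun χ hχ φ hφ =>
    classInner_irr (hirr χ hχ) (hirr φ hφ)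
  have horth : ∀ χ ∈ S, ∀ φ ∈ S, χ ≠ φ → classInner χ φ = 0 := fun χ hχ φ hφ hne => by
    rw [hin χ hχ φ hφ, if_neg hne]
  have hτ0 : τ 0 = 0 := tau_zero hiso zspanOn_zero
  have hdm : ∀ χ ∈ S, (q χ : ℤ) • ξ - χ ∈ zspanOn S {1}ᶜ := fun χ hχ => by
    refine ⟨zspan_sub (zspan_smul _ (mem_zspan hξ)) (mem_zspan hχ), hvan _ ?_⟩
    rw [Pi.sub_apply, Pi.smul_apply, hq χ hχ]
    simp
  have hu : ∀ ψ ∈ S, classInner F₀ (τ ((q ψ : ℤ) • ξ - ψ)) = (q ψ : ℂ) - classInner ξ ψ := by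
    intro ψ hψ
    by_cases e : ψ = ξ
    · rw [e, hqξ, hin ξ hξ ξ hξ, if_pos rfl]
      simp [hτ0, classInner_zero_right]
    · rw [hF₀ ψ hψ e, horth ξ hξ ψ hψ (Ne.symm e), sub_zero]
  have hreal : ∀ χ ∈ S, conj (classInner ξ χ) = classInner ξ χ := fun χ hχ => by
    rw [hin ξ hξ χ hχ]
    split_ifs <;> simp
  have hf : ∀ χ ∈ S, ∀ φ ∈ S, classInner ((q χ : ℂ) • F₀ - τ ((q χ : ℤ) • ξ - χ))
      ((q φ : ℂ) • F₀ - τ ((q φ : ℤ) • ξ - φ)) = classInner χ φ := by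
    intro χ hχ φ hφ
    rw [classInner_sub_left, classInner_sub_right, classInner_sub_right,
      classInner_smul_left, classInner_smul_left, classInner_smul_right, classInner_smul_right,
      hF₀n, hu φ hφ,
      ← classInner_conj_symm F₀ (τ ((q χ : ℤ) • ξ - χ)), hu χ hχ,
      hiso.2.2.1 _ (hdm χ hχ) _ (hdm φ hφ), zsmul_eq, zsmul_eq,
      classInner_sub_left, classInner_sub_right, classInner_sub_right,
      classInner_smul_left, classInner_smul_left, classInner_smul_right, classInner_smul_right,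
      map_sub, hreal χ hχ, hin ξ hξ ξ hξ, if_pos rfl, ← classInner_conj_symm ξ χ, hreal χ hχ]
    simp only [map_natCast, Int.cast_natCast]
    ring
  obtain ⟨τ₁, hτ₁, hτ₁f⟩ := linExt horth (fun χ hχ => by
    rw [hin χ hχ χ hχ, if_pos rfl]
    exact one_ne_zero) (fun χ => (q χ : ℂ) • F₀ - τ ((q χ : ℤ) • ξ - χ)) hf
    (fun χ hχ => genChar_sub (genChar_nsmul _ hF₀g) (hiso.2.2.2 _ (hdm χ hχ)))
  refine ⟨hnz, τ₁, hτ₁, ?_⟩
  set D : Set (L → ℂ) := {δ | ∃ χ ∈ S, δ = (q χ : ℤ) • ξ - χ} with hD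
  have hDS : ∀ w ∈ zspan D, w ∈ zspanOn S {1}ᶜ := by
    intro w hw
    unfold zspan at hw
    induction hw using Submodule.span_induction with
    | mem f hf =>
      obtain ⟨χ, hχ, rfl⟩ := hf
      exact hdm χ hχ
    | zero => exact zspanOn_zero
    | add a b _ _ ha hb => exact zspanOn_add ha hb
    | smul n a _ ha => exact zspanOn_smul n ha
  have hgen : ∀ α ∈ zspan S, ∃ k : ℤ, ∃ w ∈ zspan D, α = k • ξ + w := by
    intro α hα
    unfold zspan at hα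
    induction hα using Submodule.span_induction with
    | mem f hf =>
      refine ⟨(q f : ℤ), (-1 : ℤ) • ((q f : ℤ) • ξ - f), zspan_smul _ (mem_zspan ⟨f, hf, rfl⟩), ?_⟩
      rw [neg_smul, one_smul]
      abel
    | zero => exact ⟨0, 0, zspan_zero, by simp⟩
    | add a b _ _ ha hb =>
      obtain ⟨k, w, hw, rfl⟩ := ha
      obtain ⟨k', w', hw', rfl⟩ := hb
      refine ⟨k + k', w + w', zspan_add hw hw', ?_⟩
      rw [add_smul]
      abel
    | smul n a _ ha =>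
      obtain ⟨k, w, hw, rfl⟩ := ha
      exact ⟨n * k, n • w, zspan_smul n hw, by rw [smul_add, mul_smul]⟩
  have hfξ : τ₁ ξ = F₀ := by
    rw [hτ₁f ξ hξ, hqξ]
    simp [hτ0]
  have hagree : ∀ w ∈ zspan D, τ₁ w = τ w := by
    intro w hw
    unfold zspan at hw
    induction hw using Submodule.span_induction with
    | mem f hf =>
      obtain ⟨χ, hχ, rfl⟩ := hf
      rw [tau_sub hτ₁ (zspan_smul _ (mem_zspan hξ)) (mem_zspan hχ), hτ₁.2.1 ξ (mem_zspan hξ),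
        hfξ, hτ₁f χ hχ, zsmul_eq]
      simp
    | zero => rw [hτ0, tau_zero hτ₁ zspan_zero]
    | add a b ha' hb' ha hb =>
      rw [hτ₁.1 a (hDS a ha').1 b (hDS b hb').1, hiso.1 a (hDS a ha') b (hDS b hb'), ha, hb]
    | smul n a ha' ha =>
      rw [hτ₁.2.1 a (hDS a ha').1, hiso.2.1 a (hDS a ha'), ha]
  intro α hα
  obtain ⟨k, w, hw, rfl⟩ := hgen α hα.1
  have h1 := hα.2 1 (by simp)
  rw [Pi.add_apply, Pi.smul_apply, (hDS w hw).2 1 (by simp), add_zero, zsmul_eq_mul] at h1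
  have hk : k = 0 := by
    rcases mul_eq_zero.mp h1 with h2 | h2
    · exact_mod_cast h2
    · exact absurd h2 hξ1
  rw [hk, zero_smul, zero_add]
  exact hagree w hw

end Cfsg.Agent.Lib.Lead.Sib
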