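import Mathlib
import Cfsg.Agent.Lib.Helper24.CharInt
import Cfsg.Agent.Lib.Helper22.SylowTwoP
import Cfsg.Agent.Lib.Helper2.CharOps
import Cfsg.Prelude.Def_OddOrderLocal

/-!
# Characters constant on a central subgroup of a TI Sylow subgroup
-/

set_option autoImplicit false

namespace Cfsg.Agent.Lib.Lead.TISyl

open Cfsg Cfsg.Agent.Lib.Helper2 Cfsg.Agent.Lib.Helper24
open scoped ComplexConjugate Classical

/-- A rational number `a / b` that is an algebraic integer is an integer. -/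
theorem int_dvd_of_isIntegral {a : ℤ} {b : ℕ} {β : ℂ} (hb : b ≠ 0) (h : IsIntegral ℤ β)
    (hβ : (a : ℂ) = (b : ℂ) * β) : (b : ℤ) ∣ a := by
  have hb' : (b : ℂ) ≠ 0 := by exact_mod_cast hb
  have h1 : β = algebraMap ℚ ℂ ((a : ℚ) / (b : ℚ)) := by
    have : β = (a : ℂ) / (b : ℂ) := by rw [hβ]; field_simp
    rw [this]
    simp
  rw [h1, isIntegral_algebraMap_iff (algebraMap ℚ ℂ).injective,
    IsIntegrallyClosed.isIntegral_iff] at h
  obtain ⟨y, hy⟩ := h
  have hb'' : (b : ℚ) ≠ 0 := by exact_mod_cast hb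
  have h2 : (a : ℚ) = (y : ℚ) * (b : ℚ) := by
    have : (y : ℚ) = (a : ℚ) / (b : ℚ) := by simpa using hy
    rw [this]; field_simp
  have h3 : (a : ℤ) = y * (b : ℤ) := by exact_mod_cast h2
  exact ⟨y, by rw [h3]; ring⟩

/-- summing an invariant function with integral values over a set with a free action -/
theorem free_sum {A Ω : Type*} [Group A] [Fintype A] [MulAction A Ω] (f : Ω → ℂ)
    (hf : ∀ (a : A) (ω : Ω), f (a • ω) = f ω) (hint : ∀ ω, IsIntegral ℤ (f ω)) :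
    ∀ (k : ℕ) (T : Finset Ω), T.card = k → (∀ a : A, ∀ ω ∈ T, a • ω ∈ T) →
      (∀ ω ∈ T, ∀ a : A, a • ω = ω → a = 1) →
      ∃ β : ℂ, IsIntegral ℤ β ∧ ∑ ω ∈ T, f ω = (Fintype.card A : ℂ) * β := by
  intro k
  induction k using Nat.strong_induction_on with
  | _ k ih =>
  intro T hk hT hfree
  rcases T.eq_empty_or_nonempty with rfl | ⟨ω₀, hω₀⟩
  · exact ⟨0, isIntegral_zero, by simp⟩
  set O : Finset Ω := Finset.univ.image (fun a : A => a • ω₀) with hO
  have hOT : O ⊆ T := by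
    intro ω hω
    obtain ⟨a, -, rfl⟩ := Finset.mem_image.mp hω
    exact hT a ω₀ hω₀
  have hω₀O : ω₀ ∈ O := Finset.mem_image.mpr ⟨1, Finset.mem_univ _, one_smul _ _⟩
  have hcard : (T \ O).card < k := by
    rw [← hk]
    apply Finset.card_lt_card
    refine ⟨Finset.sdiff_subset, fun h => ?_⟩
    exact (Finset.mem_sdiff.mp (h hω₀)).2 hω₀O
  obtain ⟨β, hβ, hsum⟩ := ih _ hcard (T \ O) rfl
    (by
      intro a ω hω
      rw [Finset.mem_sdiff] at hω ⊢
      refine ⟨hT a ω hω.1, fun h => hω.2 ?_⟩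
      obtain ⟨b, -, hb⟩ := Finset.mem_image.mp h
      refine Finset.mem_image.mpr ⟨a⁻¹ * b, Finset.mem_univ _, ?_⟩
      rw [mul_smul, hb, inv_smul_smul])
    (fun ω hω => hfree ω (Finset.mem_sdiff.mp hω).1)
  refine ⟨f ω₀ + β, (hint ω₀).add hβ, ?_⟩
  rw [← Finset.sum_sdiff hOT, hsum, hO, Finset.sum_image]
  · simp only [hf, Finset.sum_const, Finset.card_univ, nsmul_eq_mul]
    ring
  · intro a _ b _ hab
    have h1 : (b⁻¹ * a) • ω₀ = ω₀ := by
      rw [mul_smul]
      have hab' : a • ω₀ = b • ω₀ := hab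
      rw [hab', inv_smul_smul]
    have := hfree ω₀ hω₀ _ h1
    exact (inv_mul_eq_one.mp this).symm

/-- in a subgroup of odd order no non-identity element is inverted -/
theorem not_inverted {G : Type*} [Group G] (L : Subgroup G) [Finite L] (hodd : Odd (Nat.card L))
    {g z : G} (hg : g ∈ L) (hz : z ∈ L) (h : g * z * g⁻¹ = z⁻¹) : z = 1 := by
  have hog : Odd (orderOf g) := by
    apply hodd.of_dvd_nat
    have := orderOf_dvd_natCard (⟨g, hg⟩ : L)
    rwa [Subgroup.orderOf_mk] at this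
  have hoz : Odd (orderOf z) := by
    apply hodd.of_dvd_nat
    have := orderOf_dvd_natCard (⟨z, hz⟩ : L)
    rwa [Subgroup.orderOf_mk] at this
  have h2 : ∀ j : ℕ, g ^ (2 * j) * z * (g ^ (2 * j))⁻¹ = z := by
    intro j
    induction j with
    | zero => simp
    | succ j ih =>
      have e1 : g ^ (2 * (j + 1)) = g ^ (2 * j) * (g * g) := by
        rw [← pow_two, ← pow_add, mul_add, mul_one]
      have e2 : g * g * z * (g * g)⁻¹ = z := by
        have : g * g * z * (g * g)⁻¹ = g * (g * z * g⁻¹) * g⁻¹ := by group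
        rw [this, h]
        have : g * z⁻¹ * g⁻¹ = (g * z * g⁻¹)⁻¹ := by group
        rw [this, h, inv_inv]
      calc g ^ (2 * (j + 1)) * z * (g ^ (2 * (j + 1)))⁻¹
          = g ^ (2 * j) * (g * g * z * (g * g)⁻¹) * (g ^ (2 * j))⁻¹ := by rw [e1]; group
        _ = z := by rw [e2, ih]
  obtain ⟨k, hk⟩ := hog
  have h3 : g ^ (2 * k + 1) = 1 := by rw [← hk]; exact pow_orderOf_eq_one g
  have h4 : z = z⁻¹ := by
    have e1 : g ^ (2 * k + 1) * z * (g ^ (2 * k + 1))⁻¹ = z⁻¹ := by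
      have : g ^ (2 * k + 1) * z * (g ^ (2 * k + 1))⁻¹ =
          g ^ (2 * k) * (g * z * g⁻¹) * (g ^ (2 * k))⁻¹ := by
        rw [pow_succ]; group
      rw [this, h]
      have : g ^ (2 * k) * z⁻¹ * (g ^ (2 * k))⁻¹ = (g ^ (2 * k) * z * (g ^ (2 * k))⁻¹)⁻¹ := by
        group
      rw [this, h2]
    rw [h3] at e1
    simpa using e1
  have h5 : z ^ 2 = 1 := by
    rw [pow_two]
    nth_rewrite 1 [h4]
    exact inv_mul_cancel z
  have h6 : orderOf z ∣ 2 := orderOf_dvd_of_pow_eq_one h5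
  have h7 : orderOf z = 1 := by
    rcases (Nat.dvd_prime Nat.prime_two).mp h6 with h | h
    · exact h
    · rw [h] at hoz
      exact absurd hoz (by decide)
  exact orderOf_eq_one_iff.mp h7

theorem main {G : Type*} [Group G] [Fintype G] (p : ℕ) [Fact p.Prime] (P : Sylow p G)
    (hTI : IsTISubset ((P : Subgroup G) : Set G))
    (hodd : Odd (Nat.card (Subgroup.normalizer ((P : Subgroup G) : Set G))))
    (Z : Subgroup G) (hZP : Z ≤ P)
    (hZn : ∀ x ∈ Subgroup.normalizer ((P : Subgroup G) : Set G), ∀ z ∈ Z, x * z * x⁻¹ ∈ Z)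
    (hZc : ∀ z ∈ Z, ∀ y ∈ (P : Subgroup G), z * y = y * z)
    (ψ : G → ℂ) (hψ : IsIrrCharacter G ψ)
    (hconst : ∀ z ∈ Z, ∀ z' ∈ Z, z ≠ 1 → z' ≠ 1 → ψ z = ψ z') (z : G) (hz : z ∈ Z)
    (hz1 : z ≠ 1) :
    ∃ n d : ℤ, ψ z = n ∧ ψ 1 = d ∧ (Nat.card (P : Subgroup G) : ℤ) ∣ d - n := by
  set L := Subgroup.normalizer ((P : Subgroup G) : Set G) with hL
  have hPL : (P : Subgroup G) ≤ L := Subgroup.le_normalizer
  have hc : IsCharacter G ψ := IsIrrCharacter.isCharacter hψ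
  have hcl : IsClassFunction G ψ := IsCharacter.isClassFunction hc
  have hd : (charDegree ψ : ℂ) = ψ 1 := charDegree_cast hc
  have hint : ∀ g, IsIntegral ℤ (ψ g) := fun g => char_isIntegral hc g
  -- the value on `Z` is an integer
  obtain ⟨n, hn⟩ : ∃ n : ℤ, ψ z = n := by
    have hr : IsCharacter Z (fun t : Z => ψ t) := IsCharacter.restrict Z hc
    have h1 : IsCharacter Z (fun _ => 1) := IsIrrCharacter.isCharacter isIrrCharacter_one
    obtain ⟨m₀, hm₀⟩ := IsCharacter.classInner_nat hr h1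
    unfold classInner at hm₀
    have hs : ∑ t : Z, ψ t = ψ 1 + ((Nat.card Z - 1 : ℕ) : ℂ) * ψ z := by
      rw [← Finset.add_sum_erase _ _ (Finset.mem_univ (1 : Z))]
      congr 1
      rw [Finset.sum_congr rfl (fun (t : Z) ht => hconst t t.2 z hz
        (fun h => (Finset.mem_erase.mp ht).1 (Subtype.ext h)) hz1), Finset.sum_const, Finset.card_erase_of_mem (Finset.mem_univ _),
        Finset.card_univ, nsmul_eq_mul, Nat.card_eq_fintype_card]
    have hZpos : 1 < Nat.card Z := by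
      rw [Subgroup.one_lt_card_iff_ne_bot]
      intro h
      rw [h, Subgroup.mem_bot] at hz
      exact hz1 hz
    have hZne : (Nat.card Z : ℂ) ≠ 0 := by
      have : Nat.card Z ≠ 0 := by omega
      exact_mod_cast this
    simp only [map_one, mul_one] at hm₀
    rw [hs, ← hd] at hm₀
    have h2 : (((Nat.card Z * m₀ : ℕ) : ℤ) - (charDegree ψ : ℤ) : ℤ) =
        ((Nat.card Z - 1 : ℕ) : ℂ) * ψ z := by
      push_cast
      have : (charDegree ψ : ℂ) + ((Nat.card Z - 1 : ℕ) : ℂ) * ψ z = Nat.card Z * m₀ := by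
        rw [← hm₀]
        field_simp
      linear_combination -this
    obtain ⟨n, hn⟩ := int_dvd_of_isIntegral (by omega) (hint z) h2
    refine ⟨n, ?_⟩
    rw [hn] at h2
    push_cast at h2
    have hne : ((Nat.card Z - 1 : ℕ) : ℂ) ≠ 0 := by
      have : Nat.card Z - 1 ≠ 0 := by omega
      exact_mod_cast this
    exact (mul_left_cancel₀ hne h2).symm
  refine ⟨n, charDegree ψ, hn, by rw [← hd]; simp, ?_⟩
  set C := Subgroup.centralizer ({z} : Set G) with hC
  have hCmem : ∀ v, v ∈ C ↔ v * z * v⁻¹ = z := by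
    intro v
    rw [hC, Subgroup.mem_centralizer_singleton_iff, mul_inv_eq_iff_eq_mul]
  have hCL : C ≤ L := by
    intro v hv
    by_contra hvL
    apply hz1
    apply hTI v hvL z (hZP hz)
    rw [(hCmem v).mp hv]
    exact hZP hz
  have hzi : z⁻¹ ∈ Z := Z.inv_mem hz
  have hzi1 : z⁻¹ ≠ 1 := fun h => hz1 (inv_eq_one.mp h)
  let D : G → ℂ := fun g => ψ (g * z * g⁻¹ * z) - ψ (g * z⁻¹ * g⁻¹ * z)
  have htotal : ∑ g : G, D g = 0 := by
    simp only [D, Finset.sum_sub_distrib]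
    rw [schur_average hψ z z, schur_average hψ z⁻¹ z, hconst z⁻¹ hzi z hz hzi1 hz1, sub_self]
  have hDL : ∀ g ∈ L, D g = if g ∈ C then ψ z - ψ 1 else 0 := by
    intro g hg
    have h1 : g * z * g⁻¹ ∈ Z := hZn g hg z hz
    have h2 : g * z * g⁻¹ * z ≠ 1 := by
      intro h
      apply hz1
      exact not_inverted L hodd hg (hPL (hZP hz)) (mul_eq_one_iff_eq_inv.mp h)
    have h3 : ψ (g * z * g⁻¹ * z) = ψ z := hconst _ (Z.mul_mem h1 hz) z hz h2 hz1
    have h4 : g * z⁻¹ * g⁻¹ ∈ Z := hZn g hg _ hzi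
    simp only [D]
    rw [h3]
    split_ifs with hgC
    · have : g * z⁻¹ * g⁻¹ * z = 1 := by
        have e : g * z⁻¹ * g⁻¹ = (g * z * g⁻¹)⁻¹ := by group
        rw [e, (hCmem g).mp hgC, inv_mul_cancel]
      rw [this]
    · have h5 : g * z⁻¹ * g⁻¹ * z ≠ 1 := by
        intro h
        apply hgC
        rw [hCmem]
        have e : g * z⁻¹ * g⁻¹ = (g * z * g⁻¹)⁻¹ := by group
        rw [e, inv_mul_eq_one] at h
        exact h
      rw [hconst _ (Z.mul_mem h4 hz) z hz h5 hz1, sub_self]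
  have hsumL : ∑ g ∈ Finset.univ.filter (fun g => g ∈ L), D g =
      (Nat.card C : ℂ) * (ψ z - ψ 1) := by
    rw [Finset.sum_congr rfl (fun g hg => hDL g (Finset.mem_filter.mp hg).2), ← Finset.sum_filter,
      Finset.sum_const, nsmul_eq_mul, Finset.filter_filter]
    congr 2
    rw [Nat.card_eq_fintype_card, Fintype.card_subtype]
    congr 1
    ext g
    simp only [Finset.mem_filter, Finset.mem_univ, true_and]
    exact ⟨fun h => h.2, fun h => ⟨hCL h, h⟩⟩
  -- the free action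
  let _ : MulAction (↥(P : Subgroup G) × ↥C) G :=
    { smul := fun a g => (a.1 : G) * g * (a.2 : G)⁻¹
      one_smul := fun g => by
        change ((1 : ↥(P : Subgroup G) × ↥C).1 : G) * g * (((1 : ↥(P : Subgroup G) × ↥C).2 : G))⁻¹ = g
        simp
      mul_smul := fun a b g => by
        change (((a * b).1 : ↥(P : Subgroup G)) : G) * g * (((a * b).2 : ↥C) : G)⁻¹ =
          (a.1 : G) * ((b.1 : G) * g * (b.2 : G)⁻¹) * (a.2 : G)⁻¹
        simp only [Prod.fst_mul, Prod.snd_mul, Subgroup.coe_mul]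
        group }
  have hsm : ∀ (a : ↥(P : Subgroup G) × ↥C) (g : G), a • g = (a.1 : G) * g * (a.2 : G)⁻¹ :=
    fun _ _ => rfl
  have hinv : ∀ (y : G), y ∈ Z → ∀ (a : ↥(P : Subgroup G) × ↥C) (g : G),
      (∀ v ∈ C, v⁻¹ * y * v = y) →
      ψ ((a • g) * y * (a • g)⁻¹ * z) = ψ (g * y * g⁻¹ * z) := by
    intro y _ a g hy
    rw [hsm]
    have e1 : (a.1 : G) * g * (a.2 : G)⁻¹ * y * ((a.1 : G) * g * (a.2 : G)⁻¹)⁻¹ * z =
        (a.1 : G) * (g * ((a.2 : G)⁻¹ * y * (a.2 : G)) * g⁻¹ * ((a.1 : G)⁻¹ * z * (a.1 : G))) *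
          (a.1 : G)⁻¹ := by group
    have e2 : (a.1 : G)⁻¹ * z * (a.1 : G) = z := by
      rw [mul_assoc, hZc z hz _ a.1.2, inv_mul_cancel_left]
    rw [e1, hcl, e2, hy _ a.2.2]
  have hCz : ∀ v ∈ C, v⁻¹ * z * v = z := by
    intro v hv
    have := (hCmem v).mp hv
    calc v⁻¹ * z * v = v⁻¹ * (v * z * v⁻¹) * v := by rw [this]
      _ = z := by group
  have hCzi : ∀ v ∈ C, v⁻¹ * z⁻¹ * v = z⁻¹ := by
    intro v hv
    have e : v⁻¹ * z⁻¹ * v = (v⁻¹ * z * v)⁻¹ := by group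
    rw [e, hCz v hv]
  obtain ⟨β, hβ, hsumT⟩ := free_sum (A := ↥(P : Subgroup G) × ↥C) D
    (fun a g => by
      simp only [D]
      rw [hinv z hz a g hCz, hinv z⁻¹ hzi a g hCzi])
    (fun g => (hint _).sub (hint _)) _ (Finset.univ.filter (fun g => ¬ g ∈ L)) rfl
    (by
      intro a g hg
      rw [Finset.mem_filter] at hg ⊢
      refine ⟨Finset.mem_univ _, fun h => hg.2 ?_⟩
      rw [hsm] at h
      have h1 : (a.1 : G)⁻¹ * ((a.1 : G) * g * (a.2 : G)⁻¹) * (a.2 : G) ∈ L :=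
        L.mul_mem (L.mul_mem (L.inv_mem (hPL a.1.2)) h) (hCL a.2.2)
      have e : (a.1 : G)⁻¹ * ((a.1 : G) * g * (a.2 : G)⁻¹) * (a.2 : G) = g := by group
      rwa [e] at h1)
    (by
      intro g hg a ha
      rw [Finset.mem_filter] at hg
      rw [hsm] at ha
      have hu : (a.1 : G) = g * (a.2 : G) * g⁻¹ := by
        calc (a.1 : G) = ((a.1 : G) * g * (a.2 : G)⁻¹) * (a.2 : G) * g⁻¹ := by group
          _ = _ := by rw [ha]
      have hvP : (a.2 : G) ∈ (P : Subgroup G) := by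
        apply Cfsg.Agent.Lib.Helper22.mem_sylow_of_mem_normalizer (P := g⁻¹ • P) _ (hCL a.2.2)
        rw [Cfsg.Agent.Lib.Helper22.mem_smul_sylow, inv_inv, ← hu]
        exact a.1.2
      have hv1 : (a.2 : G) = 1 := hTI g hg.2 _ hvP (by rw [← hu]; exact a.1.2)
      have hu1 : (a.1 : G) = 1 := by rw [hu, hv1]; group
      exact Prod.ext (Subtype.ext hu1) (Subtype.ext hv1))
  rw [← Finset.sum_filter_add_sum_filter_not Finset.univ (fun g => g ∈ L), hsumL, hsumT,
    Fintype.card_prod, ← Nat.card_eq_fintype_card, ← Nat.card_eq_fintype_card] at htotal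
  have hCne : (Nat.card C : ℂ) ≠ 0 := by
    have : Nat.card C ≠ 0 := Nat.card_pos.ne'
    exact_mod_cast this
  apply int_dvd_of_isIntegral (Nat.card_pos.ne') hβ
  push_cast at htotal ⊢
  rw [hd, ← hn]
  apply mul_left_cancel₀ hCne
  linear_combination -htotal

end Cfsg.Agent.Lib.Lead.TISyl
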